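import Mathlib
import Cfsg.Agent.Helper10.PStabOdd

set_option autoImplicit false

universe u

namespace Cfsg.Agent.Helper10

/-- Abelian Sylow `2`-subgroups pass to groups that embed. -/
theorem abelian_sylow2_of_injective {K H : Type*} [Group K] [Group H] [Finite H]
    (f : K →* H) (hf : Function.Injective f) (hab : ∀ T : Sylow 2 H, IsMulCommutative T) :
    ∀ T : Sylow 2 K, IsMulCommutative T := by
  intro T
  haveI : Fact (Nat.Prime 2) := ⟨Nat.prime_two⟩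
  have h2 : IsPGroup 2 ((T : Subgroup K).map f) := T.isPGroup'.map f
  obtain ⟨S, hS⟩ := h2.exists_le_sylow
  haveI := hab S
  refine ⟨⟨fun x y => ?_⟩⟩
  apply Subtype.ext
  apply hf
  have hx : f x ∈ (S : Subgroup H) := hS ⟨x, x.2, rfl⟩
  have hy : f y ∈ (S : Subgroup H) := hS ⟨y, y.2, rfl⟩
  have h3 : (⟨f x, hx⟩ : (S : Subgroup H)) * ⟨f y, hy⟩ = ⟨f y, hy⟩ * ⟨f x, hx⟩ := mul_comm' _ _
  have h4 := congrArg Subtype.val h3
  simpa using h4

/-- One abelian Sylow `2`-subgroup makes all of them abelian. -/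
theorem abelian_all_sylow2 {H : Type*} [Group H] [Finite H] (T : Sylow 2 H)
    (hT : IsMulCommutative T) : ∀ T' : Sylow 2 H, IsMulCommutative T' := by
  intro T'
  haveI : Fact (Nat.Prime 2) := ⟨Nat.prime_two⟩
  obtain ⟨g, rfl⟩ := MulAction.exists_smul_eq H T T'
  refine ⟨⟨fun x y => ?_⟩⟩
  apply Subtype.ext
  have hkey : ∀ z : H, z ∈ ((g • T : Sylow 2 H) : Subgroup H) → g⁻¹ * z * g ∈ (T : Subgroup H) := by
    intro z hz
    rw [Sylow.coe_subgroup_smul, Subgroup.mem_pointwise_smul_iff_inv_smul_mem] at hz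
    simpa [MulAut.smul_def, mul_assoc] using hz
  have hx : g⁻¹ * (x : H) * g ∈ (T : Subgroup H) := hkey _ x.2
  have hy : g⁻¹ * (y : H) * g ∈ (T : Subgroup H) := hkey _ y.2
  have h3 : (⟨_, hx⟩ : (T : Subgroup H)) * ⟨_, hy⟩ = ⟨_, hy⟩ * ⟨_, hx⟩ := mul_comm' _ _
  have h4 : (g⁻¹ * (x : H) * g) * (g⁻¹ * (y : H) * g) = (g⁻¹ * (y : H) * g) * (g⁻¹ * (x : H) * g) :=
    congrArg Subtype.val h3
  have h5 : (x : H) * (y : H) = g * ((g⁻¹ * (x : H) * g) * (g⁻¹ * (y : H) * g)) * g⁻¹ := by group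
  have h6 : (y : H) * (x : H) = g * ((g⁻¹ * (y : H) * g) * (g⁻¹ * (x : H) * g)) * g⁻¹ := by group
  show (x : H) * (y : H) = (y : H) * (x : H)
  rw [h5, h6, h4]

/-- Two quadratically acting elements `a`, `b` normalising a `p`-subgroup `V` (`p` odd), whose
generated subgroup satisfies the `GL₂` obstruction, generate a group inducing a `p`-group on `V`. -/
theorem quad_two_gen {G : Type u} [Group G] [Finite G] (p : ℕ) [Fact p.Prime] (hp : p ≠ 2)
    (V : Subgroup G) (hV : IsPGroup p V) (a b : G) (K : Subgroup G)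
    (hK : K = Subgroup.closure ({a, b} : Set G)) (hcore : GL2Core K)
    (hKV : K ≤ Subgroup.normalizer (V : Set G))
    (hqa : ∀ u ∈ V, a * (a * u * a⁻¹ * u⁻¹) * a⁻¹ = a * u * a⁻¹ * u⁻¹)
    (hqb : ∀ u ∈ V, b * (b * u * b⁻¹ * u⁻¹) * b⁻¹ = b * u * b⁻¹ * u⁻¹) :
    ∀ h ∈ K, ∃ k : ℕ, h ^ (p ^ k) ∈ Subgroup.centralizer (V : Set G) := by
  classical
  have haK : a ∈ K := by rw [hK]; exact Subgroup.subset_closure (by simp)
  have hbK : b ∈ K := by rw [hK]; exact Subgroup.subset_closure (by simp)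
  have hgen : Subgroup.closure ({⟨a, haK⟩, ⟨b, hbK⟩} : Set K) = ⊤ := by
    subst hK
    have h1 := Subgroup.closure_closure_coe_preimage (k := ({a, b} : Set G))
    have h2 : ((↑) : Subgroup.closure ({a, b} : Set G) → G) ⁻¹' ({a, b} : Set G) =
        ({⟨a, haK⟩, ⟨b, hbK⟩} : Set (Subgroup.closure ({a, b} : Set G))) := by
      ext z
      simp [Subtype.ext_iff]
    rw [h2] at h1
    exact h1
  obtain ⟨N, hN⟩ : ∃ N : Subgroup G, N = Subgroup.normalizer (V : Set G) := ⟨_, rfl⟩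
  have hKN : K ≤ N := hN ▸ hKV
  have hVn : (V.subgroupOf N).Normal := by
    rw [hN]
    exact Subgroup.normal_in_normalizer
  obtain ⟨φ, hφ⟩ : ∃ φ : K →* MulAut (V.subgroupOf N), ∀ (h : K) (u : V.subgroupOf N),
      (((φ h u : V.subgroupOf N) : N) : G) = (h : G) * ((u : N) : G) * (h : G)⁻¹ :=
    ⟨(MulAut.conjNormal (H := V.subgroupOf N)).comp (Subgroup.inclusion hKN), fun h u => rfl⟩
  have hqc : ∀ (c : G) (hc : c ∈ K),
      (∀ u ∈ V, c * (c * u * c⁻¹ * u⁻¹) * c⁻¹ = c * u * c⁻¹ * u⁻¹) →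
      ∀ u : V.subgroupOf N, φ ⟨c, hc⟩ (φ ⟨c, hc⟩ u * u⁻¹) = φ ⟨c, hc⟩ u * u⁻¹ := by
    intro c hc hqc' u
    apply Subtype.ext
    apply Subtype.ext
    rw [hφ, Subgroup.coe_mul, Subgroup.coe_mul, hφ, Subgroup.coe_inv, Subgroup.coe_inv]
    exact hqc' _ (Subgroup.mem_subgroupOf.1 u.2)
  have key := quad_pgroup_gen p hp hcore ⟨a, haK⟩ ⟨b, hbK⟩ hgen (Nat.card (V.subgroupOf N))
    (V.subgroupOf N) rfl (IsPGroup.comap_subtype hV) φ (hqc a haK hqa) (hqc b hbK hqb)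
  intro h hh
  obtain ⟨k, hk⟩ := key ⟨h, hh⟩
  refine ⟨k, ?_⟩
  rw [Subgroup.mem_centralizer_iff]
  intro u hu
  have huN : u ∈ N := by rw [hN]; exact Subgroup.le_normalizer hu
  have h1 : φ (⟨h, hh⟩ ^ p ^ k) = 1 := (map_pow φ _ _).trans hk
  have h3 := congrArg (fun e : MulAut (V.subgroupOf N) =>
    (((e ⟨⟨u, huN⟩, Subgroup.mem_subgroupOf.2 hu⟩ : V.subgroupOf N) : N) : G)) h1
  simp only [hφ] at h3
  have h4 : h ^ p ^ k * u * (h ^ p ^ k)⁻¹ = u := by simpa using h3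
  exact (mul_inv_eq_iff_eq_mul.1 h4).symm

end Cfsg.Agent.Helper10
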