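import Mathlib
import Cfsg.Agent.Helper10.QuadAb
import Cfsg.Agent.Helper27.Basic
import Cfsg.Prelude.Def_PLocal

set_option autoImplicit false

universe u

namespace Cfsg.Agent.Helper10

open scoped commutatorElement

/-- Abelian Sylow `2`-subgroups pass to quotients. -/
theorem abelian_sylow2_of_surjective {G Q : Type*} [Group G] [Finite G] [Group Q] [Finite Q]
    (f : G →* Q) (hf : Function.Surjective f) (hab : ∀ T : Sylow 2 G, IsMulCommutative T) :
    ∀ T : Sylow 2 Q, IsMulCommutative T := by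
  haveI : Fact (Nat.Prime 2) := ⟨Nat.prime_two⟩
  obtain ⟨S⟩ : Nonempty (Sylow 2 G) := inferInstance
  apply abelian_all_sylow2 (S.mapSurjective hf)
  haveI := hab S
  refine ⟨⟨fun x y => ?_⟩⟩
  apply Subtype.ext
  have hco : ((S.mapSurjective hf : Sylow 2 Q) : Subgroup Q) = (S : Subgroup G).map f :=
    Sylow.coe_mapSurjective _ S
  have hx : (x : Q) ∈ (S : Subgroup G).map f := hco ▸ x.2
  have hy : (y : Q) ∈ (S : Subgroup G).map f := hco ▸ y.2
  obtain ⟨x', hx', hxx⟩ := hx
  obtain ⟨y', hy', hyy⟩ := hy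
  have h3 : (⟨x', hx'⟩ : (S : Subgroup G)) * ⟨y', hy'⟩ = ⟨y', hy'⟩ * ⟨x', hx'⟩ := mul_comm' _ _
  have h4 : x' * y' = y' * x' := congrArg Subtype.val h3
  show (x : Q) * (y : Q) = (y : Q) * (x : Q)
  rw [← hxx, ← hyy, ← map_mul, ← map_mul, h4]

/-- All subgroups of a group with abelian Sylow `2`-subgroups satisfy the `GL₂` obstruction. -/
theorem gl2Core_subgroups {G : Type*} [Group G] [Finite G]
    (hab : ∀ T : Sylow 2 G, IsMulCommutative T) : ∀ H : Subgroup G, GL2Core H := fun H =>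
  gl2Core_of_abelian_sylow2 (abelian_sylow2_of_injective H.subtype H.subtype_injective hab)

/-- `p`-stability of the action on a normal `p`-subgroup. -/
theorem isPStableOn_of_core {N : Type u} [Group N] [Finite N]
    (hcore : ∀ H : Subgroup N, GL2Core H) (p : ℕ) [Fact p.Prime] (hp : p ≠ 2)
    (V : Subgroup N) [V.Normal] (hV : IsPGroup p V) : Cfsg.IsPStableOn p V := by
  intro a hq
  exact pstab_gen_normal hcore p hp V hV (Subgroup.centralizer (V : Set N))
    (fun g hg => by
      rw [Subgroup.mem_centralizer_iff]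
      intro u hu
      exact (mul_inv_eq_iff_eq_mul.1 (hg u hu)).symm) a
    (quad_of_commutator V (Subgroup.zpowers a) hq a (Subgroup.mem_zpowers a))

/-- `p`-stability of the action on a normal section `K / N` with `K` a `p`-group. -/
theorem isPStableOnSection_of_core {G : Type u} [Group G] [Finite G] (p : ℕ) [Fact p.Prime]
    (hp : p ≠ 2) (K N : Subgroup G) [hKn : K.Normal] [N.Normal] (hK : IsPGroup p K)
    (hcore : ∀ H : Subgroup (G ⧸ N), GL2Core H) : Cfsg.IsPStableOnSection p K N := by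
  intro a hq
  obtain ⟨Kb, hKb⟩ : ∃ Kb : Subgroup (G ⧸ N), Kb = K.map (QuotientGroup.mk' N) := ⟨_, rfl⟩
  have hKbn : Kb.Normal := by
    rw [hKb]; exact hKn.map _ (QuotientGroup.mk'_surjective N)
  have hKbp : IsPGroup p Kb := by rw [hKb]; exact hK.map _
  obtain ⟨C, hC⟩ : ∃ C : Subgroup (G ⧸ N), C = Subgroup.centralizer (Kb : Set (G ⧸ N)) :=
    ⟨_, rfl⟩
  have hCn : C.Normal := by rw [hC]; infer_instance
  have hmem := pstab_gen_normal hcore p hp Kb hKbp C (fun g hg => by
      rw [hC, Subgroup.mem_centralizer_iff]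
      intro u hu
      exact (mul_inv_eq_iff_eq_mul.1 (hg u hu)).symm) (QuotientGroup.mk' N a) (by
      intro u hu
      rw [hKb] at hu
      obtain ⟨v, hv, rfl⟩ := hu
      have h1 : ⁅⁅v, a⁆, a⁆ ∈ N :=
        hq (Subgroup.commutator_mem_commutator
          (Subgroup.commutator_mem_commutator hv (Subgroup.mem_zpowers a))
          (Subgroup.mem_zpowers a))
      have h2 : (QuotientGroup.mk' N) ⁅⁅v, a⁆, a⁆ = 1 := (QuotientGroup.eq_one_iff _).2 h1
      rw [map_commutatorElement, map_commutatorElement,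
        commutatorElement_eq_one_iff_commute] at h2
      have e : QuotientGroup.mk' N a * QuotientGroup.mk' N v * (QuotientGroup.mk' N a)⁻¹ *
          (QuotientGroup.mk' N v)⁻¹ = ⁅QuotientGroup.mk' N v, QuotientGroup.mk' N a⁆⁻¹ := by
        rw [commutatorElement_def]; group
      rw [e, mul_inv_eq_iff_eq_mul]
      exact (h2.inv_left.eq).symm)
  obtain ⟨ψ, hψ⟩ : ∃ ψ : G →* (G ⧸ N) ⧸ C,
      ψ = (QuotientGroup.mk' C).comp (QuotientGroup.mk' N) := ⟨_, rfl⟩
  have hψs : Function.Surjective ψ := by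
    rw [hψ]
    exact (QuotientGroup.mk'_surjective C).comp (QuotientGroup.mk'_surjective N)
  have hker : Cfsg.sectionKernel K N = ψ.ker := by
    rw [hψ, ← MonoidHom.comap_ker, QuotientGroup.ker_mk', hC, hKb]
    rfl
  refine ⟨(Cfsg.pCore p ((G ⧸ N) ⧸ C)).comap ψ, ?_, ?_, ?_, ?_⟩
  · exact (Cfsg.pCore_normal p _).comap ψ
  · rw [hker]
    intro x hx
    rw [Subgroup.mem_comap, (MonoidHom.mem_ker).1 hx]
    exact Subgroup.one_mem _
  · rw [hker]
    have h1 : ψ.ker = (⊥ : Subgroup ((G ⧸ N) ⧸ C)).comap ψ := (MonoidHom.comap_bot ψ).symm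
    rw [h1, Subgroup.relIndex_comap, Subgroup.map_comap_eq_self_of_surjective hψs,
      Subgroup.relIndex_bot_left]
    exact (Cfsg.Agent.Helper27.pCore_isPGroup p _).exists_card_eq
  · rw [Subgroup.mem_comap, hψ]
    exact hmem

end Cfsg.Agent.Helper10
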