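import Mathlib
import Cfsg.Agent.Helper10.AbDual

set_option autoImplicit false

namespace Cfsg.Agent.Helper10

/-- A finite abelian group has as many complex linear characters as elements. -/
theorem card_hom_units {Q : Type*} [Group Q] [Finite Q] (hc : ∀ a b : Q, a * b = b * a) :
    Nat.card (Q →* ℂˣ) = Nat.card Q := by
  letI : CommGroup Q := { (inferInstance : Group Q) with mul_comm := hc }
  have : NeZero ((Monoid.exponent Q : ℕ) : ℂ) :=
    ⟨by exact_mod_cast Monoid.exponent_ne_zero_of_finite⟩
  exact CommGroup.card_monoidHom_of_hasEnoughRootsOfUnity Q ℂ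

/-- In a finite abelian group, at least `[W : N]` linear characters are trivial on `N`. -/
theorem index_le_card_hom_trivial {W : Type*} [Group W] [Finite W]
    (hc : ∀ a b : W, a * b = b * a) (N : Subgroup W) :
    N.index ≤ Nat.card {φ : W →* ℂˣ // ∀ w ∈ N, φ w = 1} := by
  have : N.Normal := ⟨fun n hn g => by rw [hc g n, mul_inv_cancel_right]; exact hn⟩
  have hQ : ∀ a b : W ⧸ N, a * b = b * a := by
    intro a b
    induction a using QuotientGroup.induction_on
    induction b using QuotientGroup.induction_on
    rw [← QuotientGroup.mk_mul, ← QuotientGroup.mk_mul, hc]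
  have h1 := card_hom_units hQ
  have hfin := finite_hom_units (Q := W)
  have hidx : N.index = Nat.card (W ⧸ N) := rfl
  rw [hidx, ← h1]
  let F : (W ⧸ N →* ℂˣ) → {φ : W →* ℂˣ // ∀ w ∈ N, φ w = 1} := fun l =>
    ⟨l.comp (QuotientGroup.mk' N), fun w hw => by
      have : (QuotientGroup.mk w : W ⧸ N) = 1 := (QuotientGroup.eq_one_iff w).2 hw
      simp [this]⟩
  refine Nat.card_le_card_of_injective F ?_
  intro l l' h
  have h2 := congrArg Subtype.val h
  ext q
  have h3 := DFunLike.congr_fun h2 q
  have h4 : l (q : W ⧸ N) = l' (q : W ⧸ N) := by simpa [F] using h3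
  simpa using congrArg (fun z : ℂˣ => (z : ℂ)) h4

/-- An "additive" matrix `x i + y j` with few nonzero entries is zero, or supported on a single
column where it is constant, or supported on a single row where it is constant. -/
theorem additive_matrix {I J : Type*} [Fintype I] [Fintype J] [DecidableEq I] [DecidableEq J]
    (x : I → ℂ) (y : J → ℂ) (n₁ : ℕ) (hI : n₁ ≤ Fintype.card I) (hJ : n₁ + 2 ≤ Fintype.card J)
    (hfew : (Finset.univ.filter (fun p : I × J => x p.1 + y p.2 ≠ 0)).card < 2 * n₁) :
    (∀ i j, x i + y j = 0) ∨ (∃ j₀ c, ∀ i j, x i + y j = if j = j₀ then c else 0) ∨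
      (∃ i₀ c, ∀ i j, x i + y j = if i = i₀ then c else 0) := by
  classical
  obtain ⟨NZ, hNZ⟩ : ∃ NZ : Finset (I × J),
      NZ = Finset.univ.filter (fun p : I × J => x p.1 + y p.2 ≠ 0) := ⟨_, rfl⟩
  rw [← hNZ] at hfew
  have hmemNZ : ∀ i j, (i, j) ∈ NZ ↔ x i + y j ≠ 0 := by
    intro i j
    rw [hNZ, Finset.mem_filter]
    simp
  have hn₁ : 0 < n₁ := by omega
  have hIne : Nonempty I := by
    rw [← Fintype.card_pos_iff]
    omega
  obtain ⟨i₀⟩ := hIne
  have hJne : Nonempty J := by
    rw [← Fintype.card_pos_iff]
    omega
  obtain ⟨j₀'⟩ := hJne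
  by_cases hx : ∀ i i', x i = x i'
  · obtain ⟨Z, hZ⟩ : ∃ Z : Finset J, Z = Finset.univ.filter (fun j : J => x i₀ + y j ≠ 0) :=
      ⟨_, rfl⟩
    have hmemZ : ∀ j, j ∈ Z ↔ x i₀ + y j ≠ 0 := by
      intro j
      rw [hZ, Finset.mem_filter]
      simp
    have hNZeq : NZ = (Finset.univ : Finset I) ×ˢ Z := by
      ext ⟨i, j⟩
      rw [hmemNZ, Finset.mem_product, hmemZ, hx i i₀]
      simp
    have hcard : Fintype.card I * Z.card < 2 * n₁ := by
      rw [← Finset.card_univ, ← Finset.card_product, ← hNZeq]
      exact hfew
    have hZle : Z.card ≤ 1 := by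
      by_contra h
      push Not at h
      have h2 : 2 * n₁ ≤ Fintype.card I * Z.card := by nlinarith
      omega
    rcases Nat.lt_or_ge Z.card 1 with h0 | h1
    · left
      have hZe : Z = ∅ := Finset.card_eq_zero.1 (by omega)
      intro i j
      by_contra hne
      have hj : j ∈ Z := by
        rw [hmemZ, ← hx i i₀]
        exact hne
      rw [hZe] at hj
      exact absurd hj (Finset.notMem_empty j)
    · right
      left
      obtain ⟨j₀, hj₀⟩ := Finset.card_eq_one.1 (le_antisymm hZle h1)
      refine ⟨j₀, x i₀ + y j₀, ?_⟩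
      intro i j
      by_cases hj : j = j₀
      · rw [if_pos hj, hj, hx i i₀]
      · rw [if_neg hj]
        by_contra hne
        have hjZ : j ∈ Z := by
          rw [hmemZ, ← hx i i₀]
          exact hne
        rw [hj₀, Finset.mem_singleton] at hjZ
        exact hj hjZ
  · by_cases hy : ∀ j j', y j = y j'
    · obtain ⟨Z, hZ⟩ : ∃ Z : Finset I, Z = Finset.univ.filter (fun i : I => x i + y j₀' ≠ 0) :=
        ⟨_, rfl⟩
      have hmemZ : ∀ i, i ∈ Z ↔ x i + y j₀' ≠ 0 := by
        intro i
        rw [hZ, Finset.mem_filter]
        simp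
      have hNZeq : NZ = Z ×ˢ (Finset.univ : Finset J) := by
        ext ⟨i, j⟩
        rw [hmemNZ, Finset.mem_product, hmemZ, hy j j₀']
        simp
      have hcard : Z.card * Fintype.card J < 2 * n₁ := by
        rw [← Finset.card_univ, ← Finset.card_product, ← hNZeq]
        exact hfew
      have hZle : Z.card ≤ 1 := by
        by_contra h
        push Not at h
        have h2 : 2 * n₁ ≤ Z.card * Fintype.card J := by nlinarith
        omega
      rcases Nat.lt_or_ge Z.card 1 with h0 | h1
      · left
        have hZe : Z = ∅ := Finset.card_eq_zero.1 (by omega)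
        intro i j
        by_contra hne
        have hi : i ∈ Z := by
          rw [hmemZ, ← hy j j₀']
          exact hne
        rw [hZe] at hi
        exact absurd hi (Finset.notMem_empty i)
      · right
        right
        obtain ⟨i₁, hi₁⟩ := Finset.card_eq_one.1 (le_antisymm hZle h1)
        refine ⟨i₁, x i₁ + y j₀', ?_⟩
        intro i j
        by_cases hi : i = i₁
        · rw [if_pos hi, hi, hy j j₀']
        · rw [if_neg hi]
          by_contra hne
          have hiZ : i ∈ Z := by
            rw [hmemZ, ← hy j j₀']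
            exact hne
          rw [hi₁, Finset.mem_singleton] at hiZ
          exact hi hiZ
    · exfalso
      push Not at hx hy
      obtain ⟨i₁, i₂, hi⟩ := hx
      obtain ⟨j₁, j₂, hj⟩ := hy
      obtain ⟨S₁, hS₁⟩ : ∃ S₁ : Finset (I × J), S₁ = Finset.univ.image
          (fun j : J => ((if x i₁ + y j ≠ 0 then i₁ else i₂), j)) := ⟨_, rfl⟩
      obtain ⟨S₂, hS₂⟩ : ∃ S₂ : Finset (I × J), S₂ = ((Finset.univ.erase i₁).erase i₂).image
          (fun i : I => (i, (if x i + y j₁ ≠ 0 then j₁ else j₂))) := ⟨_, rfl⟩
      have hS₁card : S₁.card = Fintype.card J := by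
        rw [hS₁, Finset.card_image_of_injective, Finset.card_univ]
        intro j j' h
        exact (Prod.ext_iff.1 h).2
      have hS₂card : Fintype.card I - 2 ≤ S₂.card := by
        rw [hS₂, Finset.card_image_of_injective]
        · have h1 := Finset.pred_card_le_card_erase (s := Finset.univ.erase i₁) (a := i₂)
          have h2 := Finset.pred_card_le_card_erase (s := (Finset.univ : Finset I)) (a := i₁)
          rw [Finset.card_univ] at h2
          omega
        · intro i i' h
          exact (Prod.ext_iff.1 h).1
      have hdisj : Disjoint S₁ S₂ := by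
        rw [Finset.disjoint_left]
        intro p hp1 hp2
        rw [hS₁, Finset.mem_image] at hp1
        rw [hS₂, Finset.mem_image] at hp2
        obtain ⟨j, -, rfl⟩ := hp1
        obtain ⟨i, hi', hp⟩ := hp2
        have h1 : i = (if x i₁ + y j ≠ 0 then i₁ else i₂) := (Prod.ext_iff.1 hp).1
        rw [Finset.mem_erase, Finset.mem_erase] at hi'
        by_cases hc : x i₁ + y j ≠ 0
        · rw [if_pos hc] at h1
          exact hi'.2.1 h1
        · rw [if_neg hc] at h1
          exact hi'.1 h1
      have hsub : S₁ ∪ S₂ ⊆ NZ := by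
        intro p hp
        rw [Finset.mem_union] at hp
        rcases hp with hp | hp
        · rw [hS₁, Finset.mem_image] at hp
          obtain ⟨j, -, rfl⟩ := hp
          rw [hmemNZ]
          by_cases hc : x i₁ + y j ≠ 0
          · rw [if_pos hc]
            exact hc
          · rw [if_neg hc]
            push Not at hc
            intro h2
            apply hi
            linear_combination hc - h2
        · rw [hS₂, Finset.mem_image] at hp
          obtain ⟨i, -, rfl⟩ := hp
          rw [hmemNZ]
          by_cases hc : x i + y j₁ ≠ 0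
          · rw [if_pos hc]
            exact hc
          · rw [if_neg hc]
            push Not at hc
            intro h2
            apply hj
            linear_combination hc - h2
      have h3 := Finset.card_le_card hsub
      rw [Finset.card_union_of_disjoint hdisj] at h3
      omega

end Cfsg.Agent.Helper10
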