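import Mathlib
import Cfsg.Agent.S1477
import Cfsg.Agent.S1474
import Cfsg.Agent.S0040
import Cfsg.Agent.Helper1.FrobCompl
import Cfsg.Agent.Helper1.SZ
import Cfsg.Agent.Helper13.OddCent
import Cfsg.Agent.Helper16.PCore
import Cfsg.Agent.Helper9.TypeP

set_option autoImplicit false

/-!
# Solvable CN-groups, helper10
-/

namespace Cfsg.Agent.Helper10

open Cfsg

universe u

/-- A non-nilpotent CN-group with a nontrivial normal nilpotent Hall subgroup is a Frobenius
group with nilpotent complement. -/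
theorem cn_frob_of_fittingHall {G : Type u} [Group G] [Finite G] (hCN : Cfsg.IsCNGroup G)
    (hnn : ¬ Group.IsNilpotent G) (hF1 : Cfsg.fittingHall G ≠ ⊥) :
    ∃ E : Subgroup G, Subgroup.IsComplement' (Cfsg.fittingHall G) E ∧
      Cfsg.IsFrobeniusComplement E ∧
      (∀ e ∈ E, e ≠ 1 → Cfsg.fittingHall G ⊓ Subgroup.centralizer ({e} : Set G) = ⊥) ∧
      Group.IsNilpotent E := by
  classical
  obtain ⟨hFnil, hcop⟩ := Cfsg.Agent.Helper9.fittingHall_nilpotent_coprime G
  haveI hFn : (Cfsg.fittingHall G).Normal := Cfsg.fittingHall_normal G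
  have hmaxF : ∀ N : Subgroup G, N.Normal → Group.IsNilpotent N →
      (Nat.card N).Coprime N.index → N ≤ Cfsg.fittingHall G := by
    intro N h1 h2 h3
    exact le_sSup ⟨h1, h2, h3⟩
  have hF2 : Cfsg.fittingHall G ≠ ⊤ := by
    intro h
    apply hnn
    rw [h] at hFnil
    haveI := hFnil
    exact Group.nilpotent_of_mulEquiv Subgroup.topEquiv
  obtain ⟨E, hFE⟩ := Subgroup.exists_right_complement'_of_coprime hcop
  have hdisj : Cfsg.fittingHall G ⊓ E = ⊥ := disjoint_iff.mp hFE.disjoint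
  have hA : ∀ e ∈ E, e ≠ 1 → ∀ x ∈ Cfsg.fittingHall G, e * x = x * e → x = 1 := by
    intro e he he1 x hx hex
    by_contra hx1
    exact Cfsg.Agent.S1474.no_fixed hCN (Cfsg.fittingHall G) E hFnil hcop hFE hmaxF he he1 hx hx1 hex
  have hE1 : E ≠ ⊥ := by
    intro h
    rw [h] at hFE
    exact hF2 (Subgroup.isComplement'_bot_right.mp hFE)
  have hE2 : E ≠ ⊤ := by
    intro h
    rw [h] at hFE
    exact hF1 (Subgroup.isComplement'_top_right.mp hFE)
  have hdecomp : ∀ g : G, ∃ f ∈ Cfsg.fittingHall G, ∃ e ∈ E, g = f * e := by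
    intro g
    have hg : g ∈ Cfsg.fittingHall G ⊔ E := by
      rw [hFE.sup_eq_top]
      exact Subgroup.mem_top g
    obtain ⟨f, hf, e, he, hfe⟩ := Subgroup.mem_sup_of_normal_left.mp hg
    exact ⟨f, hf, e, he, hfe.symm⟩
  refine ⟨E, hFE, ⟨hE1, hE2, ?_⟩, ?_, ?_⟩
  · intro g hg
    rw [Subgroup.eq_bot_iff_forall]
    intro y hy
    obtain ⟨hyE, hyg⟩ := Subgroup.mem_inf.mp hy
    by_contra hy1
    apply hg
    obtain ⟨s, hs, hsy⟩ := (Subgroup.mem_smul_pointwise_iff_exists _ _ _).mp hyg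
    have hsy' : g * s * g⁻¹ = y := hsy
    obtain ⟨f, hf, e₁, he₁, hge⟩ := hdecomp g
    have hs'E : e₁ * s * e₁⁻¹ ∈ E := E.mul_mem (E.mul_mem he₁ hs) (E.inv_mem he₁)
    have hy' : y = f * (e₁ * s * e₁⁻¹) * f⁻¹ := by
      rw [← hsy', hge]
      group
    have h1 : y * (e₁ * s * e₁⁻¹)⁻¹ ∈ Cfsg.fittingHall G ⊓ E := by
      refine Subgroup.mem_inf.mpr ⟨?_, E.mul_mem hyE (E.inv_mem hs'E)⟩
      have h2 : y * (e₁ * s * e₁⁻¹)⁻¹
          = f * ((e₁ * s * e₁⁻¹) * f⁻¹ * (e₁ * s * e₁⁻¹)⁻¹) := by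
        rw [hy']
        group
      rw [h2]
      exact (Cfsg.fittingHall G).mul_mem hf (hFn.conj_mem _ ((Cfsg.fittingHall G).inv_mem hf) _)
    rw [hdisj, Subgroup.mem_bot] at h1
    have hys : y = e₁ * s * e₁⁻¹ := mul_inv_eq_one.mp h1
    have h2 : y = f * y * f⁻¹ := by
      rw [← hys] at hy'
      exact hy'
    have hfy : y * f = f * y := by
      calc y * f = (f * y * f⁻¹) * f := by rw [← h2]
        _ = f * y := by group
    have hf1 : f = 1 := hA y hyE hy1 f hf hfy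
    rw [hge, hf1, one_mul]
    exact he₁
  · intro e he he1
    rw [Subgroup.eq_bot_iff_forall]
    intro x hx
    obtain ⟨hxF, hxC⟩ := Subgroup.mem_inf.mp hx
    rw [Subgroup.mem_centralizer_iff] at hxC
    exact hA e he he1 x hxF (hxC e (Set.mem_singleton e))
  · have hcopE : (Nat.card E).Coprime (Nat.card (Cfsg.fittingHall G)) := by
      have hcardE : Nat.card E = (Cfsg.fittingHall G).index := hFE.symm.index_eq_card.symm
      rw [hcardE]
      exact hcop.symm
    exact Cfsg.Agent.S1474.compl_nilpotent hCN (Cfsg.fittingHall G) E hFnil hF1 hcopE hA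

/-- The Frobenius case of the trichotomy. -/
theorem cn_case_frob {G : Type u} [Group G] [Finite G] (hCN : Cfsg.IsCNGroup G)
    (hnn : ¬ Group.IsNilpotent G) (hF1 : Cfsg.fittingHall G ≠ ⊥) :
    ∃ K E : Subgroup G, K.Normal ∧ Subgroup.IsComplement' K E ∧ Cfsg.IsFrobeniusComplement E ∧
        (IsCyclic E ∨ ∃ C Q : Subgroup G, C ⊔ Q = E ∧ (∀ a ∈ C, ∀ b ∈ Q, a * b = b * a) ∧
          IsCyclic C ∧ Odd (Nat.card C) ∧
          ∃ n : ℕ, Nonempty (↥Q ≃* QuaternionGroup (2 ^ n))) := by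
  classical
  obtain ⟨E, hFE, hfrob, hfpf, hEnil⟩ := cn_frob_of_fittingHall hCN hnn hF1
  haveI hFn : (Cfsg.fittingHall G).Normal := Cfsg.fittingHall_normal G
  refine ⟨Cfsg.fittingHall G, E, hFn, hFE, hfrob, ?_⟩
  haveI := hEnil
  by_cases hall : ∀ (r : ℕ), r.Prime → ∀ P : Sylow r E, IsCyclic P
  · left
    haveI : IsZGroup E := ⟨hall⟩
    exact inferInstance
  · right
    push Not at hall
    obtain ⟨r, hr, P, hP⟩ := hall
    haveI : Fact r.Prime := ⟨hr⟩
    obtain ⟨n, ⟨e⟩⟩ :=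
      (Cfsg.Agent.S0040.result (Cfsg.fittingHall G) E hFE hF1 hfpf r P).resolve_left hP
    have hcardP : Nat.card P = 2 ^ (n + 2) := by
      rw [Nat.card_congr e.toEquiv, Nat.card_eq_fintype_card, QuaternionGroup.card]
      ring
    have hr2 : r = 2 := by
      obtain ⟨k, hk⟩ := IsPGroup.iff_card.mp P.isPGroup'
      have h2 : 2 ∣ r ^ k := by
        rw [← hk, hcardP]
        exact dvd_pow_self 2 (by omega)
      exact ((Nat.prime_dvd_prime_iff_eq Nat.prime_two hr).mp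
        (Nat.Prime.dvd_of_dvd_pow Nat.prime_two h2)).symm
    subst hr2
    haveI hPn : (P : Subgroup E).Normal :=
      Sylow.normal_of_normalizerCondition Group.normalizerCondition_of_isNilpotent P
    obtain ⟨C', hC'⟩ := Subgroup.exists_right_complement'_of_coprime P.card_coprime_index
    have hCle : C'.map E.subtype ≤ E := Subgroup.map_subtype_le C'
    have hQle : (P : Subgroup E).map E.subtype ≤ E := Subgroup.map_subtype_le _
    have hcardQ : Nat.card ((P : Subgroup E).map E.subtype) = 2 ^ (n + 2) := by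
      rw [Subgroup.card_map_of_injective E.subtype_injective]
      exact hcardP
    have hCodd : Odd (Nat.card (C'.map E.subtype)) := by
      rw [Subgroup.card_map_of_injective E.subtype_injective, ← hC'.symm.index_eq_card]
      have h2 : (2 : ℕ) ∣ Nat.card P := by
        rw [hcardP]
        exact dvd_pow_self 2 (by omega)
      exact Nat.coprime_two_left.1 (Nat.Coprime.coprime_dvd_left h2 P.card_coprime_index)
    refine ⟨C'.map E.subtype, (P : Subgroup E).map E.subtype, ?_, ?_, ?_, hCodd, n, ⟨?_⟩⟩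
    · rw [← Subgroup.map_sup, sup_comm, hC'.sup_eq_top, ← MonoidHom.range_eq_map,
        Subgroup.range_subtype]
    · intro a ha b hb
      have hodda : Odd (orderOf a) := Odd.of_dvd_nat hCodd (Subgroup.orderOf_dvd_natCard _ ha)
      have hca : (orderOf a).Coprime 2 := (Nat.coprime_two_left.2 hodda).symm
      have hb2 : orderOf b ∣ 2 ^ (n + 2) := by
        have := Subgroup.orderOf_dvd_natCard _ hb
        rwa [hcardQ] at this
      exact Cfsg.Agent.S1477.comm_of_nil E hEnil (hCle ha) (hQle hb)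
        (Nat.Coprime.coprime_dvd_right hb2 (Nat.Coprime.pow_right _ hca))
    · haveI : IsZGroup (C'.map E.subtype) :=
        Helper1.fpf_isZGroup_of_odd (Cfsg.fittingHall G) (C'.map E.subtype) hF1
          (fun h hh hh1 => hfpf h (hCle hh) hh1)
          (fun h2 => (Nat.not_even_iff_odd.2 hCodd) (even_iff_two_dvd.2 h2))
      haveI : Group.IsNilpotent (C'.map E.subtype) := Cfsg.Agent.S1474.nil_of_le hCle hEnil
      exact inferInstance
    · exact (Subgroup.equivMapOfInjective (P : Subgroup E) E.subtype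
        E.subtype_injective).symm.trans e

section CaseTwo

variable {G : Type u} [Group G] [Finite G]

/-- In a CN-group without nontrivial normal nilpotent Hall subgroups, a nilpotent subgroup
containing a nontrivial normal subgroup has prime power order. -/
theorem cn_prime_pow_of_le (hCN : Cfsg.IsCNGroup G) (hFH : Cfsg.fittingHall G = ⊥)
    (H₀ : Subgroup G) [hH₀n : H₀.Normal] (hH₀ : H₀ ≠ ⊥) (M₀ : Subgroup G)
    (hM₀ : Group.IsNilpotent M₀) (hle : H₀ ≤ M₀) : IsPrimePow (Nat.card M₀) := by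
  classical
  by_contra hpp
  obtain ⟨M, hM₀M, hM⟩ :=
    (Set.toFinite {L : Subgroup G | Group.IsNilpotent L}).exists_le_maximal
      (show M₀ ∈ {L : Subgroup G | Group.IsNilpotent L} from hM₀)
  have hMnil : Group.IsNilpotent M := hM.1
  have hmax : ∀ L : Subgroup G, Group.IsNilpotent L → M ≤ L → L = M :=
    fun L hL hML => le_antisymm (hM.2 hL hML) hML
  have hH₀M : H₀ ≤ M := hle.trans hM₀M
  have hM1 : Nat.card M ≠ 1 := by
    intro h
    rw [Subgroup.card_eq_one] at h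
    rw [h, le_bot_iff] at hH₀M
    exact hH₀ hH₀M
  have hppM : ¬ IsPrimePow (Nat.card M) := by
    intro h
    rw [isPrimePow_nat_iff] at h
    obtain ⟨q, k, hq, hk, hqk⟩ := h
    have h1 : Nat.card M₀ ∣ q ^ k := by
      rw [hqk]
      exact Subgroup.card_dvd_of_le hM₀M
    obtain ⟨j, -, hj⟩ := (Nat.dvd_prime_pow hq).1 h1
    apply hpp
    rw [isPrimePow_nat_iff]
    refine ⟨q, j, hq, ?_, hj.symm⟩
    rcases Nat.eq_zero_or_pos j with h0 | h0
    · exfalso
      rw [h0, pow_zero, Subgroup.card_eq_one] at hj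
      rw [hj, le_bot_iff] at hle
      exact hH₀ hle
    · exact h0
  obtain ⟨hcop, hTI, -⟩ := Cfsg.Agent.S1477.result hCN M hMnil hmax
  have hconj : ∀ g : G, M.map (MulAut.conj g).toMonoidHom = M := by
    intro g
    by_contra hne
    have h1 := hTI hppM hM1 g hne
    have h2 : H₀ ≤ M ⊓ M.map (MulAut.conj g).toMonoidHom := by
      refine le_inf hH₀M ?_
      intro h hh
      refine Subgroup.mem_map.2 ⟨g⁻¹ * h * g, hH₀M ?_, ?_⟩
      · have := hH₀n.conj_mem h hh g⁻¹
        rwa [inv_inv] at this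
      · rw [MulEquiv.coe_toMonoidHom, MulAut.conj_apply]
        group
    rw [h1, le_bot_iff] at h2
    exact hH₀ h2
  have hMn : M.Normal := by
    constructor
    intro n hn g
    have h1 : g * n * g⁻¹ ∈ M.map (MulAut.conj g).toMonoidHom :=
      Subgroup.mem_map.2 ⟨n, hn, by rw [MulEquiv.coe_toMonoidHom, MulAut.conj_apply]⟩
    rw [hconj g] at h1
    exact h1
  have hMle : M ≤ Cfsg.fittingHall G := le_sSup ⟨hMn, hMnil, hcop⟩
  rw [hFH, le_bot_iff] at hMle
  rw [hMle, le_bot_iff] at hH₀M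
  exact hH₀ hH₀M

/-- `p'`-elements act without fixed points on `O_p(G)`. -/
theorem cn_fpf_pCore (hCN : Cfsg.IsCNGroup G) (hFH : Cfsg.fittingHall G = ⊥) {p : ℕ}
    [hp : Fact p.Prime] (hH : Cfsg.pCore p G ≠ ⊥) {x y : G} (hx : (orderOf x).Coprime p)
    (hy : y ∈ Cfsg.pCore p G) (hy1 : y ≠ 1) (hxy : x * y = y * x) : x = 1 := by
  classical
  haveI hHn : (Cfsg.pCore p G).Normal := Helper16.pCore_normal p G
  have hHp : IsPGroup p (Cfsg.pCore p G) := Helper16.pCore_isPGroup p G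
  have hHnil : Group.IsNilpotent (Cfsg.pCore p G) := hHp.isNilpotent
  obtain ⟨k, hk⟩ := IsPGroup.iff_card.mp hHp
  have hk0 : k ≠ 0 := by
    intro h0
    rw [h0, pow_zero, Subgroup.card_eq_one] at hk
    exact hH hk
  have hdvd : p ∣ Nat.card (Cfsg.pCore p G) := by
    rw [hk]
    exact dvd_pow_self p hk0
  obtain ⟨u, huH, huo, huc⟩ :=
    Cfsg.Agent.S1477.exists_central_prime (Cfsg.pCore p G) hHnil hp.out hdvd
  have hu1 : u ≠ 1 := Cfsg.Agent.S1477.ne_one_of_order hp.out huo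
  have hxCy : x ∈ Subgroup.centralizer ({y} : Set G) := by
    rw [Subgroup.mem_centralizer_iff]
    intro h hh
    rw [Set.mem_singleton_iff] at hh
    rw [hh]
    exact hxy.symm
  have huCy : u ∈ Subgroup.centralizer ({y} : Set G) := by
    rw [Subgroup.mem_centralizer_iff]
    intro h hh
    rw [Set.mem_singleton_iff] at hh
    rw [hh]
    exact (huc y hy).symm
  have hxu : x * u = u * x :=
    Cfsg.Agent.S1477.comm_of_nil _ (hCN y hy1) hxCy huCy (by rw [huo]; exact hx)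
  have hHle : Cfsg.pCore p G ≤ Subgroup.centralizer ({u} : Set G) := by
    intro h hh
    rw [Subgroup.mem_centralizer_iff]
    intro z hz
    rw [Set.mem_singleton_iff] at hz
    rw [hz]
    exact huc h hh
  have hxCu : x ∈ Subgroup.centralizer ({u} : Set G) := by
    rw [Subgroup.mem_centralizer_iff]
    intro z hz
    rw [Set.mem_singleton_iff] at hz
    rw [hz]
    exact hxu.symm
  have hpp := cn_prime_pow_of_le hCN hFH (Cfsg.pCore p G) hH _ (hCN u hu1) hHle
  rw [isPrimePow_nat_iff] at hpp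
  obtain ⟨q, j, hq, hj, hqj⟩ := hpp
  have huCu : u ∈ Subgroup.centralizer ({u} : Set G) := hHle huH
  have h1 : p ∣ q ^ j := by
    rw [hqj, ← huo]
    exact Subgroup.orderOf_dvd_natCard _ huCu
  have hpq : p = q := (Nat.prime_dvd_prime_iff_eq hp.out hq).mp (hp.out.dvd_of_dvd_pow h1)
  have h2 : orderOf x ∣ p ^ j := by
    rw [hpq, hqj]
    exact Subgroup.orderOf_dvd_natCard _ hxCu
  have h3 : orderOf x = 1 := Nat.Coprime.eq_one_of_dvd (Nat.Coprime.pow_right j hx) h2
  exact orderOf_eq_one_iff.mp h3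

/-- Nontrivial `p`-elements and `p'`-elements never commute. -/
theorem cn_no_comm (hCN : Cfsg.IsCNGroup G) (hFH : Cfsg.fittingHall G = ⊥) {p : ℕ}
    [hp : Fact p.Prime] (hH : Cfsg.pCore p G ≠ ⊥) {x a : G} (hx : ∃ k : ℕ, x ^ (p ^ k) = 1)
    (hx1 : x ≠ 1) (ha : (orderOf a).Coprime p) (ha1 : a ≠ 1) : x * a ≠ a * x := by
  classical
  intro hxa
  haveI hHn : (Cfsg.pCore p G).Normal := Helper16.pCore_normal p G
  have hHp : IsPGroup p (Cfsg.pCore p G) := Helper16.pCore_isPGroup p G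
  obtain ⟨k, hk⟩ := hx
  have hZp : IsPGroup p (Subgroup.zpowers x) := by
    obtain ⟨j, -, hj⟩ := (Nat.dvd_prime_pow hp.out).1 (orderOf_dvd_of_pow_eq_one hk)
    exact IsPGroup.of_card (n := j) (by rw [Nat.card_zpowers, hj])
  have hP₀ : IsPGroup p ↥(Cfsg.pCore p G ⊔ Subgroup.zpowers x) :=
    IsPGroup.to_sup_of_normal_left hHp hZp
  haveI : Group.IsNilpotent ↥(Cfsg.pCore p G ⊔ Subgroup.zpowers x) := hP₀.isNilpotent
  have hN1 : (Cfsg.pCore p G).subgroupOf (Cfsg.pCore p G ⊔ Subgroup.zpowers x) ≠ ⊥ := by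
    intro h
    rw [Subgroup.subgroupOf_eq_bot] at h
    exact hH (h.eq_bot_of_le le_sup_left)
  obtain ⟨z', hz'N, hz'1, hz'c⟩ := Cfsg.Agent.S1477.exists_center_of_normal _ hN1
  have hzH : (z' : G) ∈ Cfsg.pCore p G := Subgroup.mem_subgroupOf.1 hz'N
  have hz1 : (z' : G) ≠ 1 := fun h => hz'1 (Subtype.ext h)
  have hxP : x ∈ Cfsg.pCore p G ⊔ Subgroup.zpowers x :=
    (le_sup_right : Subgroup.zpowers x ≤ _) (Subgroup.mem_zpowers x)
  have hxz : x * (z' : G) = (z' : G) * x := congrArg Subtype.val (hz'c ⟨x, hxP⟩)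
  have haC : a ∈ Subgroup.centralizer ({x} : Set G) := by
    rw [Subgroup.mem_centralizer_iff]
    intro h hh
    rw [Set.mem_singleton_iff] at hh
    rw [hh]
    exact hxa
  have hzC : (z' : G) ∈ Subgroup.centralizer ({x} : Set G) := by
    rw [Subgroup.mem_centralizer_iff]
    intro h hh
    rw [Set.mem_singleton_iff] at hh
    rw [hh]
    exact hxz
  obtain ⟨j, hj⟩ := hHp ⟨(z' : G), hzH⟩
  have hj' : (z' : G) ^ (p ^ j) = 1 := congrArg Subtype.val hj
  obtain ⟨i, -, hi⟩ := (Nat.dvd_prime_pow hp.out).1 (orderOf_dvd_of_pow_eq_one hj')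
  have haz : a * (z' : G) = (z' : G) * a :=
    Cfsg.Agent.S1477.comm_of_nil _ (hCN x hx1) haC hzC
      (by rw [hi]; exact Nat.Coprime.pow_right i ha)
  exact ha1 (cn_fpf_pCore hCN hFH hH ha hzH hz1 haz)

/-- Every element is a `p`-element or a `p'`-element. -/
theorem cn_dich (hCN : Cfsg.IsCNGroup G) (hFH : Cfsg.fittingHall G = ⊥) {p : ℕ}
    [hp : Fact p.Prime] (hH : Cfsg.pCore p G ≠ ⊥) (g : G) :
    (∃ k : ℕ, g ^ (p ^ k) = 1) ∨ (orderOf g).Coprime p := by
  have hpos : orderOf g ≠ 0 := (orderOf_pos g).ne'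
  obtain ⟨e, m, hm, hem⟩ := Nat.exists_eq_pow_mul_and_not_dvd hpos p hp.out.ne_one
  have hmc : m.Coprime p := ((Nat.Prime.coprime_iff_not_dvd hp.out).mpr hm).symm
  by_cases h1 : g ^ m = 1
  · right
    exact Nat.Coprime.coprime_dvd_left (orderOf_dvd_of_pow_eq_one h1) hmc
  · by_cases h2 : g ^ (p ^ e) = 1
    · exact Or.inl ⟨e, h2⟩
    · exfalso
      have hx : ∃ k : ℕ, (g ^ m) ^ (p ^ k) = 1 :=
        ⟨e, by rw [← pow_mul, mul_comm, ← hem, pow_orderOf_eq_one]⟩
      have ha : (orderOf (g ^ (p ^ e))).Coprime p := by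
        have h3 : (g ^ (p ^ e)) ^ m = 1 := by rw [← pow_mul, ← hem, pow_orderOf_eq_one]
        exact Nat.Coprime.coprime_dvd_left (orderOf_dvd_of_pow_eq_one h3) hmc
      exact cn_no_comm hCN hFH hH hx h1 ha h2 ((Commute.refl g).pow_pow m (p ^ e)).eq

omit [Finite G] in
/-- If every element outside the normal subgroup `N` is a `p'`-element, then `p ∤ |X : N|`. -/
theorem not_dvd_index_of_pelts {X : Type*} [Group X] [Finite X] {p : ℕ} [hp : Fact p.Prime]
    (N : Subgroup X) [N.Normal] (hX : ∀ x : X, (orderOf x).Coprime p ∨ x ∈ N) :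
    ¬ p ∣ N.index := by
  intro hdvd
  rw [Subgroup.index_eq_card] at hdvd
  obtain ⟨q, hq⟩ := exists_prime_orderOf_dvd_card' p hdvd
  obtain ⟨x, rfl⟩ := QuotientGroup.mk_surjective q
  rcases hX x with h | h
  · have h1 : (QuotientGroup.mk x : X ⧸ N) ^ orderOf x = 1 := by
      rw [← QuotientGroup.mk_pow, pow_orderOf_eq_one, QuotientGroup.mk_one]
    have h2 := orderOf_dvd_of_pow_eq_one h1
    rw [hq] at h2
    exact (Nat.Prime.coprime_iff_not_dvd hp.out).1 h.symm h2
  · have h1 : (QuotientGroup.mk x : X ⧸ N) = 1 := (QuotientGroup.eq_one_iff x).2 h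
    rw [h1, orderOf_one] at hq
    exact hp.out.one_lt.ne hq

/-- A relative Schur–Zassenhaus complement. -/
theorem exists_compl_of_pelts {p : ℕ} [hp : Fact p.Prime]
    (H L : Subgroup G) [hHn : H.Normal] (hHp : IsPGroup p H) (hHL : H ≤ L)
    (hL : ∀ x ∈ L, (orderOf x).Coprime p ∨ x ∈ H) :
    ∃ B : Subgroup G, B ≤ L ∧ H ⊓ B = ⊥ ∧ H ⊔ B = L := by
  classical
  have hcop : (Nat.card (H.subgroupOf L)).Coprime (H.subgroupOf L).index := by
    obtain ⟨k, hk⟩ := IsPGroup.iff_card.mp hHp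
    have hc : Nat.card (H.subgroupOf L) = p ^ k := by
      rw [← hk]
      exact Nat.card_congr (Subgroup.subgroupOfEquivOfLe hHL).toEquiv
    rw [hc]
    apply Nat.Coprime.pow_left
    rw [Nat.Prime.coprime_iff_not_dvd hp.out]
    apply not_dvd_index_of_pelts
    intro x
    rcases hL (x : G) x.2 with h | h
    · left
      rw [← Subgroup.orderOf_coe]
      exact h
    · exact Or.inr (Subgroup.mem_subgroupOf.2 h)
  obtain ⟨B', hB'⟩ := Subgroup.exists_right_complement'_of_coprime hcop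
  refine ⟨B'.map L.subtype, Subgroup.map_subtype_le B', ?_, ?_⟩
  · rw [eq_bot_iff]
    intro x hx
    obtain ⟨hxH, hxB⟩ := Subgroup.mem_inf.1 hx
    obtain ⟨b, hb, rfl⟩ := Subgroup.mem_map.1 hxB
    have h1 : b ∈ H.subgroupOf L ⊓ B' :=
      Subgroup.mem_inf.2 ⟨Subgroup.mem_subgroupOf.2 hxH, hb⟩
    rw [disjoint_iff.mp hB'.disjoint, Subgroup.mem_bot] at h1
    rw [Subgroup.mem_bot, h1, map_one]
  · apply le_antisymm (sup_le hHL (Subgroup.map_subtype_le B'))
    intro x hx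
    have h1 : (⟨x, hx⟩ : L) ∈ H.subgroupOf L ⊔ B' := by
      rw [hB'.sup_eq_top]
      exact Subgroup.mem_top _
    obtain ⟨n, hn, b, hb, hnb⟩ := Subgroup.mem_sup_of_normal_left.mp h1
    have h2 : x = (n : G) * (b : G) := congrArg Subtype.val hnb.symm
    rw [h2]
    exact Subgroup.mul_mem _ ((le_sup_left : H ≤ _) (Subgroup.mem_subgroupOf.1 hn))
      ((le_sup_right : B'.map L.subtype ≤ _) (Subgroup.mem_map_of_mem _ hb))

end CaseTwo

section ThreeStep

variable {G : Type u} [Group G] [Finite G]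

/-- The three-step case of the trichotomy. -/
theorem cn_three_step_aux [Group.IsSolvable G] (hCN : Cfsg.IsCNGroup G)
    (hFH : Cfsg.fittingHall G = ⊥) {p : ℕ} [hp : Fact p.Prime] (hH0 : Cfsg.pCore p G ≠ ⊥) :
    Cfsg.IsThreeStepGroup p G := by
  classical
  unfold Cfsg.IsThreeStepGroup
  obtain ⟨H, hHdef⟩ : ∃ H : Subgroup G, H = Cfsg.pCore p G := ⟨_, rfl⟩
  rw [← hHdef]
  have hHn : H.Normal := by
    rw [hHdef]
    exact Helper16.pCore_normal p G
  have hHp : IsPGroup p H := by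
    rw [hHdef]
    exact Helper16.pCore_isPGroup p G
  have hH1 : H ≠ ⊥ := by
    rw [hHdef]
    exact hH0
  have hfpf : ∀ x y : G, (orderOf x).Coprime p → y ∈ H → y ≠ 1 → x * y = y * x → x = 1 := by
    intro x y hx hy hy1 hxy
    rw [hHdef] at hy
    exact cn_fpf_pCore hCN hFH hH0 hx hy hy1 hxy
  have hF3 : ∀ x a : G, (∃ k : ℕ, x ^ (p ^ k) = 1) → x ≠ 1 → (orderOf a).Coprime p → a ≠ 1 →
      x * a ≠ a * x := fun x a h1 h2 h3 h4 => cn_no_comm hCN hFH hH0 h1 h2 h3 h4
  have hdich : ∀ g : G, (∃ k : ℕ, g ^ (p ^ k) = 1) ∨ (orderOf g).Coprime p :=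
    cn_dich hCN hFH hH0
  have hle : ∀ N : Subgroup G, N.Normal → IsPGroup p N → N ≤ H := by
    intro N h1 h2
    rw [hHdef]
    exact Helper16.le_pCore h1 h2
  have hHnil : Group.IsNilpotent H := hHp.isNilpotent
  have hnH : ¬ (Nat.card H).Coprime H.index := by
    intro hcop
    have h1 : H ≤ Cfsg.fittingHall G := le_sSup ⟨hHn, hHnil, hcop⟩
    rw [hFH, le_bot_iff] at h1
    exact hH1 h1
  haveI := hHn
  have hpidx : p ∣ H.index := by
    by_contra hnd
    apply hnH
    obtain ⟨k, hk⟩ := IsPGroup.iff_card.mp hHp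
    rw [hk]
    exact Nat.Coprime.pow_left k ((Nat.Prime.coprime_iff_not_dvd hp.out).mpr hnd)
  have hHelt : ∀ y ∈ H, ∃ k : ℕ, y ^ (p ^ k) = 1 := by
    intro y hy
    obtain ⟨k, hk⟩ := hHp ⟨y, hy⟩
    exact ⟨k, congrArg Subtype.val hk⟩
  -- the centralizer of `H` lies in `H`
  have hcent : Subgroup.centralizer (H : Set G) ≤ H := by
    haveI : (Subgroup.centralizer (H : Set G)).Normal := Subgroup.normal_centralizer
    apply hle _ inferInstance
    apply Helper16.isPGroup_of_coprime_trivial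
    intro x hx hxc
    obtain ⟨y, hy⟩ := (Subgroup.ne_bot_iff_exists_ne_one).1 hH1
    rw [Subgroup.mem_centralizer_iff] at hx
    have hy1 : (y : G) ≠ 1 := fun h => hy (Subtype.ext h)
    exact hfpf x (y : G) hxc y.2 hy1 (hx (y : G) y.2).symm
  -- regularity of the action of `H` on the coset of a `p'`-element
  have hsurj : ∀ a : G, (orderOf a).Coprime p → a ≠ 1 → ∀ w ∈ H,
      ∃ h ∈ H, h * a * h⁻¹ * a⁻¹ = w := by
    intro a ha ha1 w hw
    have hψmem : ∀ h : H, (h : G) * a * (h : G)⁻¹ * a⁻¹ ∈ H := by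
      intro h
      have h1 : (h : G) * a * (h : G)⁻¹ * a⁻¹ = (h : G) * (a * (h : G)⁻¹ * a⁻¹) := by group
      rw [h1]
      exact H.mul_mem h.2 (hHn.conj_mem _ (H.inv_mem h.2) a)
    have hinj : Function.Injective
        (fun h : H => (⟨(h : G) * a * (h : G)⁻¹ * a⁻¹, hψmem h⟩ : H)) := by
      intro h₁ h₂ he
      have he' : (h₁ : G) * a * (h₁ : G)⁻¹ * a⁻¹ = (h₂ : G) * a * (h₂ : G)⁻¹ * a⁻¹ :=
        congrArg Subtype.val he
      have h3 : (h₁ : G) * a * (h₁ : G)⁻¹ = (h₂ : G) * a * (h₂ : G)⁻¹ := mul_right_cancel he'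
      have h2 : a * ((h₂ : G)⁻¹ * (h₁ : G)) = ((h₂ : G)⁻¹ * (h₁ : G)) * a := by
        calc a * ((h₂ : G)⁻¹ * (h₁ : G))
            = (h₂ : G)⁻¹ * ((h₂ : G) * a * (h₂ : G)⁻¹) * (h₁ : G) := by group
          _ = (h₂ : G)⁻¹ * ((h₁ : G) * a * (h₁ : G)⁻¹) * (h₁ : G) := by rw [h3]
          _ = ((h₂ : G)⁻¹ * (h₁ : G)) * a := by group
      have h4 : (h₂ : G)⁻¹ * (h₁ : G) = 1 := by
        by_contra hne
        exact ha1 (hfpf a _ ha (H.mul_mem (H.inv_mem h₂.2) h₁.2) hne h2)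
      exact Subtype.ext (inv_mul_eq_one.mp h4).symm
    obtain ⟨h', hh'⟩ := Finite.surjective_of_injective hinj ⟨w, hw⟩
    exact ⟨(h' : G), h'.2, congrArg Subtype.val hh'⟩
  have hreg : ∀ x a : G, (∃ k : ℕ, x ^ (p ^ k) = 1) → (orderOf a).Coprime p → a ≠ 1 →
      x * a * x⁻¹ * a⁻¹ ∈ H → x ∈ H := by
    intro x a hx ha ha1 hxa
    obtain ⟨h', hh'H, hh'⟩ := hsurj a ha ha1 _ hxa
    have h5 : h' * a * h'⁻¹ = x * a * x⁻¹ := mul_right_cancel hh'
    have h6 : (h'⁻¹ * x) * a = a * (h'⁻¹ * x) := by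
      calc (h'⁻¹ * x) * a = h'⁻¹ * (x * a * x⁻¹) * x := by group
        _ = h'⁻¹ * (h' * a * h'⁻¹) * x := by rw [h5]
        _ = a * (h'⁻¹ * x) := by group
    have h7 : ∃ k : ℕ, (h'⁻¹ * x) ^ (p ^ k) = 1 := by
      obtain ⟨k, hk⟩ := hx
      have hZp : IsPGroup p (Subgroup.zpowers x) := by
        obtain ⟨j, -, hj⟩ := (Nat.dvd_prime_pow hp.out).1 (orderOf_dvd_of_pow_eq_one hk)
        exact IsPGroup.of_card (n := j) (by rw [Nat.card_zpowers, hj])
      have hP₀ : IsPGroup p ↥(H ⊔ Subgroup.zpowers x) := IsPGroup.to_sup_of_normal_left hHp hZp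
      have hmem : h'⁻¹ * x ∈ H ⊔ Subgroup.zpowers x :=
        Subgroup.mul_mem _ ((le_sup_left : H ≤ _) (H.inv_mem hh'H))
          ((le_sup_right : Subgroup.zpowers x ≤ _) (Subgroup.mem_zpowers x))
      obtain ⟨j, hj⟩ := hP₀ ⟨_, hmem⟩
      exact ⟨j, congrArg Subtype.val hj⟩
    have h8 : h'⁻¹ * x = 1 := by
      by_contra hne
      exact hF3 _ a h7 hne ha ha1 h6
    rw [← inv_mul_eq_one.mp h8]
    exact hh'H
  -- no involution is a `p'`-element
  have hnoinv : ∀ t : G, orderOf t = 2 → (orderOf t).Coprime p → False := by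
    intro t ht htc
    have ht1 : t ≠ 1 := by
      intro h
      rw [h, orderOf_one] at ht
      norm_num at ht
    have htinv : t⁻¹ = t := Helper13.inv_eq_self_of_orderOf_two t ht
    have hconj_ord : ∀ g : G, orderOf (g * t * g⁻¹) = 2 := by
      intro g
      have h1 := MulEquiv.orderOf_eq (MulAut.conj g) t
      rw [MulAut.conj_apply] at h1
      rw [h1, ht]
    have hinvt : ∀ (s : G), orderOf s = 2 → ∀ c ∈ H, s * c * s⁻¹ = c⁻¹ := by
      intro s hs
      have hsc : (orderOf s).Coprime p := by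
        rw [hs, ← ht]
        exact htc
      have hs1 : s ≠ 1 := by
        intro h
        rw [h, orderOf_one] at hs
        norm_num at hs
      exact (Helper13.inverts_of_fpf_involution H s hs (fun c hc => hHn.conj_mem c hc s)
        (fun c hc hcc => by
          by_contra hc1
          have h1 : s * c = c * s := by
            calc s * c = (s * c * s⁻¹) * s := by group
              _ = c * s := by rw [hcc]
          exact hs1 (hfpf s c hsc hc hc1 h1))).1
    have hprod : ∀ g : G, g * t * g⁻¹ * t ∈ H := by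
      intro g
      apply hcent
      rw [Subgroup.mem_centralizer_iff]
      intro c hc
      have h1 := hinvt t ht c hc
      have h2 := hinvt (g * t * g⁻¹) (hconj_ord g) c⁻¹ (H.inv_mem hc)
      rw [inv_inv] at h2
      have h3 : (g * t * g⁻¹ * t) * c * (g * t * g⁻¹ * t)⁻¹ = c := by
        calc (g * t * g⁻¹ * t) * c * (g * t * g⁻¹ * t)⁻¹
            = (g * t * g⁻¹) * (t * c * t⁻¹) * (g * t * g⁻¹)⁻¹ := by group
          _ = c := by rw [h1, h2]
      calc c * (g * t * g⁻¹ * t)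
          = ((g * t * g⁻¹ * t) * c * (g * t * g⁻¹ * t)⁻¹) * (g * t * g⁻¹ * t) := by rw [h3]
        _ = (g * t * g⁻¹ * t) * c := by group
    obtain ⟨C, hCdef⟩ : ∃ C : Subgroup G, C = Subgroup.centralizer ({t} : Set G) := ⟨_, rfl⟩
    have hCmem : ∀ g : G, g ∈ C ↔ t * g = g * t := by
      intro g
      rw [hCdef, Subgroup.mem_centralizer_iff]
      constructor
      · intro h
        exact h t (Set.mem_singleton t)
      · intro h z hz
        rw [Set.mem_singleton_iff] at hz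
        rw [hz]
        exact h
    have hHC : H ⊓ C = ⊥ := by
      rw [eq_bot_iff]
      intro y hy
      obtain ⟨hyH, hyC⟩ := Subgroup.mem_inf.1 hy
      rw [Subgroup.mem_bot]
      by_contra hy1
      exact ht1 (hfpf t y htc hyH hy1 ((hCmem y).1 hyC))
    have hGHC : ∀ g : G, ∃ h ∈ H, ∃ c ∈ C, g = h * c := by
      intro g
      have hw : g * t * g⁻¹ * t⁻¹ ∈ H := by
        rw [htinv]
        exact hprod g
      obtain ⟨h, hh, hw'⟩ := hsurj t htc ht1 _ hw
      have h5 : h * t * h⁻¹ = g * t * g⁻¹ := mul_right_cancel hw'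
      refine ⟨h, hh, h⁻¹ * g, ?_, by group⟩
      rw [hCmem]
      calc t * (h⁻¹ * g) = h⁻¹ * (h * t * h⁻¹) * g := by group
        _ = h⁻¹ * (g * t * g⁻¹) * g := by rw [h5]
        _ = (h⁻¹ * g) * t := by group
    have hcompl : Subgroup.IsComplement' H C := by
      apply Subgroup.isComplement'_of_disjoint_and_mul_eq_univ (disjoint_iff.mpr hHC)
      ext g
      simp only [Set.mem_univ, iff_true]
      obtain ⟨h, hh, c, hc, hg⟩ := hGHC g
      exact Set.mem_mul.2 ⟨h, hh, c, hc, hg.symm⟩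
    have hcardC : H.index = Nat.card C := hcompl.symm.index_eq_card
    have hpC : p ∣ Nat.card C := by
      rw [← hcardC]
      exact hpidx
    obtain ⟨x, hx⟩ := exists_prime_orderOf_dvd_card' p hpC
    have hx' : orderOf (x : G) = p := by
      rw [Subgroup.orderOf_coe]
      exact hx
    have hxp : ∃ k : ℕ, (x : G) ^ (p ^ k) = 1 := ⟨1, by rw [pow_one, ← hx', pow_orderOf_eq_one]⟩
    have hx1 : (x : G) ≠ 1 := by
      intro h
      rw [h, orderOf_one] at hx'
      exact hp.out.one_lt.ne hx'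
    exact hF3 (x : G) t hxp hx1 htc ht1 ((hCmem (x : G)).1 x.2).symm
  -- `p'`-subgroups are cyclic of odd order
  have hcyc : ∀ B : Subgroup G, (∀ b ∈ B, (orderOf b).Coprime p) →
      IsCyclic B ∧ Odd (Nat.card B) ∧ (Nat.card B).Coprime p := by
    intro B hB
    have hBfpf : ∀ b ∈ B, b ≠ 1 → H ⊓ Subgroup.centralizer ({b} : Set G) = ⊥ := by
      intro b hb hb1
      rw [eq_bot_iff]
      intro y hy
      obtain ⟨hyH, hyC⟩ := Subgroup.mem_inf.1 hy
      rw [Subgroup.mem_centralizer_iff] at hyC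
      rw [Subgroup.mem_bot]
      by_contra hy1
      exact hb1 (hfpf b y (hB b hb) hyH hy1 (hyC b (Set.mem_singleton b)))
    have hBp : (Nat.card B).Coprime p := by
      rw [Nat.coprime_comm, Nat.Prime.coprime_iff_not_dvd hp.out]
      intro hdvd
      obtain ⟨x, hx⟩ := exists_prime_orderOf_dvd_card' p hdvd
      have h1 := hB (x : G) x.2
      rw [Subgroup.orderOf_coe, hx] at h1
      exact hp.out.ne_one ((Nat.coprime_self p).mp h1)
    have hodd : Odd (Nat.card B) := by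
      by_contra hne
      have h2 : 2 ∣ Nat.card B := even_iff_two_dvd.1 (Nat.not_odd_iff_even.1 hne)
      haveI : Fact (Nat.Prime 2) := ⟨Nat.prime_two⟩
      obtain ⟨t, ht⟩ := exists_prime_orderOf_dvd_card' 2 h2
      have ht' : orderOf (t : G) = 2 := by
        rw [Subgroup.orderOf_coe]
        exact ht
      exact hnoinv (t : G) ht' (hB _ t.2)
    have hBcopH : (Nat.card B).Coprime (Nat.card H) := by
      obtain ⟨k, hk⟩ := IsPGroup.iff_card.mp hHp
      rw [hk]
      exact Nat.Coprime.pow_right k hBp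
    have hBnil : Group.IsNilpotent B :=
      Cfsg.Agent.S1474.compl_nilpotent hCN H B hHnil hH1 hBcopH (fun e he he1 x hx hex => by
        by_contra hx1
        exact he1 (hfpf e x (hB e he) hx hx1 hex))
    haveI := hBnil
    haveI : IsZGroup B := Helper1.fpf_isZGroup_of_odd H B hH1 hBfpf
      (fun h2 => (Nat.not_even_iff_odd.2 hodd) (even_iff_two_dvd.2 h2))
    exact ⟨inferInstance, hodd, hBp⟩
  -- a normal subgroup `R > H` with `R / H` an elementary abelian `r`-group, `r ≠ p`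
  have hidx1 : 1 < Nat.card (G ⧸ H) := by
    rw [← Subgroup.index_eq_card]
    exact lt_of_lt_of_le hp.out.one_lt
      (Nat.le_of_dvd (Nat.pos_of_ne_zero Subgroup.index_ne_zero_of_finite) hpidx)
  haveI : Nontrivial (G ⧸ H) := Finite.one_lt_card_iff_nontrivial.mp hidx1
  obtain ⟨r, hr, Abar, hAc, hA1, hAcomm, hAr⟩ := Helper1.exists_char_elemAbelian (G ⧸ H)
  haveI := hAc
  have hAn : Abar.Normal := inferInstance
  obtain ⟨π, hπ⟩ : ∃ π : G →* G ⧸ H, π = QuotientGroup.mk' H := ⟨_, rfl⟩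
  have hπ1 : ∀ g : G, π g = 1 ↔ g ∈ H := by
    intro g
    rw [hπ, QuotientGroup.mk'_apply, QuotientGroup.eq_one_iff]
  have hπs : Function.Surjective π := by
    rw [hπ]
    exact QuotientGroup.mk'_surjective H
  have hrp : r ≠ p := by
    intro hrp
    have h1 : Abar.comap π ≤ H := by
      apply hle _ (hAn.comap π)
      intro g
      have hg : π (g : G) ∈ Abar := g.2
      have h2 : π ((g : G) ^ p) = 1 := by
        rw [map_pow, ← hrp]
        exact hAr _ hg
      obtain ⟨k, hk⟩ := hHelt _ ((hπ1 _).1 h2)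
      refine ⟨k + 1, Subtype.ext ?_⟩
      show (g : G) ^ p ^ (k + 1) = 1
      rw [pow_succ', pow_mul]
      exact hk
    apply hA1
    rw [eq_bot_iff]
    intro a ha
    obtain ⟨g, rfl⟩ := hπs a
    rw [Subgroup.mem_bot, hπ1]
    exact h1 ha
  obtain ⟨R, hRdef⟩ : ∃ R : Subgroup G, R = Abar.comap π := ⟨_, rfl⟩
  have hRmem : ∀ g : G, g ∈ R ↔ π g ∈ Abar := by
    intro g
    rw [hRdef]
    exact Subgroup.mem_comap
  have hRn : R.Normal := by
    rw [hRdef]
    exact hAn.comap π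
  have hHR : H ≤ R := by
    intro h hh
    rw [hRmem, (hπ1 h).2 hh]
    exact Abar.one_mem
  have hRP : ∀ x ∈ R, (∃ k : ℕ, x ^ (p ^ k) = 1) → x ∈ H := by
    intro x hx ⟨k, hk⟩
    rw [← hπ1]
    have h1 : π x ^ r = 1 := hAr _ ((hRmem x).1 hx)
    have h2 : π x ^ (p ^ k) = 1 := by rw [← map_pow, hk, map_one]
    have h3 : π x ^ Nat.gcd r (p ^ k) = 1 := pow_gcd_eq_one.2 ⟨h1, h2⟩
    have h4 : Nat.gcd r (p ^ k) = 1 :=
      Nat.Coprime.pow_right k ((Nat.coprime_primes hr hp.out).2 hrp)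
    rwa [h4, pow_one] at h3
  obtain ⟨a₀, ha₀R, ha₀H⟩ : ∃ a₀ ∈ R, a₀ ∉ H := by
    by_contra hcon
    push Not at hcon
    apply hA1
    rw [eq_bot_iff]
    intro a ha
    obtain ⟨g, rfl⟩ := hπs a
    rw [Subgroup.mem_bot, hπ1]
    exact hcon g ((hRmem g).2 ha)
  have ha₀c : (orderOf a₀).Coprime p := by
    rcases hdich a₀ with h | h
    · exact absurd (hRP a₀ ha₀R h) ha₀H
    · exact h
  have ha₀1 : a₀ ≠ 1 := fun h => ha₀H (by rw [h]; exact H.one_mem)
  -- `K`: the preimage of the centralizer of `R / H`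
  obtain ⟨K, hKdef⟩ : ∃ K : Subgroup G,
      K = (Subgroup.centralizer (Abar : Set (G ⧸ H))).comap π := ⟨_, rfl⟩
  have hKmem : ∀ g : G, g ∈ K ↔ ∀ b ∈ Abar, b * π g = π g * b := by
    intro g
    rw [hKdef, Subgroup.mem_comap, Subgroup.mem_centralizer_iff]
    rfl
  have hKn : K.Normal := by
    rw [hKdef]
    haveI : (Subgroup.centralizer (Abar : Set (G ⧸ H))).Normal := Subgroup.normal_centralizer
    exact Subgroup.Normal.comap inferInstance π
  have hHK : H ≤ K := by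
    intro h hh
    rw [hKmem]
    intro b _
    rw [(hπ1 h).2 hh, mul_one, one_mul]
  have hRK : R ≤ K := by
    intro g hg
    rw [hKmem]
    intro b hb
    exact hAcomm b hb (π g) ((hRmem g).1 hg)
  have hKP : ∀ x ∈ K, (∃ k : ℕ, x ^ (p ^ k) = 1) → x ∈ H := by
    intro x hx hxp
    apply hreg x a₀ hxp ha₀c ha₀1
    rw [← hπ1]
    have h1 := (hKmem x).1 hx (π a₀) ((hRmem a₀).1 ha₀R)
    rw [map_mul, map_mul, map_mul, map_inv, map_inv, ← h1]
    group
  have hKdich : ∀ x ∈ K, (orderOf x).Coprime p ∨ x ∈ H := by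
    intro x hx
    rcases hdich x with h | h
    · exact Or.inr (hKP x hx h)
    · exact Or.inl h
  obtain ⟨A, hAK, hHA, hHAK⟩ := exists_compl_of_pelts H K hHp hHK hKdich
  have hAelt : ∀ a ∈ A, (orderOf a).Coprime p := by
    intro a ha
    rcases hKdich a (hAK ha) with h | h
    · exact h
    · have h1 : a ∈ H ⊓ A := Subgroup.mem_inf.2 ⟨h, ha⟩
      rw [hHA, Subgroup.mem_bot] at h1
      rw [h1, orderOf_one]
      exact Nat.coprime_one_left p
  obtain ⟨hAcyc, hAodd, hAcop⟩ := hcyc A hAelt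
  have hA1' : A ≠ ⊥ := by
    intro h
    rw [h, sup_bot_eq] at hHAK
    exact ha₀H (by rw [hHAK]; exact hRK ha₀R)
  -- all `p'`-elements lie in `K`
  have hpK : ∀ y : G, (orderOf y).Coprime p → y ∈ K := by
    intro y hy
    haveI := hRn
    have hLdich : ∀ x ∈ R ⊔ Subgroup.zpowers y, (orderOf x).Coprime p ∨ x ∈ H := by
      intro x hx
      rcases hdich x with h | h
      · right
        refine hRP x ?_ h
        obtain ⟨k, hk⟩ := h
        obtain ⟨r', hr', z, hz, hrz⟩ := Subgroup.mem_sup_of_normal_left.mp hx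
        obtain ⟨i, rfl⟩ := Subgroup.mem_zpowers_iff.1 hz
        have hρ1 : (QuotientGroup.mk' R) r' = 1 := by
          rw [QuotientGroup.mk'_apply, QuotientGroup.eq_one_iff]
          exact hr'
        have h2 : (QuotientGroup.mk' R) x ^ orderOf y = 1 := by
          rw [← hrz, map_mul, hρ1, one_mul, map_zpow, ← zpow_natCast, ← zpow_mul, mul_comm,
            zpow_mul, zpow_natCast, ← map_pow, pow_orderOf_eq_one, map_one, one_zpow]
        have h3 : (QuotientGroup.mk' R) x ^ (p ^ k) = 1 := by rw [← map_pow, hk, map_one]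
        have h4 : (QuotientGroup.mk' R) x ^ Nat.gcd (orderOf y) (p ^ k) = 1 :=
          pow_gcd_eq_one.2 ⟨h2, h3⟩
        have h5 : Nat.gcd (orderOf y) (p ^ k) = 1 := Nat.Coprime.pow_right k hy
        rw [h5, pow_one, QuotientGroup.mk'_apply, QuotientGroup.eq_one_iff] at h4
        exact h4
      · exact Or.inl h
    obtain ⟨B, hBL, hHB, hHBL⟩ := exists_compl_of_pelts H (R ⊔ Subgroup.zpowers y) hHp
      (hHR.trans le_sup_left) hLdich
    have hBelt : ∀ b ∈ B, (orderOf b).Coprime p := by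
      intro b hb
      rcases hLdich b (hBL hb) with h | h
      · exact h
      · have h1 : b ∈ H ⊓ B := Subgroup.mem_inf.2 ⟨h, hb⟩
        rw [hHB, Subgroup.mem_bot] at h1
        rw [h1, orderOf_one]
        exact Nat.coprime_one_left p
    obtain ⟨hBcyc, -, -⟩ := hcyc B hBelt
    have hBcomm : ∀ b₁ ∈ B, ∀ b₂ ∈ B, b₁ * b₂ = b₂ * b₁ := by
      intro b₁ hb₁ b₂ hb₂
      obtain ⟨c, hc⟩ := hBcyc.exists_generator
      obtain ⟨i, hi⟩ := Subgroup.mem_zpowers_iff.1 (hc ⟨b₁, hb₁⟩)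
      obtain ⟨j, hj⟩ := Subgroup.mem_zpowers_iff.1 (hc ⟨b₂, hb₂⟩)
      have h1 : (⟨b₁, hb₁⟩ : B) * ⟨b₂, hb₂⟩ = ⟨b₂, hb₂⟩ * ⟨b₁, hb₁⟩ := by
        rw [← hi, ← hj, ← zpow_add, ← zpow_add, add_comm]
      exact congrArg Subtype.val h1
    have hdecL : ∀ g ∈ R ⊔ Subgroup.zpowers y, ∃ b ∈ B, π g = π b := by
      intro g hg
      rw [← hHBL] at hg
      obtain ⟨h, hh, b, hb, hhb⟩ := Subgroup.mem_sup_of_normal_left.mp hg
      refine ⟨b, hb, ?_⟩
      rw [← hhb, map_mul, (hπ1 h).2 hh, one_mul]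
    rw [hKmem]
    intro b' hb'
    obtain ⟨g, rfl⟩ := hπs b'
    obtain ⟨b₁, hb₁, e1⟩ := hdecL y
      ((le_sup_right : Subgroup.zpowers y ≤ _) (Subgroup.mem_zpowers y))
    obtain ⟨b₂, hb₂, e2⟩ := hdecL g ((le_sup_left : R ≤ _) ((hRmem g).2 hb'))
    rw [e1, e2, ← map_mul, ← map_mul, hBcomm b₂ hb₂ b₁ hb₁]
  refine ⟨hH1, A, hA1', hAcyc, hAodd, hAcop, ?_, ?_, ?_, ?_, ?_⟩
  · rw [hHAK]
    exact hKn
  · rw [hHAK]
    intro hK
    exact not_dvd_index_of_pelts H
      (fun x => hKdich x (by rw [hK]; exact Subgroup.mem_top x)) hpidx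
  · rw [hHAK]
    haveI := hKn
    have hPG : IsPGroup p (G ⧸ K) := by
      intro q
      obtain ⟨g, rfl⟩ := QuotientGroup.mk_surjective q
      rcases hdich g with ⟨k, hk⟩ | h
      · exact ⟨k, by rw [← QuotientGroup.mk_pow, hk, QuotientGroup.mk_one]⟩
      · exact ⟨0, by rw [pow_zero, pow_one]; exact (QuotientGroup.eq_one_iff g).2 (hpK g h)⟩
    obtain ⟨n, hn⟩ := IsPGroup.iff_card.mp hPG
    exact ⟨n, by rw [Subgroup.index_eq_card]; exact hn⟩
  · intro a ha ha1
    rw [eq_bot_iff]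
    intro y hy
    obtain ⟨hyH, hyC⟩ := Subgroup.mem_inf.1 hy
    rw [Subgroup.mem_centralizer_iff] at hyC
    rw [Subgroup.mem_bot]
    by_contra hy1
    exact ha1 (hfpf a y (hAelt a ha) hyH hy1 (hyC a (Set.mem_singleton a)))
  · rw [hHAK]
    intro x hx a ha ha1 hxa
    rcases hdich x with h | h
    · exact hx (hHK (hreg x a h (hAelt a ha) ha1 hxa))
    · exact hx (hpK x h)

end ThreeStep

end Cfsg.Agent.Helper10
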