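import Mathlib

set_option autoImplicit false

namespace Cfsg.Agent.Helper10

theorem commutator_eq_one_of_coprime {G : Type*} [Group G] (h a z : G) (k : ℕ)
    (hz : h * a * h⁻¹ * a⁻¹ = z) (hcomm : a * z = z * a) (hzk : z ^ k = 1)
    (hcop : Nat.Coprime (orderOf a) k) : z = 1 := by
  have h1 : h * a * h⁻¹ = z * a := by rw [← hz]; group
  have h2 : (z * a) ^ orderOf a = z ^ orderOf a * a ^ orderOf a :=
    (Commute.mul_pow (show Commute z a from hcomm.symm) _)
  have h3 : (z * a) ^ orderOf a = 1 := by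
    rw [← h1, conj_pow, pow_orderOf_eq_one]; simp
  rw [h3, pow_orderOf_eq_one, mul_one] at h2
  have h4 : orderOf z ∣ orderOf a := orderOf_dvd_of_pow_eq_one h2.symm
  have h5 : orderOf z ∣ k := orderOf_dvd_of_pow_eq_one hzk
  have h6 : orderOf z = 1 := Nat.eq_one_of_dvd_coprimes hcop h4 h5
  exact orderOf_eq_one_iff.mp h6

end Cfsg.Agent.Helper10
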