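import Mathlib
import Cfsg.Agent.Helper1.Coprime2

set_option autoImplicit false

namespace Cfsg.Agent.Helper10

open Pointwise

/-- A relative Schur--Zassenhaus/Glauberman lemma: if `A` normalizes `D` and acts coprimely (one of
them solvable), and every coset `D a` (`a ∈ A`) meets the subgroup `S`, then some `D`-conjugate of
`A` lies in `S`. -/
theorem exists_conj_le_of_coprime {Γ : Type*} [Group Γ] [Finite Γ] (D A S : Subgroup Γ)
    (hA : ∀ a ∈ A, ∀ d ∈ D, a * d * a⁻¹ ∈ D) (hcop : (Nat.card A).Coprime (Nat.card D))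
    (hsolv : Group.IsSolvable A ∨ Group.IsSolvable D)
    (hAS : ∀ a ∈ A, ∃ c ∈ D, c * a ∈ S) : ∃ d ∈ D, ∀ a ∈ A, d * a * d⁻¹ ∈ S := by
  classical
  have hAn : A ≤ Subgroup.normalizer (D : Set Γ) := by
    intro a ha
    rw [Subgroup.mem_normalizer_iff]
    intro h
    constructor
    · exact hA a ha h
    · intro hh
      have hinj : Function.Injective (fun d : D => (⟨a * d * a⁻¹, hA a ha d d.2⟩ : D)) := by
        intro x y hxy
        have h1 := congrArg Subtype.val hxy
        simp only [mul_left_inj, mul_right_inj] at h1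
        exact Subtype.ext h1
      obtain ⟨d, hd⟩ := (Finite.injective_iff_surjective.1 hinj) ⟨a * h * a⁻¹, hh⟩
      have h1 := congrArg Subtype.val hd
      simp only [mul_left_inj, mul_right_inj] at h1
      rw [← h1]
      exact d.2
  obtain ⟨Γ', hΓ'⟩ : ∃ Γ' : Subgroup Γ, Γ' = D ⊔ A := ⟨_, rfl⟩
  have hDΓ : D ≤ Γ' := by rw [hΓ']; exact le_sup_left
  have hAΓ : A ≤ Γ' := by rw [hΓ']; exact le_sup_right
  have hΓn : Γ' ≤ Subgroup.normalizer (D : Set Γ) := by
    rw [hΓ']
    exact sup_le Subgroup.le_normalizer hAn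
  have hDn : (D.subgroupOf Γ').Normal := (Subgroup.normal_subgroupOf_iff_le_normalizer hDΓ).2 hΓn
  have hcard1 : Nat.card (A.subgroupOf Γ') = Nat.card A :=
    Nat.card_congr (Subgroup.subgroupOfEquivOfLe hAΓ).toEquiv
  have hcard2 : Nat.card (D.subgroupOf Γ') = Nat.card D :=
    Nat.card_congr (Subgroup.subgroupOfEquivOfLe hDΓ).toEquiv
  have hsolv' : Group.IsSolvable (A.subgroupOf Γ') ∨ Group.IsSolvable (D.subgroupOf Γ') := by
    rcases hsolv with h | h
    · left
      exact solvable_of_solvable_injective (f := (Subgroup.subgroupOfEquivOfLe hAΓ).toMonoidHom)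
        (Subgroup.subgroupOfEquivOfLe hAΓ).injective
    · right
      exact solvable_of_solvable_injective (f := (Subgroup.subgroupOfEquivOfLe hDΓ).toMonoidHom)
        (Subgroup.subgroupOfEquivOfLe hDΓ).injective
  have hS : S.subgroupOf Γ' ⊔ D.subgroupOf Γ' = ⊤ := by
    rw [eq_top_iff]
    intro γ _
    have hT : Γ' ≤ (S.subgroupOf Γ' ⊔ D.subgroupOf Γ').map Γ'.subtype := by
      refine le_trans (le_of_eq hΓ') (sup_le ?_ ?_)
      · intro d hd
        exact Subgroup.mem_map.2 ⟨⟨d, hDΓ hd⟩,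
          Subgroup.mem_sup_right (Subgroup.mem_subgroupOf.2 hd), rfl⟩
      · intro a ha
        obtain ⟨c, hc, hcS⟩ := hAS a ha
        have haΓ := hAΓ ha
        have hcΓ := hDΓ hc
        refine Subgroup.mem_map.2 ⟨⟨a, haΓ⟩, ?_, rfl⟩
        have e : (⟨a, haΓ⟩ : Γ') = (⟨c, hcΓ⟩ : Γ')⁻¹ * ⟨c * a, Γ'.mul_mem hcΓ haΓ⟩ := by
          apply Subtype.ext
          simp
        rw [e]
        exact Subgroup.mul_mem _
          (Subgroup.inv_mem _ (Subgroup.mem_sup_right (Subgroup.mem_subgroupOf.2 hc)))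
          (Subgroup.mem_sup_left (Subgroup.mem_subgroupOf.2 hcS))
    obtain ⟨γ', hγ', hγeq⟩ := Subgroup.mem_map.1 (hT γ.2)
    have h1 : γ' = γ := Subtype.ext hγeq
    rw [← h1]
    exact hγ'
  obtain ⟨d, hd, hconj⟩ := Helper1.exists_conj_le_of_sup_eq_top (D.subgroupOf Γ')
    (A.subgroupOf Γ') (S.subgroupOf Γ') (by rw [hcard1, hcard2]; exact hcop) hsolv' hS
  refine ⟨(d : Γ), Subgroup.mem_subgroupOf.1 hd, ?_⟩
  intro a ha
  have haA : (⟨a, hAΓ ha⟩ : Γ') ∈ A.subgroupOf Γ' := Subgroup.mem_subgroupOf.2 ha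
  have h1 := hconj (Subgroup.smul_mem_pointwise_smul _ (MulAut.conj d) _ haA)
  have h2 := Subgroup.mem_subgroupOf.1 h1
  simpa [MulAut.smul_def] using h2

end Cfsg.Agent.Helper10
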