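import Mathlib
import Cfsg.Agent.Helper10.LinChar

set_option autoImplicit false

namespace Cfsg.Agent.Helper10

section

variable {G : Type*} [Group G] {M : Type*} [CommGroup M] (W₁ W₂ : Subgroup G)

theorem ne_of_triv (φ ψ : ↥(W₁ ⊔ W₂) →* M) (hφ : φ ≠ 1)
    (hφ₂ : ∀ w : ↥(W₁ ⊔ W₂), (w : G) ∈ W₂ → φ w = 1)
    (hψ₁ : ∀ w : ↥(W₁ ⊔ W₂), (w : G) ∈ W₁ → ψ w = 1) : φ ≠ ψ := by
  intro h
  subst h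
  exact hφ (hom_ext_sup W₁ W₂ φ 1 (fun w hw => by simpa using hψ₁ w hw)
    (fun w hw => by simpa using hφ₂ w hw))

theorem ne_mul_of_triv_left (φ φ' ψ' : ↥(W₁ ⊔ W₂) →* M)
    (hφ₂ : ∀ w : ↥(W₁ ⊔ W₂), (w : G) ∈ W₂ → φ w = 1)
    (hφ'₂ : ∀ w : ↥(W₁ ⊔ W₂), (w : G) ∈ W₂ → φ' w = 1) (hψ' : ψ' ≠ 1)
    (hψ'₁ : ∀ w : ↥(W₁ ⊔ W₂), (w : G) ∈ W₁ → ψ' w = 1) : φ ≠ φ' * ψ' := by
  obtain ⟨b, hb, hψb⟩ := exists_ne_one_right W₁ W₂ ψ' hψ' hψ'₁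
  intro h
  have := DFunLike.congr_fun h b
  rw [MonoidHom.mul_apply, hφ₂ b hb, hφ'₂ b hb, one_mul] at this
  exact hψb this.symm

theorem ne_mul_of_triv_right (ψ φ' ψ' : ↥(W₁ ⊔ W₂) →* M)
    (hψ₁ : ∀ w : ↥(W₁ ⊔ W₂), (w : G) ∈ W₁ → ψ w = 1) (hφ' : φ' ≠ 1)
    (hφ'₂ : ∀ w : ↥(W₁ ⊔ W₂), (w : G) ∈ W₂ → φ' w = 1)
    (hψ'₁ : ∀ w : ↥(W₁ ⊔ W₂), (w : G) ∈ W₁ → ψ' w = 1) : ψ ≠ φ' * ψ' := by
  obtain ⟨a, ha, hφa⟩ := exists_ne_one_left W₁ W₂ φ' hφ' hφ'₂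
  intro h
  have := DFunLike.congr_fun h a
  rw [MonoidHom.mul_apply, hψ₁ a ha, hψ'₁ a ha, mul_one] at this
  exact hφa this.symm

theorem mul_ne_one_of_triv (φ ψ : ↥(W₁ ⊔ W₂) →* M) (hφ : φ ≠ 1)
    (hφ₂ : ∀ w : ↥(W₁ ⊔ W₂), (w : G) ∈ W₂ → φ w = 1)
    (hψ₁ : ∀ w : ↥(W₁ ⊔ W₂), (w : G) ∈ W₁ → ψ w = 1) : φ * ψ ≠ 1 := by
  obtain ⟨a, ha, hφa⟩ := exists_ne_one_left W₁ W₂ φ hφ hφ₂
  intro h
  have := DFunLike.congr_fun h a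
  rw [MonoidHom.mul_apply, hψ₁ a ha, mul_one, MonoidHom.one_apply] at this
  exact hφa this

theorem mul_eq_mul_iff_of_triv (φ φ' ψ ψ' : ↥(W₁ ⊔ W₂) →* M)
    (hφ₂ : ∀ w : ↥(W₁ ⊔ W₂), (w : G) ∈ W₂ → φ w = 1)
    (hφ'₂ : ∀ w : ↥(W₁ ⊔ W₂), (w : G) ∈ W₂ → φ' w = 1)
    (hψ₁ : ∀ w : ↥(W₁ ⊔ W₂), (w : G) ∈ W₁ → ψ w = 1)
    (hψ'₁ : ∀ w : ↥(W₁ ⊔ W₂), (w : G) ∈ W₁ → ψ' w = 1) :
    φ * ψ = φ' * ψ' ↔ φ = φ' ∧ ψ = ψ' := by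
  constructor
  · intro h
    constructor
    · apply hom_ext_sup
      · intro w hw
        have := DFunLike.congr_fun h w
        rw [MonoidHom.mul_apply, MonoidHom.mul_apply, hψ₁ w hw, hψ'₁ w hw, mul_one,
          mul_one] at this
        exact this
      · intro w hw
        rw [hφ₂ w hw, hφ'₂ w hw]
    · apply hom_ext_sup
      · intro w hw
        rw [hψ₁ w hw, hψ'₁ w hw]
      · intro w hw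
        have := DFunLike.congr_fun h w
        rw [MonoidHom.mul_apply, MonoidHom.mul_apply, hφ₂ w hw, hφ'₂ w hw, one_mul,
          one_mul] at this
        exact this
  · rintro ⟨rfl, rfl⟩
    rfl

end

end Cfsg.Agent.Helper10
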