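import Mathlib
import Cfsg.Prelude.Def_OddOrderChar
import Cfsg.Prelude.Def_OddOrderLocal
import Cfsg.Agent.Helper2.CharInner
import Cfsg.Agent.Helper2.CharComplete
import Cfsg.Agent.Helper10.LinChar2
import Cfsg.Agent.Helper10.AddMatrix
import Cfsg.Agent.Helper10.AbDual
import Cfsg.Agent.Helper25.CharPow

set_option autoImplicit false

/-!
# Galois (power map) action on a cyclic TI family, helper10
-/

namespace Cfsg.Agent.Helper10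

open Cfsg
open scoped ComplexConjugate

section PM

variable {G : Type*} [Group G] [Fintype G]

theorem cg_inner_neg_right (f h : G → ℂ) : classInner f (-h) = -classInner f h := by
  unfold classInner
  rw [← mul_neg, ← Finset.sum_neg_distrib]
  congr 1
  exact Finset.sum_congr rfl fun x _ => by simp

theorem cg_inner_neg_left (f h : G → ℂ) : classInner (-f) h = -classInner f h := by
  unfold classInner
  rw [← mul_neg, ← Finset.sum_neg_distrib]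
  congr 1
  exact Finset.sum_congr rfl fun x _ => by simp

/-- Two irreducible characters up to sign with nonzero inner product are equal or opposite. -/
theorem pm_inner {x y : G → ℂ} (hx : IsIrrCharacter G x ∨ IsIrrCharacter G (-x))
    (hy : IsIrrCharacter G y ∨ IsIrrCharacter G (-y)) (h : classInner x y ≠ 0) :
    (x = y ∧ classInner x y = 1) ∨ (x = -y ∧ classInner x y = -1) := by
  rcases hx with hx | hx <;> rcases hy with hy | hy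
  · have h1 := Helper2.classInner_irr hx hy
    by_cases e : x = y
    · rw [if_pos e] at h1
      exact Or.inl ⟨e, h1⟩
    · rw [if_neg e] at h1
      exact absurd h1 h
  · have h1 := Helper2.classInner_irr hx hy
    rw [cg_inner_neg_right] at h1
    by_cases e : x = -y
    · rw [if_pos e] at h1
      exact Or.inr ⟨e, neg_eq_iff_eq_neg.1 h1⟩
    · rw [if_neg e] at h1
      exact absurd (neg_eq_zero.1 h1) h
  · have h1 := Helper2.classInner_irr hx hy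
    rw [cg_inner_neg_left] at h1
    by_cases e : -x = y
    · rw [if_pos e] at h1
      exact Or.inr ⟨by rw [← e, neg_neg], neg_eq_iff_eq_neg.1 h1⟩
    · rw [if_neg e] at h1
      exact absurd (neg_eq_zero.1 h1) h
  · have h1 := Helper2.classInner_irr hx hy
    rw [cg_inner_neg_left, cg_inner_neg_right, neg_neg] at h1
    by_cases e : -x = -y
    · rw [if_pos e] at h1
      exact Or.inl ⟨neg_injective e, h1⟩
    · rw [if_neg e] at h1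
      exact absurd h1 h

/-- In an orthonormal family of irreducible characters up to sign, at most one member is not
orthogonal to a given irreducible character up to sign. -/
theorem pm_unique {I : Type*} (χ : I → G → ℂ)
    (hirr : ∀ ω, IsIrrCharacter G (χ ω) ∨ IsIrrCharacter G (-χ ω))
    (hne : ∀ ω ω', ω ≠ ω' → classInner (χ ω) (χ ω') = 0)
    {x : G → ℂ} (hx : IsIrrCharacter G x ∨ IsIrrCharacter G (-x)) {u v : I}
    (hu : classInner x (χ u) ≠ 0) (hv : classInner x (χ v) ≠ 0) : u = v := by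
  by_contra huv
  rcases pm_inner hx (hirr u) hu with ⟨h1, -⟩ | ⟨h1, -⟩
  · rw [h1] at hv
    exact hv (hne u v huv)
  · rw [h1, cg_inner_neg_left, hne u v huv, neg_zero] at hv
    exact hv rfl

theorem match_aux {I : Type*} (χ : I → G → ℂ)
    (hirr : ∀ ω, IsIrrCharacter G (χ ω) ∨ IsIrrCharacter G (-χ ω))
    (hne : ∀ ω ω', ω ≠ ω' → classInner (χ ω) (χ ω') = 0)
    {x : G → ℂ} (hx : IsIrrCharacter G x ∨ IsIrrCharacter G (-x))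
    (A B C B' C' : I) (h1 : B ≠ B') (h2 : B ≠ C') (h3 : C ≠ B') (h4 : C ≠ C')
    (e1 : classInner x (χ A) + classInner x (χ B) - classInner x (χ C) = 1)
    (e2 : classInner x (χ A) + classInner x (χ B') - classInner x (χ C') = 1) : x = χ A := by
  have key : classInner x (χ A) = 1 := by
    by_contra hA
    have hbc : classInner x (χ B) ≠ 0 ∨ classInner x (χ C) ≠ 0 := by
      by_contra hcon
      push Not at hcon
      rw [hcon.1, hcon.2, add_zero, sub_zero] at e1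
      exact hA e1
    have hbc' : classInner x (χ B') ≠ 0 ∨ classInner x (χ C') ≠ 0 := by
      by_contra hcon
      push Not at hcon
      rw [hcon.1, hcon.2, add_zero, sub_zero] at e2
      exact hA e2
    rcases hbc with hb | hc <;> rcases hbc' with hb' | hc'
    · exact h1 (pm_unique χ hirr hne hx hb hb')
    · exact h2 (pm_unique χ hirr hne hx hb hc')
    · exact h3 (pm_unique χ hirr hne hx hc hb')
    · exact h4 (pm_unique χ hirr hne hx hc hc')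
  have hA0 : classInner x (χ A) ≠ 0 := by rw [key]; exact one_ne_zero
  rcases pm_inner hx (hirr A) hA0 with ⟨h, -⟩ | ⟨-, h⟩
  · exact h
  · exfalso
    rw [key] at h
    norm_num at h

/-- The twist of a function by the `k`-th power map. -/
def powTw (k : ℕ) (f : G → ℂ) : G → ℂ := fun g => f (g ^ k)

theorem powTw_apply (k : ℕ) (f : G → ℂ) (g : G) : powTw k f g = f (g ^ k) := rfl

theorem powTw_inner {k : ℕ} (hk : Nat.Coprime k (Nat.card G)) (f h : G → ℂ) :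
    classInner (powTw k f) (powTw k h) = classInner f h := by
  unfold classInner
  congr 1
  exact Equiv.sum_comp (powCoprime hk.symm) (fun g => f g * conj (h g))

theorem powTw_pm {k : ℕ} (hk : Nat.Coprime k (Nat.card G)) {f : G → ℂ}
    (hf : IsIrrCharacter G f ∨ IsIrrCharacter G (-f)) :
    IsIrrCharacter G (powTw k f) ∨ IsIrrCharacter G (-powTw k f) := by
  rcases hf with hf | hf
  · exact Or.inl (Helper25.isIrrCharacter_pow hk hf)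
  · exact Or.inr (Helper25.isIrrCharacter_pow hk hf)

end PM

/-- Linear characters of `W₁ ⊔ W₂` trivial on `V`. -/
abbrev CycTriv {G : Type*} [Group G] (W₁ W₂ V : Subgroup G) : Type _ :=
  {φ : ↥(W₁ ⊔ W₂) →* ℂˣ // ∀ w : ↥(W₁ ⊔ W₂), (w : G) ∈ V → φ w = 1}

theorem exists_decomp {G : Type*} [Group G] [Finite G] (W₁ W₂ : Subgroup G) (hinf : W₁ ⊓ W₂ = ⊥)
    (hc : ∀ a b : ↥(W₁ ⊔ W₂), a * b = b * a) (ω : ↥(W₁ ⊔ W₂) →* ℂˣ) :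
    ∃ φ ψ : ↥(W₁ ⊔ W₂) →* ℂˣ, (∀ w : ↥(W₁ ⊔ W₂), (w : G) ∈ W₂ → φ w = 1) ∧
      (∀ w : ↥(W₁ ⊔ W₂), (w : G) ∈ W₁ → ψ w = 1) ∧ φ * ψ = ω := by
  classical
  have hfin := Helper10.finite_hom_units (Q := ↥(W₁ ⊔ W₂))
  obtain ⟨N₁, hN₁⟩ : ∃ N₁ : Subgroup ↥(W₁ ⊔ W₂), N₁ = W₁.subgroupOf (W₁ ⊔ W₂) := ⟨_, rfl⟩
  obtain ⟨N₂, hN₂⟩ : ∃ N₂ : Subgroup ↥(W₁ ⊔ W₂), N₂ = W₂.subgroupOf (W₁ ⊔ W₂) := ⟨_, rfl⟩
  have hmem₁ : ∀ w : ↥(W₁ ⊔ W₂), w ∈ N₁ ↔ (w : G) ∈ W₁ := by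
    intro w
    rw [hN₁]
    exact Subgroup.mem_subgroupOf
  have hmem₂ : ∀ w : ↥(W₁ ⊔ W₂), w ∈ N₂ ↔ (w : G) ∈ W₂ := by
    intro w
    rw [hN₂]
    exact Subgroup.mem_subgroupOf
  have hN₂n : N₂.Normal := ⟨fun n hn g => by rw [hc g n, mul_inv_cancel_right]; exact hn⟩
  have hdisj : Disjoint N₁ N₂ := by
    rw [disjoint_iff, eq_bot_iff]
    intro w hw
    obtain ⟨h1, h2⟩ := Subgroup.mem_inf.1 hw
    have h3 : (w : G) ∈ W₁ ⊓ W₂ := Subgroup.mem_inf.2 ⟨(hmem₁ w).1 h1, (hmem₂ w).1 h2⟩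
    rw [hinf, Subgroup.mem_bot] at h3
    rw [Subgroup.mem_bot]
    exact Subtype.ext h3
  have hsup : N₁ ⊔ N₂ = ⊤ := by
    rw [hN₁, hN₂, ← Subgroup.subgroupOf_sup (le_sup_left : W₁ ≤ W₁ ⊔ W₂)
      (le_sup_right : W₂ ≤ W₁ ⊔ W₂), Subgroup.subgroupOf_self]
  have hcompl : N₁.IsComplement' N₂ :=
    Subgroup.isComplement'_of_disjoint_and_mul_eq_univ hdisj (by
      rw [← Subgroup.mul_normal, hsup]
      rfl)
  have hcard₁ : Nat.card N₁ = Nat.card W₁ := by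
    rw [hN₁]
    exact Nat.card_congr (Subgroup.subgroupOfEquivOfLe le_sup_left).toEquiv
  have hcard₂ : Nat.card N₂ = Nat.card W₂ := by
    rw [hN₂]
    exact Nat.card_congr (Subgroup.subgroupOfEquivOfLe le_sup_right).toEquiv
  have hidx₂ : N₂.index = Nat.card W₁ := by rw [hcompl.index_eq_card, hcard₁]
  have hidx₁ : N₁.index = Nat.card W₂ := by rw [hcompl.symm.index_eq_card, hcard₂]
  have hcardW : Nat.card ↥(W₁ ⊔ W₂) = Nat.card W₁ * Nat.card W₂ := by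
    rw [← hcompl.card_mul_card, hcard₁, hcard₂]
  have hIcard : Nat.card W₁ ≤ Nat.card (CycTriv W₁ W₂ W₂) := by
    rw [← hidx₂]
    refine le_trans (Helper10.index_le_card_hom_trivial hc N₂) (le_of_eq ?_)
    refine Nat.card_congr (Equiv.subtypeEquivRight fun φ => ?_)
    constructor
    · intro hφ w hw
      exact hφ w ((hmem₂ w).2 hw)
    · intro hφ w hw
      exact hφ w ((hmem₂ w).1 hw)
  have hJcard : Nat.card W₂ ≤ Nat.card (CycTriv W₁ W₂ W₁) := by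
    rw [← hidx₁]
    refine le_trans (Helper10.index_le_card_hom_trivial hc N₁) (le_of_eq ?_)
    refine Nat.card_congr (Equiv.subtypeEquivRight fun φ => ?_)
    constructor
    · intro hφ w hw
      exact hφ w ((hmem₁ w).2 hw)
    · intro hφ w hw
      exact hφ w ((hmem₁ w).1 hw)
  have hminj : Function.Injective (fun p : CycTriv W₁ W₂ W₂ × CycTriv W₁ W₂ W₁ =>
      (p.1.1 * p.2.1 : ↥(W₁ ⊔ W₂) →* ℂˣ)) := by
    intro p q h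
    have h2 := (Helper10.mul_eq_mul_iff_of_triv W₁ W₂ p.1.1 q.1.1 p.2.1 q.2.1 p.1.2 q.1.2
      p.2.2 q.2.2).1 h
    exact Prod.ext (Subtype.ext h2.1) (Subtype.ext h2.2)
  have hmbij : Function.Bijective (fun p : CycTriv W₁ W₂ W₂ × CycTriv W₁ W₂ W₁ =>
      (p.1.1 * p.2.1 : ↥(W₁ ⊔ W₂) →* ℂˣ)) := by
    refine hminj.bijective_of_nat_card_le ?_
    rw [Helper10.card_hom_units hc, hcardW, Nat.card_prod]
    exact Nat.mul_le_mul hIcard hJcard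
  obtain ⟨p, hp⟩ := hmbij.2 ω
  exact ⟨p.1.1, p.2.1, p.1.2, p.2.2, hp⟩

theorem exists_coprime_modEq {N m k₀ : ℕ} (hN : 0 < N) (hm : m ∣ N) (hk : k₀.Coprime m) :
    ∃ k : ℕ, k.Coprime N ∧ k ≡ k₀ [MOD m] := by
  have : NeZero N := ⟨hN.ne'⟩
  obtain ⟨v, hv⟩ := ZMod.unitsMap_surjective hm (ZMod.unitOfCoprime k₀ hk)
  refine ⟨(v : ZMod N).val, ZMod.val_coe_unit_coprime v, ?_⟩
  rw [← ZMod.natCast_eq_natCast_iff]
  have h1 : (((v : ZMod N).val : ℕ) : ZMod m) = ZMod.castHom hm (ZMod m) (v : ZMod N) := by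
    rw [ZMod.natCast_val, ZMod.castHom_apply]
  rw [h1]
  have h2 := congrArg (fun u : (ZMod m)ˣ => (u : ZMod m)) hv
  simp only [ZMod.unitsMap_def, Units.coe_map, ZMod.coe_unitOfCoprime] at h2
  exact h2

/-- The power map (Galois) action on a cyclic TI family: `χ_ω(g ^ k) = χ_{ω ^ k}(g)` for `k`
coprime to the group order. -/
theorem cyc_family_pow {G : Type*} [Group G] [Fintype G] (W₁ W₂ : Subgroup G)
    (hW : Cfsg.IsSelfNormalizingCyclic W₁ W₂) (hodd : Odd (Nat.card ↥(W₁ ⊔ W₂)))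
    (χ : (↥(W₁ ⊔ W₂) →* ℂˣ) → (G → ℂ)) (hχ : Cfsg.IsCyclicTIFamily W₁ W₂ χ)
    {k : ℕ} (hk : Nat.Coprime k (Nat.card G)) (ω : ↥(W₁ ⊔ W₂) →* ℂˣ) (g : G) :
    χ ω (g ^ k) = χ (ω ^ k) g := by
  classical
  obtain ⟨hW₁ne, hW₂ne, hinf, hcomm, hcyc, -⟩ := hW
  have hc : ∀ a b : ↥(W₁ ⊔ W₂), a * b = b * a := by
    intro a b
    obtain ⟨c, hc⟩ := hcyc.exists_generator
    obtain ⟨i, hi⟩ := Subgroup.mem_zpowers_iff.1 (hc a)
    obtain ⟨j, hj⟩ := Subgroup.mem_zpowers_iff.1 (hc b)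
    rw [← hi, ← hj, ← zpow_add, ← zpow_add, add_comm]
  have hpow_apply : ∀ (φ : ↥(W₁ ⊔ W₂) →* ℂˣ) (w : ↥(W₁ ⊔ W₂)), (φ ^ k) w = φ (w ^ k) := by
    intro φ w
    rw [MonoidHom.pow_apply, map_pow]
  have hkW : (Nat.card ↥(W₁ ⊔ W₂)).Coprime k :=
    Nat.Coprime.coprime_dvd_left (Subgroup.card_subgroup_dvd_card (W₁ ⊔ W₂)) hk.symm
  have hpow_inj : ∀ φ φ' : ↥(W₁ ⊔ W₂) →* ℂˣ, φ ^ k = φ' ^ k → φ = φ' := by
    intro φ φ' h
    apply MonoidHom.ext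
    intro w
    obtain ⟨w', hw'⟩ := (powCoprime hkW).surjective w
    have hw'' : w' ^ k = w := hw'
    rw [← hw'', ← hpow_apply, ← hpow_apply, h]
  have e0 : (1 : ↥(W₁ ⊔ W₂) →* ℂˣ) ^ k = 1 := one_pow (M := ↥(W₁ ⊔ W₂) →* ℂˣ) k
  have hpow_ne : ∀ φ : ↥(W₁ ⊔ W₂) →* ℂˣ, φ ≠ 1 → φ ^ k ≠ 1 :=
    fun φ hφ h => hφ (hpow_inj φ 1 (h.trans e0.symm))
  have htriv_pow : ∀ (V : Subgroup G) (φ : ↥(W₁ ⊔ W₂) →* ℂˣ),
      (∀ w : ↥(W₁ ⊔ W₂), (w : G) ∈ V → φ w = 1) →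
      (∀ w : ↥(W₁ ⊔ W₂), (w : G) ∈ V → (φ ^ k) w = 1) := by
    intro V φ h w hw
    rw [MonoidHom.pow_apply, h w hw, one_pow]
  have hirr := hχ.irr_or_neg
  have hself : ∀ ω : ↥(W₁ ⊔ W₂) →* ℂˣ, classInner (χ ω) (χ ω) = 1 := by
    intro ω
    have := hχ.orthonormal ω ω
    rwa [if_pos rfl] at this
  have hne : ∀ ω ω' : ↥(W₁ ⊔ W₂) →* ℂˣ, ω ≠ ω' → classInner (χ ω) (χ ω') = 0 := by
    intro ω ω' h
    have := hχ.orthonormal ω ω'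
    rwa [if_neg h] at this
  have hirr' : ∀ ω : ↥(W₁ ⊔ W₂) →* ℂˣ,
      IsIrrCharacter G (powTw k (χ ω)) ∨ IsIrrCharacter G (-powTw k (χ ω)) :=
    fun ω => powTw_pm hk (hirr ω)
  -- the twisted induction identity
  have hE : ∀ φ ψ : ↥(W₁ ⊔ W₂) →* ℂˣ, φ ≠ 1 → ψ ≠ 1 →
      (∀ w : ↥(W₁ ⊔ W₂), (w : G) ∈ W₂ → φ w = 1) → (∀ w : ↥(W₁ ⊔ W₂), (w : G) ∈ W₁ → ψ w = 1) →
      ∀ g : G, 1 - χ φ (g ^ k) - χ ψ (g ^ k) + χ (φ * ψ) (g ^ k) =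
        1 - χ (φ ^ k) g - χ (ψ ^ k) g + χ (φ ^ k * ψ ^ k) g := by
    intro φ ψ hφ hψ hφ₂ hψ₁ g
    have h1 := congrFun (hχ.induced_eq φ ψ hφ hψ hφ₂ hψ₁) (g ^ k)
    have h2 := congrFun (hχ.induced_eq (φ ^ k) (ψ ^ k) (hpow_ne φ hφ) (hpow_ne ψ hψ)
      (htriv_pow W₂ φ hφ₂) (htriv_pow W₁ ψ hψ₁)) g
    have h3 : (fun e : ↥(W₁ ⊔ W₂) => 1 - (φ (e ^ k) : ℂ) - (ψ (e ^ k) : ℂ)
        + (φ (e ^ k) : ℂ) * (ψ (e ^ k) : ℂ)) =
        (fun w : ↥(W₁ ⊔ W₂) => 1 - ((φ ^ k) w : ℂ) - ((ψ ^ k) w : ℂ)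
          + ((φ ^ k) w : ℂ) * ((ψ ^ k) w : ℂ)) := by
      funext e
      simp only [hpow_apply]
    have h4 : indFun (W₁ ⊔ W₂) (fun w : ↥(W₁ ⊔ W₂) =>
        1 - (φ w : ℂ) - (ψ w : ℂ) + (φ w : ℂ) * (ψ w : ℂ)) (g ^ k) =
        indFun (W₁ ⊔ W₂) (fun w : ↥(W₁ ⊔ W₂) => 1 - ((φ ^ k) w : ℂ) - ((ψ ^ k) w : ℂ)
          + ((φ ^ k) w : ℂ) * ((ψ ^ k) w : ℂ)) g :=
      (Helper25.indFun_pow hk (W₁ ⊔ W₂) _ g).trans
        (congrArg (fun f => indFun (W₁ ⊔ W₂) f g) h3)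
    rw [h1, h2] at h4
    exact h4
  -- inner product relations
  have hkey : ∀ φ ψ : ↥(W₁ ⊔ W₂) →* ℂˣ, φ ≠ 1 → ψ ≠ 1 →
      (∀ w : ↥(W₁ ⊔ W₂), (w : G) ∈ W₂ → φ w = 1) → (∀ w : ↥(W₁ ⊔ W₂), (w : G) ∈ W₁ → ψ w = 1) →
      (classInner (powTw k (χ φ)) (χ (φ ^ k)) + classInner (powTw k (χ φ)) (χ (ψ ^ k))
        - classInner (powTw k (χ φ)) (χ (φ ^ k * ψ ^ k)) = 1) ∧
      (classInner (powTw k (χ ψ)) (χ (ψ ^ k)) + classInner (powTw k (χ ψ)) (χ (φ ^ k))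
        - classInner (powTw k (χ ψ)) (χ (φ ^ k * ψ ^ k)) = 1) := by
    intro φ ψ hφ hψ hφ₂ hψ₁
    have hfun : powTw k (χ φ) + powTw k (χ ψ) - powTw k (χ (φ * ψ)) =
        χ (φ ^ k) + χ (ψ ^ k) - χ (φ ^ k * ψ ^ k) := by
      funext g
      have := hE φ ψ hφ hψ hφ₂ hψ₁ g
      simp only [Pi.add_apply, Pi.sub_apply, powTw_apply]
      linear_combination -this
    have hφψ : φ ≠ ψ := ne_of_triv W₁ W₂ φ ψ hφ hφ₂ hψ₁
    have hφm : φ ≠ φ * ψ := ne_mul_of_triv_left W₁ W₂ φ φ ψ hφ₂ hφ₂ hψ hψ₁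
    have hψm : ψ ≠ φ * ψ := ne_mul_of_triv_right W₁ W₂ ψ φ ψ hψ₁ hφ hφ₂ hψ₁
    constructor
    · have h1 := congrArg (classInner (powTw k (χ φ))) hfun
      rw [Helper2.classInner_sub_right, Helper2.classInner_add_right,
        Helper2.classInner_sub_right, Helper2.classInner_add_right, powTw_inner hk,
        powTw_inner hk, powTw_inner hk, hself, hne φ ψ hφψ, hne φ (φ * ψ) hφm] at h1
      linear_combination -h1
    · have h1 := congrArg (classInner (powTw k (χ ψ))) hfun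
      rw [Helper2.classInner_sub_right, Helper2.classInner_add_right,
        Helper2.classInner_sub_right, Helper2.classInner_add_right, powTw_inner hk,
        powTw_inner hk, powTw_inner hk, hself, hne ψ φ hφψ.symm, hne ψ (φ * ψ) hψm] at h1
      linear_combination -h1
  -- squares of nontrivial characters
  have hsq : ∀ ψ : ↥(W₁ ⊔ W₂) →* ℂˣ, ψ ≠ 1 → ψ * ψ ≠ 1 ∧ ψ ≠ ψ * ψ := by
    intro ψ hψ
    refine ⟨fun h => hψ ?_, fun h => hψ ?_⟩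
    · apply MonoidHom.ext
      intro w
      have h1 : ψ w ^ 2 = 1 := by
        have := DFunLike.congr_fun h w
        rw [MonoidHom.mul_apply, MonoidHom.one_apply] at this
        rw [pow_two]
        exact this
      have h2 : ψ w ^ (Nat.card ↥(W₁ ⊔ W₂)) = 1 := by
        rw [← map_pow, pow_card_eq_one', map_one]
      have h3 : ψ w ^ Nat.gcd 2 (Nat.card ↥(W₁ ⊔ W₂)) = 1 := pow_gcd_eq_one.2 ⟨h1, h2⟩
      rw [Nat.Coprime.gcd_eq_one (Nat.coprime_two_left.2 hodd), pow_one] at h3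
      rw [MonoidHom.one_apply]
      exact h3
    · exact (mul_left_cancel (h.symm.trans (mul_one ψ).symm))
  -- nontrivial characters of both types
  have hex₂ : ∃ ψ : ↥(W₁ ⊔ W₂) →* ℂˣ, ψ ≠ 1 ∧ ∀ w : ↥(W₁ ⊔ W₂), (w : G) ∈ W₁ → ψ w = 1 := by
    obtain ⟨b, hb⟩ := (Subgroup.ne_bot_iff_exists_ne_one).1 hW₂ne
    have hb1 : (b : G) ∉ W₁ := by
      intro h
      have h3 : (b : G) ∈ W₁ ⊓ W₂ := Subgroup.mem_inf.2 ⟨h, b.2⟩
      rw [hinf, Subgroup.mem_bot] at h3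
      exact hb (Subtype.ext h3)
    obtain ⟨ψ, hψ1, hψ2⟩ := Helper10.exists_hom_ne_one_of_not_mem hc (W₁.subgroupOf (W₁ ⊔ W₂))
      (x := ⟨(b : G), Subgroup.mem_sup_right b.2⟩) (fun h => hb1 (Subgroup.mem_subgroupOf.1 h))
    exact ⟨ψ, fun h => hψ2 (by rw [h, MonoidHom.one_apply]),
      fun w hw => hψ1 w (Subgroup.mem_subgroupOf.2 hw)⟩
  have hex₁ : ∃ φ : ↥(W₁ ⊔ W₂) →* ℂˣ, φ ≠ 1 ∧ ∀ w : ↥(W₁ ⊔ W₂), (w : G) ∈ W₂ → φ w = 1 := by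
    obtain ⟨b, hb⟩ := (Subgroup.ne_bot_iff_exists_ne_one).1 hW₁ne
    have hb1 : (b : G) ∉ W₂ := by
      intro h
      have h3 : (b : G) ∈ W₁ ⊓ W₂ := Subgroup.mem_inf.2 ⟨b.2, h⟩
      rw [hinf, Subgroup.mem_bot] at h3
      exact hb (Subtype.ext h3)
    obtain ⟨φ, hφ1, hφ2⟩ := Helper10.exists_hom_ne_one_of_not_mem hc (W₂.subgroupOf (W₁ ⊔ W₂))
      (x := ⟨(b : G), Subgroup.mem_sup_left b.2⟩) (fun h => hb1 (Subgroup.mem_subgroupOf.1 h))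
    exact ⟨φ, fun h => hφ2 (by rw [h, MonoidHom.one_apply]),
      fun w hw => hφ1 w (Subgroup.mem_subgroupOf.2 hw)⟩
  obtain ⟨ψ₀, hψ₀, hψ₀₁⟩ := hex₂
  obtain ⟨φ₀, hφ₀, hφ₀₂⟩ := hex₁
  have hψ₁₁ : ∀ w : ↥(W₁ ⊔ W₂), (w : G) ∈ W₁ → (ψ₀ * ψ₀) w = 1 := by
    intro w hw
    rw [MonoidHom.mul_apply, hψ₀₁ w hw, mul_one]
  have hφ₁₂ : ∀ w : ↥(W₁ ⊔ W₂), (w : G) ∈ W₂ → (φ₀ * φ₀) w = 1 := by
    intro w hw
    rw [MonoidHom.mul_apply, hφ₀₂ w hw, mul_one]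
  -- characters trivial on `W₂`
  have hA : ∀ φ : ↥(W₁ ⊔ W₂) →* ℂˣ, φ ≠ 1 → (∀ w : ↥(W₁ ⊔ W₂), (w : G) ∈ W₂ → φ w = 1) →
      powTw k (χ φ) = χ (φ ^ k) := by
    intro φ hφ hφ₂
    obtain ⟨e1, -⟩ := hkey φ ψ₀ hφ hψ₀ hφ₂ hψ₀₁
    obtain ⟨e2, -⟩ := hkey φ (ψ₀ * ψ₀) hφ (hsq ψ₀ hψ₀).1 hφ₂ hψ₁₁
    have h1 : ψ₀ ^ k ≠ (ψ₀ * ψ₀) ^ k := fun h => (hsq ψ₀ hψ₀).2 (hpow_inj _ _ h)
    exact match_aux χ hirr hne (hirr' φ) (φ ^ k) (ψ₀ ^ k) (φ ^ k * ψ₀ ^ k) ((ψ₀ * ψ₀) ^ k)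
      (φ ^ k * (ψ₀ * ψ₀) ^ k) h1
      (ne_mul_of_triv_right W₁ W₂ (ψ₀ ^ k) (φ ^ k) ((ψ₀ * ψ₀) ^ k) (htriv_pow W₁ ψ₀ hψ₀₁)
        (hpow_ne φ hφ) (htriv_pow W₂ φ hφ₂) (htriv_pow W₁ (ψ₀ * ψ₀) hψ₁₁))
      (fun h => ne_mul_of_triv_right W₁ W₂ ((ψ₀ * ψ₀) ^ k) (φ ^ k) (ψ₀ ^ k)
        (htriv_pow W₁ (ψ₀ * ψ₀) hψ₁₁) (hpow_ne φ hφ) (htriv_pow W₂ φ hφ₂)
        (htriv_pow W₁ ψ₀ hψ₀₁) h.symm)
      (fun h => h1 (mul_left_cancel h)) e1 e2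
  -- characters trivial on `W₁`
  have hB : ∀ ψ : ↥(W₁ ⊔ W₂) →* ℂˣ, ψ ≠ 1 → (∀ w : ↥(W₁ ⊔ W₂), (w : G) ∈ W₁ → ψ w = 1) →
      powTw k (χ ψ) = χ (ψ ^ k) := by
    intro ψ hψ hψ₁
    obtain ⟨-, e1⟩ := hkey φ₀ ψ hφ₀ hψ hφ₀₂ hψ₁
    obtain ⟨-, e2⟩ := hkey (φ₀ * φ₀) ψ (hsq φ₀ hφ₀).1 hψ hφ₁₂ hψ₁
    have h1 : φ₀ ^ k ≠ (φ₀ * φ₀) ^ k := fun h => (hsq φ₀ hφ₀).2 (hpow_inj _ _ h)
    exact match_aux χ hirr hne (hirr' ψ) (ψ ^ k) (φ₀ ^ k) (φ₀ ^ k * ψ ^ k) ((φ₀ * φ₀) ^ k)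
      ((φ₀ * φ₀) ^ k * ψ ^ k) h1
      (ne_mul_of_triv_left W₁ W₂ (φ₀ ^ k) ((φ₀ * φ₀) ^ k) (ψ ^ k) (htriv_pow W₂ φ₀ hφ₀₂)
        (htriv_pow W₂ (φ₀ * φ₀) hφ₁₂) (hpow_ne ψ hψ) (htriv_pow W₁ ψ hψ₁))
      (fun h => ne_mul_of_triv_left W₁ W₂ ((φ₀ * φ₀) ^ k) (φ₀ ^ k) (ψ ^ k)
        (htriv_pow W₂ (φ₀ * φ₀) hφ₁₂) (htriv_pow W₂ φ₀ hφ₀₂) (hpow_ne ψ hψ)
        (htriv_pow W₁ ψ hψ₁) h.symm)
      (fun h => h1 (mul_right_cancel h)) e1 e2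
  -- the general case
  obtain ⟨φ, ψ, hφ₂, hψ₁, rfl⟩ := exists_decomp W₁ W₂ hinf hc ω
  have hmp : (φ * ψ) ^ k = φ ^ k * ψ ^ k := mul_pow φ ψ k
  rw [hmp]
  by_cases hφ : φ = 1
  · by_cases hψ : ψ = 1
    · have e1 : (1 : ↥(W₁ ⊔ W₂) →* ℂˣ) * 1 = 1 := mul_one (1 : ↥(W₁ ⊔ W₂) →* ℂˣ)
      rw [hφ, hψ, e0, e1, hχ.map_one]
    · have e1 : (1 : ↥(W₁ ⊔ W₂) →* ℂˣ) * ψ = ψ := one_mul ψ
      have e2 : (1 : ↥(W₁ ⊔ W₂) →* ℂˣ) * ψ ^ k = ψ ^ k := one_mul (ψ ^ k)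
      rw [hφ, e0, e1, e2]
      exact congrFun (hB ψ hψ hψ₁) g
  · by_cases hψ : ψ = 1
    · have e1 : φ * (1 : ↥(W₁ ⊔ W₂) →* ℂˣ) = φ := mul_one φ
      have e2 : φ ^ k * (1 : ↥(W₁ ⊔ W₂) →* ℂˣ) = φ ^ k := mul_one (φ ^ k)
      rw [hψ, e0, e1, e2]
      exact congrFun (hA φ hφ hφ₂) g
    · have hE' := hE φ ψ hφ hψ hφ₂ hψ₁ g
      have hA' : χ φ (g ^ k) = χ (φ ^ k) g := congrFun (hA φ hφ hφ₂) g
      have hB' : χ ψ (g ^ k) = χ (ψ ^ k) g := congrFun (hB ψ hψ hψ₁) g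
      linear_combination hE' + hA' + hB'

end Cfsg.Agent.Helper10
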