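import Mathlib
import Cfsg.Prelude.Def_OddOrderChar
import Cfsg.Agent.S1499
import Cfsg.Agent.Helper10.CyclicCompl
import Cfsg.Agent.Helper2.CharInner

set_option autoImplicit false

namespace Cfsg.Agent.Helper10

open Cfsg

open scoped Pointwise

section Dade

variable {G : Type*} [Group G]

theorem mem_cent_singleton {a g : G} :
    g ∈ Subgroup.centralizer ({a} : Set G) ↔ a * g = g * a := by
  rw [Subgroup.mem_centralizer_iff]
  constructor
  · intro h
    exact h a (Set.mem_singleton a)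
  · intro h y hy
    rw [Set.mem_singleton_iff] at hy
    rw [hy]
    exact h

/-- Under the Dade hypothesis, `C_G(a) = C_L(a) H(a)` elementwise. -/
theorem dade_cent_decomp (A : Set G) (L : Subgroup G) (H : G → Subgroup G)
    (hD : DadeHypothesis A L H) {a c : G} (ha : a ∈ A)
    (hc : c ∈ Subgroup.centralizer ({a} : Set G)) :
    ∃ k ∈ L ⊓ Subgroup.centralizer ({a} : Set G), ∃ h ∈ H a, k * h = c := by
  have hn : L ⊓ Subgroup.centralizer ({a} : Set G) ≤ Subgroup.normalizer (H a : Set G) := by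
    intro k hk
    have hk2 := (Subgroup.mem_inf.1 hk).2
    rw [Subgroup.mem_normalizer_iff]
    intro n
    constructor
    · intro hn
      exact hD.conj_mem_H a ha k hk2 n hn
    · intro hn
      have h1 := hD.conj_mem_H a ha k⁻¹ (Subgroup.inv_mem _ hk2) _ hn
      have e : k⁻¹ * (k * n * k⁻¹) * k⁻¹⁻¹ = n := by group
      rw [e] at h1
      exact h1
  have h1 : c ∈ ((L ⊓ Subgroup.centralizer ({a} : Set G) ⊔ H a : Subgroup G) : Set G) := by
    rw [sup_comm, hD.sup_eq a ha]
    exact hc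
  rw [Subgroup.coe_mul_of_left_le_normalizer_right _ _ hn] at h1
  exact Set.mem_mul.1 h1

/-- Under the Dade hypothesis, `H` is compatible with conjugation by `L`. -/
theorem dade_conj_mem [Finite G] (A : Set G) (L : Subgroup G) (H : G → Subgroup G)
    (hD : DadeHypothesis A L H) {a y u : G} (ha : a ∈ A) (hy : y ∈ L) (hu : u ∈ H a) :
    y * u * y⁻¹ ∈ H (y * a * y⁻¹) := by
  obtain ⟨b, hb⟩ : ∃ b : G, b = y * a * y⁻¹ := ⟨_, rfl⟩
  rw [← hb]
  have hbA : b ∈ A := by
    rw [hb]
    exact hD.conj_mem y hy a ha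
  have hua : a * u = u * a := mem_cent_singleton.1 (hD.le_centralizer a ha hu)
  have hvb : y * u * y⁻¹ ∈ Subgroup.centralizer ({b} : Set G) := by
    rw [mem_cent_singleton, hb]
    have e1 : y * a * y⁻¹ * (y * u * y⁻¹) = y * (a * u) * y⁻¹ := by group
    have e2 : y * u * y⁻¹ * (y * a * y⁻¹) = y * (u * a) * y⁻¹ := by group
    rw [e1, e2, hua]
  obtain ⟨k, hk, h, hh, hkh⟩ := dade_cent_decomp A L H hD hbA hvb
  have hkn : k ∈ Subgroup.normalizer (H b : Set G) := by
    have hk2 := (Subgroup.mem_inf.1 hk).2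
    rw [Subgroup.mem_normalizer_iff]
    intro n
    constructor
    · intro hn
      exact hD.conj_mem_H b hbA k hk2 n hn
    · intro hn
      have h1 := hD.conj_mem_H b hbA k⁻¹ (Subgroup.inv_mem _ hk2) _ hn
      have e : k⁻¹ * (k * n * k⁻¹) * k⁻¹⁻¹ = n := by group
      rw [e] at h1
      exact h1
  have hvk : y * u * y⁻¹ * k⁻¹ ∈ H b := by
    rw [← hkh]
    have e : k * h * k⁻¹ = k * h * k⁻¹ := rfl
    exact (Subgroup.mem_normalizer_iff.1 hkn h).1 hh
  have hpow := coset_pow (H b) k (y * u * y⁻¹) hkn hvk (orderOf u)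
  rw [conj_pow, pow_orderOf_eq_one, mul_one, mul_inv_cancel, one_mul] at hpow
  have hkpow : k ^ orderOf u ∈ H b ⊓ (L ⊓ Subgroup.centralizer ({b} : Set G)) := by
    refine Subgroup.mem_inf.2 ⟨?_, Subgroup.pow_mem _ hk _⟩
    have := Subgroup.inv_mem _ hpow
    rwa [inv_inv] at this
  rw [hD.inf_eq_bot b hbA, Subgroup.mem_bot] at hkpow
  have hd1 : orderOf k ∣ orderOf u := orderOf_dvd_of_pow_eq_one hkpow
  have hd2 : orderOf k ∣ Nat.card ↥(L ⊓ Subgroup.centralizer ({b} : Set G)) :=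
    S1499.orderOf_sub_dvd _ hk
  have hd3 : orderOf u ∣ Nat.card (H a) := S1499.orderOf_sub_dvd _ hu
  have hk1 : orderOf k = 1 :=
    Nat.eq_one_of_dvd_coprimes (hD.coprime a ha b hbA) (hd1.trans hd3) hd2
  rw [orderOf_eq_one_iff] at hk1
  rw [hk1, one_mul] at hkh
  rw [← hkh]
  exact hh

/-- Under the Dade hypothesis, `H` is compatible with any conjugation staying inside `A`. -/
theorem dade_conj_mem' [Finite G] (A : Set G) (L : Subgroup G) (H : G → Subgroup G)
    (hD : DadeHypothesis A L H) {a x u : G} (ha : a ∈ A) (hxa : x * a * x⁻¹ ∈ A)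
    (hu : u ∈ H a) : x * u * x⁻¹ ∈ H (x * a * x⁻¹) := by
  obtain ⟨y, hy, hya⟩ := hD.fusion a ha x hxa
  have hc : y⁻¹ * x ∈ Subgroup.centralizer ({a} : Set G) := by
    rw [mem_cent_singleton]
    have e : a * (y⁻¹ * x) = y⁻¹ * (y * a * y⁻¹) * x := by group
    rw [e, hya]
    group
  have h1 := hD.conj_mem_H a ha (y⁻¹ * x) hc u hu
  have h2 := dade_conj_mem A L H hD ha hy h1
  rw [hya] at h2
  have e : y * (y⁻¹ * x * u * (y⁻¹ * x)⁻¹) * y⁻¹ = x * u * x⁻¹ := by group
  rw [e] at h2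
  exact h2

theorem dade_card_conj [Finite G] (A : Set G) (L : Subgroup G) (H : G → Subgroup G)
    (hD : DadeHypothesis A L H) {a y : G} (ha : a ∈ A) (hy : y ∈ L) :
    Nat.card (H (y * a * y⁻¹)) = Nat.card (H a) := by
  have hb := hD.conj_mem y hy a ha
  refine Nat.card_congr (Equiv.symm ?_)
  exact
    { toFun := fun u => ⟨y * u * y⁻¹, dade_conj_mem A L H hD ha hy u.2⟩
      invFun := fun v => ⟨y⁻¹ * v * y, by
        have h := dade_conj_mem A L H hD hb (L.inv_mem hy) v.2
        have e1 : y⁻¹ * (y * a * y⁻¹) * y⁻¹⁻¹ = a := by group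
        have e2 : y⁻¹ * (v : G) * y⁻¹⁻¹ = y⁻¹ * v * y := by group
        rw [e1, e2] at h
        exact h⟩
      left_inv := fun u => by
        apply Subtype.ext
        show y⁻¹ * (y * (u : G) * y⁻¹) * y = u
        group
      right_inv := fun v => by
        apply Subtype.ext
        show y * (y⁻¹ * (v : G) * y) * y⁻¹ = v
        group }

/-- The Dade counting identity: the sum of a class function over the elements conjugate into
some coset `a H(a)` (`a ∈ A`) is `|G|/|L|` times the sum over `a ∈ A` of its average over the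
coset `a H(a)`. -/
theorem dade_count [Fintype G] (A : Set G) (L : Subgroup G) [Fintype L] (H : G → Subgroup G)
    (hD : DadeHypothesis A L H) (F : G → ℂ) (hF : IsClassFunction G F)
    (Dset : Finset G)
    (hDset : ∀ g, g ∈ Dset ↔ ∃ a ∈ A, ∃ u ∈ H a, ∃ x : G, x * g * x⁻¹ = a * u)
    (Aset : Finset L) (hAset : ∀ a : L, a ∈ Aset ↔ (a : G) ∈ A)
    (Hset : G → Finset G) (hHset : ∀ a u : G, u ∈ Hset a ↔ u ∈ H a) :
    (Nat.card L : ℂ) * ∑ g ∈ Dset, F g =
      (Nat.card G : ℂ) * ∑ a ∈ Aset, (Nat.card (H a) : ℂ)⁻¹ * ∑ u ∈ Hset a, F (a * u) := by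
  classical
  obtain ⟨T', hT'⟩ : ∃ T' : Finset (L × G), ∀ p : L × G, p ∈ T' ↔ p.1 ∈ Aset ∧ p.2 ∈ Hset p.1 :=
    ⟨Finset.univ.filter (fun p : L × G => p.1 ∈ Aset ∧ p.2 ∈ Hset p.1), by simp⟩
  obtain ⟨wt, hwt⟩ : ∃ wt : G × L × G → ℂ, wt = fun t => (Nat.card (H (t.2.1 : G)) : ℂ)⁻¹ :=
    ⟨_, rfl⟩
  obtain ⟨Φ, hΦ⟩ : ∃ Φ : G × L × G → G, Φ = fun t => t.1⁻¹ * ((t.2.1 : G) * t.2.2) * t.1 :=
    ⟨_, rfl⟩
  have hcard : ∀ a : G, (Hset a).card = Nat.card (H a) := by
    intro a
    rw [Nat.card_eq_fintype_card, Fintype.card_subtype]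
    congr 1
    ext u
    simp only [Finset.mem_filter, Finset.mem_univ, true_and]
    exact hHset a u
  -- first evaluation
  have h1 : ∑ t ∈ (Finset.univ : Finset G) ×ˢ T', wt t * F (Φ t) =
      (Nat.card G : ℂ) * ∑ a ∈ Aset, (Nat.card (H a) : ℂ)⁻¹ * ∑ u ∈ Hset a, F (a * u) := by
    rw [Finset.sum_product]
    have e1 : ∀ x ∈ (Finset.univ : Finset G), ∑ p ∈ T', wt (x, p) * F (Φ (x, p)) =
        ∑ a ∈ Aset, (Nat.card (H a) : ℂ)⁻¹ * ∑ u ∈ Hset a, F (a * u) := by
      intro x _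
      rw [Finset.sum_finset_product T' Aset (fun a => Hset a) hT']
      refine Finset.sum_congr rfl fun a _ => ?_
      rw [Finset.mul_sum]
      refine Finset.sum_congr rfl fun u _ => ?_
      rw [hwt, hΦ]
      show (Nat.card (H (a : G)) : ℂ)⁻¹ * F (x⁻¹ * ((a : G) * u) * x) = _
      have e := hF ((a : G) * u) x⁻¹
      rw [inv_inv] at e
      rw [e]
    rw [Finset.sum_congr rfl e1, Finset.sum_const, Finset.card_univ, nsmul_eq_mul,
      Nat.card_eq_fintype_card]
  -- second evaluation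
  have h2 : ∑ t ∈ (Finset.univ : Finset G) ×ˢ T', wt t * F (Φ t) =
      (Nat.card L : ℂ) * ∑ g ∈ Dset, F g := by
    rw [← Finset.sum_fiberwise _ Φ, Finset.mul_sum]
    have e2 : ∀ g : G, ∑ t ∈ ((Finset.univ : Finset G) ×ˢ T').filter (fun t => Φ t = g),
        wt t * F (Φ t) = if g ∈ Dset then (Nat.card L : ℂ) * F g else 0 := by
      intro g
      by_cases hg : g ∈ Dset
      · rw [if_pos hg]
        obtain ⟨a₀, ha₀, u₀, hu₀, x₀, hx₀⟩ := (hDset g).1 hg
        have ha₀L : a₀ ∈ L := hD.subset ha₀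
        have hgeq : g = x₀⁻¹ * (a₀ * u₀) * x₀ := by
          rw [← hx₀]
          group
        have hcomm : ∀ h ∈ H a₀, a₀ * h = h * a₀ := fun h hh =>
          mem_cent_singleton.1 (hD.le_centralizer a₀ ha₀ hh)
        have hLH : ∀ e : G, e ∈ L → e ∈ H a₀ → e = 1 := by
          intro e he1 he2
          have h3 : e ∈ H a₀ ⊓ (L ⊓ Subgroup.centralizer ({a₀} : Set G)) :=
            Subgroup.mem_inf.2 ⟨he2, Subgroup.mem_inf.2 ⟨he1, hD.le_centralizer a₀ ha₀ he2⟩⟩
          rw [hD.inf_eq_bot a₀ ha₀, Subgroup.mem_bot] at h3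
          exact h3
        have e3 : ∑ t ∈ ((Finset.univ : Finset G) ×ˢ T').filter (fun t => Φ t = g),
            wt t * F (Φ t) =
            F g * ∑ t ∈ ((Finset.univ : Finset G) ×ˢ T').filter (fun t => Φ t = g), wt t := by
          rw [Finset.mul_sum]
          refine Finset.sum_congr rfl fun t ht => ?_
          rw [(Finset.mem_filter.1 ht).2, mul_comm]
        have e4 : ∑ q ∈ (Finset.univ : Finset L) ×ˢ Hset a₀, (Nat.card (H a₀) : ℂ)⁻¹ =
            ∑ t ∈ ((Finset.univ : Finset G) ×ˢ T').filter (fun t => Φ t = g), wt t := by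
          refine Finset.sum_bij (fun q _ => (((q.1 : G) * q.2 * x₀,
            q.1 * (⟨a₀, ha₀L⟩ : L) * q.1⁻¹, (q.1 : G) * (q.2 * u₀ * q.2⁻¹) * (q.1 : G)⁻¹) :
              G × L × G)) ?_ ?_ ?_ ?_
          · intro q hq
            have hq2 : q.2 ∈ H a₀ := (hHset a₀ q.2).1 (Finset.mem_product.1 hq).2
            have hconjA : (q.1 : G) * a₀ * (q.1 : G)⁻¹ ∈ A := hD.conj_mem q.1 q.1.2 a₀ ha₀
            rw [Finset.mem_filter, Finset.mem_product]
            refine ⟨⟨Finset.mem_univ _, ?_⟩, ?_⟩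
            · rw [hT']
              refine ⟨(hAset _).2 hconjA, (hHset _ _).2 ?_⟩
              exact dade_conj_mem A L H hD ha₀ q.1.2
                ((H a₀).mul_mem ((H a₀).mul_mem hq2 hu₀) ((H a₀).inv_mem hq2))
            · rw [hΦ, hgeq]
              show ((q.1 : G) * q.2 * x₀)⁻¹ * ((q.1 : G) * a₀ * (q.1 : G)⁻¹ *
                ((q.1 : G) * (q.2 * u₀ * q.2⁻¹) * (q.1 : G)⁻¹)) * ((q.1 : G) * q.2 * x₀) =
                x₀⁻¹ * (a₀ * u₀) * x₀
              have e5 : ((q.1 : G) * q.2 * x₀)⁻¹ * ((q.1 : G) * a₀ * (q.1 : G)⁻¹ *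
                ((q.1 : G) * (q.2 * u₀ * q.2⁻¹) * (q.1 : G)⁻¹)) * ((q.1 : G) * q.2 * x₀) =
                x₀⁻¹ * (q.2⁻¹ * (a₀ * q.2) * u₀) * x₀ := by group
              rw [e5, hcomm q.2 hq2]
              group
          · intro q hq q' hq' hqq'
            have hq2 : q.2 ∈ H a₀ := (hHset a₀ q.2).1 (Finset.mem_product.1 hq).2
            have hq2' : q'.2 ∈ H a₀ := (hHset a₀ q'.2).1 (Finset.mem_product.1 hq').2
            have h3 : (q.1 : G) * q.2 * x₀ = (q'.1 : G) * q'.2 * x₀ := congrArg Prod.fst hqq'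
            have h4 : (q.1 : G) * q.2 = (q'.1 : G) * q'.2 := mul_right_cancel h3
            have h5 : (q'.1 : G)⁻¹ * (q.1 : G) = q'.2 * q.2⁻¹ := by
              have e6 : (q'.1 : G)⁻¹ * (q.1 : G) = (q'.1 : G)⁻¹ * ((q.1 : G) * q.2) * q.2⁻¹ := by
                group
              rw [e6, h4]
              group
            have h6 : (q'.1 : G)⁻¹ * (q.1 : G) = 1 := by
              refine hLH _ (L.mul_mem (L.inv_mem q'.1.2) q.1.2) ?_
              rw [h5]
              exact (H a₀).mul_mem hq2' ((H a₀).inv_mem hq2)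
            have h7 : (q.1 : G) = (q'.1 : G) := by
              have e7 : (q.1 : G) = (q'.1 : G) * ((q'.1 : G)⁻¹ * (q.1 : G)) := by group
              rw [e7, h6, mul_one]
            have h8 : q.2 = q'.2 := by
              rw [h7] at h4
              exact mul_left_cancel h4
            exact Prod.ext (Subtype.ext h7) h8
          · intro t ht
            obtain ⟨ht1, ht2⟩ := Finset.mem_filter.1 ht
            obtain ⟨hta, htu⟩ := (hT' t.2).1 (Finset.mem_product.1 ht1).2
            have hta' : (t.2.1 : G) ∈ A := (hAset _).1 hta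
            have htu' : t.2.2 ∈ H (t.2.1 : G) := (hHset _ _).1 htu
            have ht3 : t.1⁻¹ * ((t.2.1 : G) * t.2.2) * t.1 = g := by
              rw [hΦ] at ht2
              exact ht2
            have hz : (t.1 * x₀⁻¹) * (a₀ * u₀) * (t.1 * x₀⁻¹)⁻¹ = (t.2.1 : G) * t.2.2 := by
              have e8 : (t.1 * x₀⁻¹) * (a₀ * u₀) * (t.1 * x₀⁻¹)⁻¹ =
                  t.1 * (x₀⁻¹ * (a₀ * u₀) * x₀) * t.1⁻¹ := by group
              rw [e8, ← hgeq, ← ht3]
              group
            have hza := S1499.core A L H hD ha₀ hta' hu₀ htu' hz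
            obtain ⟨y, hy, hya⟩ := hD.fusion a₀ ha₀ (t.1 * x₀⁻¹) (by rw [hza]; exact hta')
            have hc : y⁻¹ * (t.1 * x₀⁻¹) ∈ Subgroup.centralizer ({a₀} : Set G) := by
              rw [mem_cent_singleton]
              have e9 : a₀ * (y⁻¹ * (t.1 * x₀⁻¹)) = y⁻¹ * (y * a₀ * y⁻¹) * (t.1 * x₀⁻¹) := by
                group
              rw [e9, hya]
              group
            obtain ⟨k, hk, h, hh, hkh⟩ := dade_cent_decomp A L H hD ha₀ hc
            obtain ⟨hkL, hkc⟩ := Subgroup.mem_inf.1 hk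
            have hkc' : a₀ * k = k * a₀ := mem_cent_singleton.1 hkc
            have hzeq : y * k * h = t.1 * x₀⁻¹ := by
              have e10 : y * k * h = y * (k * h) := by group
              rw [e10, hkh]
              group
            refine ⟨(⟨y * k, L.mul_mem hy hkL⟩, h),
              Finset.mem_product.2 ⟨Finset.mem_univ _, (hHset a₀ h).2 hh⟩, ?_⟩
            refine Prod.ext ?_ (Prod.ext ?_ ?_)
            · show y * k * h * x₀ = t.1
              rw [hzeq]
              group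
            · apply Subtype.ext
              show y * k * a₀ * (y * k)⁻¹ = (t.2.1 : G)
              rw [← hza, ← hya]
              have e11 : y * k * a₀ * (y * k)⁻¹ = y * (k * a₀) * k⁻¹ * y⁻¹ := by group
              rw [e11, ← hkc']
              group
            · show y * k * (h * u₀ * h⁻¹) * (y * k)⁻¹ = t.2.2
              have e12 : y * k * (h * u₀ * h⁻¹) * (y * k)⁻¹ =
                  (y * k * h) * u₀ * (y * k * h)⁻¹ := by group
              rw [e12, hzeq]
              have e13 : (t.1 * x₀⁻¹) * u₀ * (t.1 * x₀⁻¹)⁻¹ =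
                  ((t.1 * x₀⁻¹) * a₀ * (t.1 * x₀⁻¹)⁻¹)⁻¹ *
                    ((t.1 * x₀⁻¹) * (a₀ * u₀) * (t.1 * x₀⁻¹)⁻¹) := by group
              rw [e13, hza, hz]
              group
          · intro q hq
            rw [hwt]
            show (Nat.card (H a₀) : ℂ)⁻¹ =
              (Nat.card (H ((q.1 : G) * a₀ * (q.1 : G)⁻¹)) : ℂ)⁻¹
            rw [dade_card_conj A L H hD ha₀ q.1.2]
        rw [e3, ← e4, Finset.sum_const, Finset.card_product, Finset.card_univ, hcard,
          nsmul_eq_mul, ← Nat.card_eq_fintype_card]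
        have hH0 : (Nat.card (H a₀) : ℂ) ≠ 0 := by exact_mod_cast Nat.card_pos.ne'
        push_cast
        field_simp
      · rw [if_neg hg]
        refine Finset.sum_eq_zero fun t ht => ?_
        exfalso
        apply hg
        obtain ⟨ht1, ht2⟩ := Finset.mem_filter.1 ht
        obtain ⟨hta, htu⟩ := (hT' t.2).1 (Finset.mem_product.1 ht1).2
        rw [hDset]
        refine ⟨(t.2.1 : G), (hAset _).1 hta, t.2.2, (hHset _ _).1 htu, t.1, ?_⟩
        rw [← ht2, hΦ]
        group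
    rw [Finset.sum_congr rfl (fun g _ => e2 g), Finset.sum_ite_mem, Finset.univ_inter]
  rw [← h2, h1]

/-- Value of the Dade map at an element conjugate into a coset `a H(a)`. -/
theorem dade_apply [Finite G] (A : Set G) (L : Subgroup G) (H : G → Subgroup G)
    (hD : DadeHypothesis A L H) (α : L → ℂ) (hα : IsClassFunction L α) {g : G} {a : L}
    (ha : (a : G) ∈ A) {x u : G} (hu : u ∈ H (a : G)) (hx : x * g * x⁻¹ = (a : G) * u) :
    dadeIsometry A L H α g = α a := by
  have h : ∃ a : ↥L, (a : G) ∈ A ∧ ∃ x : G, ∃ u ∈ H (a : G), x * g * x⁻¹ = (a : G) * u :=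
    ⟨a, ha, x, u, hu, hx⟩
  have e : dadeIsometry A L H α g = α (Classical.choose h) := by
    unfold dadeIsometry
    exact dif_pos h
  rw [e]
  obtain ⟨ha', x', u', hu', hx'⟩ := Classical.choose_spec h
  have h1 : (x * x'⁻¹) * (((Classical.choose h : L) : G) * u') * (x * x'⁻¹)⁻¹ = (a : G) * u := by
    rw [← hx', ← hx]
    group
  have h2 := S1499.core A L H hD ha' ha hu' hu h1
  obtain ⟨y, hy, hya⟩ := hD.fusion ((Classical.choose h : L) : G) ha' (x * x'⁻¹)
    (by rw [h2]; exact ha)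
  have h3 : a = ⟨y, hy⟩ * Classical.choose h * ⟨y, hy⟩⁻¹ := by
    apply Subtype.ext
    rw [← h2, ← hya]
    rfl
  rw [h3]
  exact (hα (Classical.choose h) ⟨y, hy⟩).symm

theorem dade_zero (A : Set G) (L : Subgroup G) (H : G → Subgroup G) (α : L → ℂ) {g : G}
    (h : ¬ ∃ a : ↥L, (a : G) ∈ A ∧ ∃ x : G, ∃ u ∈ H (a : G), x * g * x⁻¹ = (a : G) * u) :
    dadeIsometry A L H α g = 0 := by
  unfold dadeIsometry
  exact dif_neg h

/-- The Dade image of a class function is a class function. -/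
theorem dade_isClassFunction [Finite G] (A : Set G) (L : Subgroup G) (H : G → Subgroup G)
    (hD : DadeHypothesis A L H) (α : L → ℂ) (hα : IsClassFunction L α) :
    IsClassFunction G (dadeIsometry A L H α) := by
  intro g h
  by_cases hex : ∃ a : ↥L, (a : G) ∈ A ∧ ∃ x : G, ∃ u ∈ H (a : G), x * g * x⁻¹ = (a : G) * u
  · obtain ⟨a, ha, x, u, hu, hx⟩ := hex
    rw [dade_apply A L H hD α hα ha hu hx]
    refine dade_apply A L H hD α hα ha hu (x := x * h⁻¹) ?_
    rw [← hx]
    group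
  · rw [dade_zero A L H α hex]
    refine dade_zero A L H α ?_
    rintro ⟨a, ha, x, u, hu, hx⟩
    exact hex ⟨a, ha, x * h, u, hu, by rw [← hx]; group⟩

/-- The Dade image vanishes off the support. -/
theorem dade_zero' (A : Set G) (L : Subgroup G) (H : G → Subgroup G) (α : L → ℂ) {g : G}
    (h : ¬ ∃ a ∈ A, ∃ u ∈ H a, ∃ x : G, x * g * x⁻¹ = a * u) :
    dadeIsometry A L H α g = 0 := by
  refine dade_zero A L H α ?_
  rintro ⟨a, ha, x, u, hu, hx⟩
  exact h ⟨(a : G), ha, u, hu, x, hx⟩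

end Dade

end Cfsg.Agent.Helper10
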