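import Mathlib
import Cfsg.Agent.Helper10.GL2Odd

set_option autoImplicit false

universe u

namespace Cfsg.Agent.Helper10

open scoped commutatorElement

/-- The commutant of a non-scalar `2 × 2` matrix consists of the linear polynomials in it. -/
theorem gl2_commutant {F : Type*} [Field F] (M N : Matrix (Fin 2) (Fin 2) F)
    (hM : ¬ ∃ c : F, M = c • (1 : Matrix (Fin 2) (Fin 2) F)) (hc : N * M = M * N) :
    ∃ α β : F, N = α • (1 : Matrix (Fin 2) (Fin 2) F) + β • M := by
  by_cases h01 : M 0 1 ≠ 0
  · exact gl2_comm_eq_lin M N h01 hc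
  by_cases h10 : M 1 0 ≠ 0
  · have hc' : N.transpose * M.transpose = M.transpose * N.transpose := by
      rw [← Matrix.transpose_mul, ← Matrix.transpose_mul, hc]
    obtain ⟨α, β, h⟩ := gl2_comm_eq_lin M.transpose N.transpose h10 hc'
    refine ⟨α, β, ?_⟩
    have h' := congrArg Matrix.transpose h
    rw [Matrix.transpose_transpose, Matrix.transpose_add, Matrix.transpose_smul,
      Matrix.transpose_smul, Matrix.transpose_one, Matrix.transpose_transpose] at h'
    exact h'
  · rw [not_not] at h01 h10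
    have hd : M 0 0 - M 1 1 ≠ 0 := by
      intro h
      apply hM
      refine ⟨M 0 0, ?_⟩
      ext i j
      revert i j
      simp only [Fin.forall_fin_two, Matrix.smul_apply, Matrix.one_apply, smul_eq_mul]
      refine ⟨⟨?_, ?_⟩, ?_, ?_⟩
      · simp
      · simp [h01]
      · simp [h10]
      · simp only [if_true]
        linear_combination (-1 : F) * h
    have e01 := congrFun (congrFun hc 0) 1
    have e10 := congrFun (congrFun hc 1) 0
    simp only [Matrix.mul_apply, Fin.sum_univ_two, h01, h10, mul_zero, zero_mul, add_zero,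
      zero_add] at e01 e10
    have hN01 : N 0 1 = 0 := by
      have h : N 0 1 * (M 0 0 - M 1 1) = 0 := by linear_combination (-1 : F) * e01
      rcases mul_eq_zero.1 h with h | h
      · exact h
      · exact absurd h hd
    have hN10 : N 1 0 = 0 := by
      have h : N 1 0 * (M 0 0 - M 1 1) = 0 := by linear_combination e10
      rcases mul_eq_zero.1 h with h | h
      · exact h
      · exact absurd h hd
    obtain ⟨β, hβdef⟩ : ∃ β : F, β = (N 0 0 - N 1 1) / (M 0 0 - M 1 1) := ⟨_, rfl⟩
    have hβ : β * (M 0 0 - M 1 1) = N 0 0 - N 1 1 := by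
      rw [hβdef]; exact div_mul_cancel₀ _ hd
    refine ⟨N 0 0 - β * M 0 0, β, ?_⟩
    ext i j
    revert i j
    simp only [Fin.forall_fin_two, Matrix.add_apply, Matrix.smul_apply, Matrix.one_apply,
      smul_eq_mul]
    refine ⟨⟨?_, ?_⟩, ?_, ?_⟩
    · simp
    · simp [hN01, h01]
    · simp [hN10, h10]
    · simp only [if_true]
      linear_combination hβ

/-- A conjugate of a non-scalar matrix of nonzero discriminant commuting with it is the matrix
or its algebraic conjugate. -/
theorem gl2_conj_dichotomy {F : Type*} [Field F] (h2 : (2 : F) ≠ 0)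
    (M M' : Matrix (Fin 2) (Fin 2) F)
    (hM : ¬ ∃ c : F, M = c • (1 : Matrix (Fin 2) (Fin 2) F)) (hc : M' * M = M * M')
    (htr : M'.trace = M.trace) (hdet : M'.det = M.det)
    (hdisc : M.trace ^ 2 - 4 * M.det ≠ 0) :
    M' = M ∨ M' = M.trace • (1 : Matrix (Fin 2) (Fin 2) F) - M := by
  obtain ⟨α, β, h⟩ := gl2_commutant M M' hM hc
  have htr' : 2 * α + β * M.trace = M.trace := by
    rw [h] at htr
    rw [Matrix.trace_fin_two] at htr
    simp only [Matrix.add_apply, Matrix.smul_apply, Matrix.one_apply, smul_eq_mul] at htr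
    simp only [if_true] at htr
    rw [Matrix.trace_fin_two] at htr ⊢
    linear_combination htr
  have hdet' : α ^ 2 + α * β * M.trace + β ^ 2 * M.det = M.det := by
    rw [h] at hdet
    rw [Matrix.det_fin_two] at hdet
    simp only [Matrix.add_apply, Matrix.smul_apply, Matrix.one_apply, smul_eq_mul] at hdet
    simp only [if_true, Fin.isValue, zero_ne_one, one_ne_zero, if_false, mul_zero, zero_add]
      at hdet
    rw [Matrix.det_fin_two] at hdet ⊢
    rw [Matrix.trace_fin_two]
    linear_combination hdet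
  have hβ : (1 - β ^ 2) * (M.trace ^ 2 - 4 * M.det) = 0 := by
    linear_combination 4 * hdet' - (2 * α + β * M.trace + M.trace) * htr'
  have hβ2 : (1 - β) * (1 + β) = 0 := by
    rcases mul_eq_zero.1 hβ with h' | h'
    · linear_combination h'
    · exact absurd h' hdisc
  rcases mul_eq_zero.1 hβ2 with h' | h'
  · left
    have hβ1 : β = 1 := by linear_combination (-1 : F) * h'
    have hα : α = 0 := by
      have h3 : 2 * α = 0 := by rw [hβ1] at htr'; linear_combination htr'
      rcases mul_eq_zero.1 h3 with h4 | h4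
      · exact absurd h4 h2
      · exact h4
    rw [h, hα, hβ1, zero_smul, zero_add, one_smul]
  · right
    have hβ1 : β = -1 := by linear_combination h'
    have hα : α = M.trace := by
      have h3 : 2 * (α - M.trace) = 0 := by rw [hβ1] at htr'; linear_combination htr'
      rcases mul_eq_zero.1 h3 with h4 | h4
      · exact absurd h4 h2
      · exact sub_eq_zero.1 h4
    rw [h, hα, hβ1, neg_smul, one_smul, sub_eq_add_neg]

/-- Powers of `s + N` with `N² = 0`. -/
theorem gl2_scalar_add_nil_pow {F : Type*} [Field F] (s : F) (N : Matrix (Fin 2) (Fin 2) F)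
    (hN : N * N = 0) (k : ℕ) :
    (s • (1 : Matrix (Fin 2) (Fin 2) F) + N) ^ (k + 1) =
      s ^ (k + 1) • (1 : Matrix (Fin 2) (Fin 2) F) + (((k + 1 : ℕ) : F) * s ^ k) • N := by
  induction k with
  | zero => simp
  | succ k ih =>
    rw [pow_succ, ih]
    simp only [add_mul, mul_add, Matrix.smul_mul, Matrix.mul_smul, one_mul, mul_one, hN,
      smul_zero, add_zero, smul_smul]
    have e1 : s * s ^ (k + 1) = s ^ (k + 1 + 1) := by ring
    have e2 : (s * (((k + 1 : ℕ) : F) * s ^ k)) • N + s ^ (k + 1) • N =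
        (((k + 1 + 1 : ℕ) : F) * s ^ (k + 1)) • N := by
      rw [← add_smul]
      congr 1
      push_cast
      ring
    rw [e1, add_assoc, e2]

/-- A non-scalar matrix of finite order prime to the characteristic has nonzero discriminant. -/
theorem gl2_disc_ne_zero {F : Type*} [Field F] (h2 : (2 : F) ≠ 0)
    (M : Matrix (Fin 2) (Fin 2) F)
    (hM : ¬ ∃ c : F, M = c • (1 : Matrix (Fin 2) (Fin 2) F)) (m : ℕ) (hm : (m : F) ≠ 0)
    (hpow : M ^ m = 1) : M.trace ^ 2 - 4 * M.det ≠ 0 := by
  intro hdisc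
  obtain ⟨k, rfl⟩ : ∃ k, m = k + 1 := by
    rcases Nat.eq_zero_or_pos m with h0 | h0
    · rw [h0] at hm; simp at hm
    · exact ⟨m - 1, by omega⟩
  obtain ⟨N, hN⟩ : ∃ N : Matrix (Fin 2) (Fin 2) F,
      N = (2 : F) • M - M.trace • (1 : Matrix (Fin 2) (Fin 2) F) := ⟨_, rfl⟩
  have hNN : N * N = 0 := by
    rw [Matrix.trace_fin_two, Matrix.det_fin_two] at hdisc
    rw [hN, Matrix.trace_fin_two]
    ext i j
    revert i j
    simp only [Fin.forall_fin_two, Matrix.mul_apply, Fin.sum_univ_two, Matrix.sub_apply,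
      Matrix.smul_apply, Matrix.one_apply, smul_eq_mul, Matrix.zero_apply]
    simp only [if_true, Fin.isValue, zero_ne_one, one_ne_zero, if_false, mul_zero, sub_zero,
      mul_one]
    refine ⟨⟨?_, ?_⟩, ?_, ?_⟩
    · linear_combination hdisc
    · ring
    · ring
    · linear_combination hdisc
  have h2M : (2 : F) • M = M.trace • (1 : Matrix (Fin 2) (Fin 2) F) + N := by
    rw [hN]; abel
  have hp2 : ((2 : F) • M) ^ (k + 1) = (2 : F) ^ (k + 1) • (1 : Matrix (Fin 2) (Fin 2) F) := by
    rw [smul_pow, hpow]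
  rw [h2M, gl2_scalar_add_nil_pow _ N hNN k] at hp2
  have hcoef : ((k + 1 : ℕ) : F) * M.trace ^ k = 0 := by
    by_contra hne
    apply hM
    have h3 : (((k + 1 : ℕ) : F) * M.trace ^ k) • N =
        ((2 : F) ^ (k + 1) - M.trace ^ (k + 1)) • (1 : Matrix (Fin 2) (Fin 2) F) := by
      rw [sub_smul, ← hp2]; abel
    have h4 : N = ((((k + 1 : ℕ) : F) * M.trace ^ k)⁻¹ * ((2 : F) ^ (k + 1) - M.trace ^ (k + 1))) •
        (1 : Matrix (Fin 2) (Fin 2) F) := by
      rw [← smul_smul, ← h3, smul_smul, inv_mul_cancel₀ hne, one_smul]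
    refine ⟨(2 : F)⁻¹ * (M.trace + (((k + 1 : ℕ) : F) * M.trace ^ k)⁻¹ *
      ((2 : F) ^ (k + 1) - M.trace ^ (k + 1))), ?_⟩
    have h5 : M = (2 : F)⁻¹ • (M.trace • (1 : Matrix (Fin 2) (Fin 2) F) + N) := by
      rw [← h2M, smul_smul, inv_mul_cancel₀ h2, one_smul]
    rw [h4] at h5
    rw [← add_smul, smul_smul] at h5
    exact h5
  have htk : M.trace ^ k = 0 := by
    rcases mul_eq_zero.1 hcoef with h | h
    · exact absurd h hm
    · exact h
  have ht : M.trace = 0 := eq_zero_of_pow_eq_zero htk
  have hd : M.det = 0 := by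
    rw [ht] at hdisc
    have h4 : (4 : F) ≠ 0 := by
      have : (4 : F) = 2 * 2 := by norm_num
      rw [this]; exact mul_ne_zero h2 h2
    have h5 : 4 * M.det = 0 := by linear_combination (-1 : F) * hdisc
    rcases mul_eq_zero.1 h5 with h | h
    · exact absurd h h4
    · exact h
  have h6 := congrArg Matrix.det hpow
  rw [Matrix.det_pow, hd, Matrix.det_one, zero_pow (Nat.succ_ne_zero k)] at h6
  exact zero_ne_one h6

/-- A finite solvable group of odd order with a faithful representation of degree two over a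
field in which `2` and the group order are invertible is abelian. -/
theorem gl2_odd_abelian {F : Type*} [Field F] (h2 : (2 : F) ≠ 0) :
    ∀ (n : ℕ) (X : Type u) [Group X] [Finite X], Nat.card X = n → Odd (Nat.card X) →
      Group.IsSolvable X →
      ∀ ρ : X →* Matrix (Fin 2) (Fin 2) F, Function.Injective ρ → ((Nat.card X : ℕ) : F) ≠ 0 →
      ∀ a b : X, a * b = b * a := by
  intro n
  induction n using Nat.strong_induction_on with
  | _ n ih =>
  intro X _ _ hn hodd hsol ρ hinj hcard
  by_contra hne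
  push_neg at hne
  obtain ⟨a, b, hab⟩ := hne
  have key : ∃ n₀ y : X, y * n₀ * y⁻¹ ≠ n₀ ∧ (y * n₀ * y⁻¹) * n₀ = n₀ * (y * n₀ * y⁻¹) := by
    by_cases hcen : ∀ c ∈ commutator X, ∀ g : X, c * g = g * c
    · refine ⟨a, b, ?_, ?_⟩
      · intro h
        apply hab
        have h1 : b * a = a * b := by
          calc b * a = (b * a * b⁻¹) * b := by group
            _ = a * b := by rw [h]
        exact h1.symm
      · have hc : ⁅b, a⁆ ∈ commutator X := by
          rw [commutator_def]
          exact Subgroup.commutator_mem_commutator (Subgroup.mem_top _) (Subgroup.mem_top _)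
        have h1 := hcen _ hc a
        have e : b * a * b⁻¹ = ⁅b, a⁆ * a := by rw [commutatorElement_def]; group
        rw [e, ← mul_assoc, ← h1]
    · push_neg at hcen
      obtain ⟨c, hc, g, hcg⟩ := hcen
      have hlt : commutator X < ⊤ := by
        haveI : Nontrivial X := ⟨⟨a * b, b * a, hab⟩⟩
        exact IsSolvable.commutator_lt_top_of_nontrivial X
      have hcardlt : Nat.card (commutator X) < n := by
        rw [← hn]
        rcases lt_or_eq_of_le (Subgroup.card_le_card_group (commutator X)) with h | h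
        · exact h
        · exact absurd ((Subgroup.card_eq_iff_eq_top _).1 h) hlt.ne
      have hab' := ih _ hcardlt (commutator X) rfl
        (hodd.of_dvd_nat (Subgroup.card_subgroup_dvd_card _)) inferInstance
        (ρ.comp (commutator X).subtype) (hinj.comp Subtype.val_injective)
        (by
          intro h0
          apply hcard
          obtain ⟨k, hk⟩ := Subgroup.card_subgroup_dvd_card (commutator X)
          rw [hk, Nat.cast_mul, h0, zero_mul])
      refine ⟨c, g, ?_, ?_⟩
      · intro h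
        apply hcg
        calc c * g = (g * c * g⁻¹) * g := by rw [h]
          _ = g * c := by group
      · have hn' : g * c * g⁻¹ ∈ commutator X :=
          (inferInstance : (commutator X).Normal).conj_mem c hc g
        have h1 := hab' ⟨_, hn'⟩ ⟨c, hc⟩
        exact congrArg Subtype.val h1
  obtain ⟨n₀, y, hne, hcomm⟩ := key
  obtain ⟨N, hN⟩ : ∃ N : Matrix (Fin 2) (Fin 2) F, N = ρ n₀ := ⟨_, rfl⟩
  obtain ⟨Y, hY⟩ : ∃ Y : Matrix (Fin 2) (Fin 2) F, Y = ρ y := ⟨_, rfl⟩
  obtain ⟨Yi, hYi⟩ : ∃ Yi : Matrix (Fin 2) (Fin 2) F, Yi = ρ y⁻¹ := ⟨_, rfl⟩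
  have hYYi : Y * Yi = 1 := by rw [hY, hYi, ← map_mul, mul_inv_cancel, map_one]
  have hYiY : Yi * Y = 1 := by rw [hY, hYi, ← map_mul, inv_mul_cancel, map_one]
  have hconj : ∀ z : X, ρ (y * z * y⁻¹) = Y * ρ z * Yi := by
    intro z; rw [map_mul, map_mul, hY, hYi]
  have hNs : ¬ ∃ c : F, N = c • (1 : Matrix (Fin 2) (Fin 2) F) := by
    rintro ⟨c, hc⟩
    apply hne
    apply hinj
    rw [hconj, ← hN, hc, Matrix.mul_smul, Matrix.smul_mul, mul_one, hYYi]
  have hcommM : (Y * N * Yi) * N = N * (Y * N * Yi) := by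
    have h1 := congrArg ρ hcomm
    rw [map_mul ρ (y * n₀ * y⁻¹) n₀, map_mul ρ n₀ (y * n₀ * y⁻¹), hconj, ← hN] at h1
    exact h1
  have htr : (Y * N * Yi).trace = N.trace := by
    rw [Matrix.trace_mul_comm, ← mul_assoc, hYiY, one_mul]
  have hdet : (Y * N * Yi).det = N.det := by
    have h1 : Y.det * Yi.det = 1 := by rw [← Matrix.det_mul, hYYi, Matrix.det_one]
    rw [Matrix.det_mul, Matrix.det_mul]
    linear_combination N.det * h1
  have hpow : N ^ (Nat.card X) = 1 := by rw [hN, ← map_pow, pow_card_eq_one', map_one]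
  have hdisc := gl2_disc_ne_zero h2 N hNs (Nat.card X) hcard hpow
  rcases gl2_conj_dichotomy h2 N (Y * N * Yi) hNs hcommM htr hdet hdisc with h | h
  · apply hne
    apply hinj
    rw [hconj, ← hN]
    exact h
  · have h3 : ρ (y * (y * n₀ * y⁻¹) * y⁻¹) = ρ n₀ := by
      rw [hconj, hconj, ← hN, h, Matrix.mul_sub, Matrix.sub_mul, Matrix.mul_smul,
        Matrix.smul_mul, mul_one, hYYi, h, sub_sub_cancel]
    have h4 : y * (y * n₀ * y⁻¹) * y⁻¹ = n₀ := hinj h3
    have h5 : Commute (y ^ 2) n₀ := by
      show y ^ 2 * n₀ = n₀ * y ^ 2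
      calc y ^ 2 * n₀ = (y * (y * n₀ * y⁻¹) * y⁻¹) * y ^ 2 := by
            rw [pow_two]
            simp only [mul_assoc, inv_mul_cancel_left, inv_mul_cancel, mul_one]
        _ = n₀ * y ^ 2 := by rw [h4]
    obtain ⟨k, hk⟩ := hodd
    have h6 : (y ^ 2) ^ (k + 1) = y := by
      rw [← pow_mul]
      have e : 2 * (k + 1) = Nat.card X + 1 := by omega
      rw [e, pow_succ, pow_card_eq_one', one_mul]
    have h7 : Commute y n₀ := by
      have h8 := h5.pow_left (k + 1)
      rw [h6] at h8
      exact h8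
    apply hne
    rw [h7.eq, mul_inv_cancel_right]

/-- The derived subgroup of a finite solvable group of odd order acts unipotently in any
representation of degree two in odd characteristic `p`. -/
theorem gl2_odd_derived {F : Type*} [Field F] (p : ℕ) [Fact p.Prime] [CharP F p] (hp : p ≠ 2)
    {X : Type*} [Group X] [Finite X] (hodd : Odd (Nat.card X)) [hsol : Group.IsSolvable X]
    (ρ : X →* Matrix (Fin 2) (Fin 2) F) : ∀ g ∈ commutator X, (ρ g) ^ p = 1 := by
  classical
  have hpp : p.Prime := Fact.out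
  have h2 : (2 : F) ≠ 0 := by
    intro h
    have h' : ((2 : ℕ) : F) = 0 := by exact_mod_cast h
    rw [CharP.cast_eq_zero_iff F p] at h'
    exact hp ((Nat.prime_dvd_prime_iff_eq hpp Nat.prime_two).1 h')
  obtain ⟨ρu, hρu⟩ : ∃ ρu : X →* GL (Fin 2) F,
      ∀ x, ((ρu x : GL (Fin 2) F) : Matrix (Fin 2) (Fin 2) F) = ρ x :=
    ⟨ρ.toHomUnits, fun x => rfl⟩
  by_cases hirr : ∀ v : Fin 2 → F, v ≠ 0 → ∃ g ∈ ρu.range,
      (g : Matrix (Fin 2) (Fin 2) F).mulVec v ∉ Submodule.span F {v}
  · haveI : Finite ρu.range := Finite.of_surjective _ ρu.rangeRestrict_surjective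
    have hHodd : Odd (Nat.card ρu.range) := hodd.of_dvd_nat (Subgroup.card_range_dvd ρu)
    have hnd := gl2_odd_irr p hp ρu.range hHodd hirr
    have hcardH : ((Nat.card ρu.range : ℕ) : F) ≠ 0 := by
      rw [Ne, CharP.cast_eq_zero_iff F p]; exact hnd
    have hsolH : Group.IsSolvable ρu.range := solvable_of_surjective ρu.rangeRestrict_surjective
    have hab := gl2_odd_abelian h2 (Nat.card ρu.range) ρu.range rfl hHodd hsolH
      ((Units.coeHom _).comp ρu.range.subtype) (fun a b h => Subtype.ext (Units.ext h)) hcardH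
    have hle : commutator X ≤ ρu.ker := by
      rw [commutator_def, Subgroup.commutator_le]
      intro a _ b _
      rw [MonoidHom.mem_ker, map_commutatorElement, commutatorElement_eq_one_iff_commute]
      have h1 := hab ⟨ρu a, ⟨a, rfl⟩⟩ ⟨ρu b, ⟨b, rfl⟩⟩
      exact congrArg Subtype.val h1
    intro g hg
    have h1 : ρu g = 1 := (MonoidHom.mem_ker).1 (hle hg)
    have h3 : ρ g = 1 := by rw [← hρu, h1]; rfl
    rw [h3, one_pow]
  · push_neg at hirr
    obtain ⟨v, hv, hinv⟩ := hirr
    have hev : ∀ x : X, ∃ c : F, (ρ x).mulVec v = c • v := by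
      intro x
      have h1 := hinv (ρu x) ⟨x, rfl⟩
      rw [hρu, Submodule.mem_span_singleton] at h1
      obtain ⟨c, hc⟩ := h1
      exact ⟨c, hc.symm⟩
    obtain ⟨K, hK⟩ : ∃ K : Subgroup X, ∀ g, g ∈ K ↔ (ρ g).mulVec v = v ∧ (ρ g).det = 1 :=
      ⟨{ carrier := {g | (ρ g).mulVec v = v ∧ (ρ g).det = 1}
         one_mem' := by
           refine ⟨?_, ?_⟩
           · rw [map_one, Matrix.one_mulVec]
           · rw [map_one, Matrix.det_one]
         mul_mem' := by
           intro a b ha hb
           refine ⟨?_, ?_⟩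
           · rw [map_mul, ← Matrix.mulVec_mulVec, hb.1, ha.1]
           · rw [map_mul, Matrix.det_mul, ha.2, hb.2, mul_one]
         inv_mem' := by
           intro a ha
           have h1 : ρ a⁻¹ * ρ a = 1 := by rw [← map_mul, inv_mul_cancel, map_one]
           refine ⟨?_, ?_⟩
           · have h2 : (ρ a⁻¹).mulVec ((ρ a).mulVec v) = v := by
               rw [Matrix.mulVec_mulVec, h1, Matrix.one_mulVec]
             rw [ha.1] at h2
             exact h2
           · have h2 := congrArg Matrix.det h1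
             rw [Matrix.det_mul, ha.2, mul_one, Matrix.det_one] at h2
             exact h2 }, fun g => Iff.rfl⟩
    have hinvsc : ∀ (a : X) (ca ca' : F), (ρ a).mulVec v = ca • v → (ρ a⁻¹).mulVec v = ca' • v →
        ca * ca' = 1 := by
      intro a ca ca' hca hca'
      have h : (ρ a⁻¹).mulVec ((ρ a).mulVec v) = v := by
        rw [Matrix.mulVec_mulVec, ← map_mul, inv_mul_cancel, map_one, Matrix.one_mulVec]
      rw [hca, Matrix.mulVec_smul, hca', smul_smul] at h
      have h' : (ca * ca' - 1) • v = 0 := by rw [sub_smul, h, one_smul, sub_self]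
      rcases smul_eq_zero.1 h' with h'' | h''
      · linear_combination h''
      · exact absurd h'' hv
    have hle : commutator X ≤ K := by
      rw [commutator_def, Subgroup.commutator_le]
      intro a _ b _
      rw [hK]
      obtain ⟨ca, hca⟩ := hev a
      obtain ⟨cb, hcb⟩ := hev b
      obtain ⟨ca', hca'⟩ := hev a⁻¹
      obtain ⟨cb', hcb'⟩ := hev b⁻¹
      have h1 := hinvsc a ca ca' hca hca'
      have h2 := hinvsc b cb cb' hcb hcb'
      refine ⟨?_, ?_⟩
      · rw [commutatorElement_def, map_mul, map_mul, map_mul, ← Matrix.mulVec_mulVec,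
          ← Matrix.mulVec_mulVec, ← Matrix.mulVec_mulVec]
        simp only [Matrix.mulVec_smul, hca, hcb, hca', hcb', smul_smul]
        have key : ∀ c : F, c = 1 → c • v = v := fun c hc => by rw [hc, one_smul]
        apply key
        linear_combination cb * cb' * h1 + h2
      · rw [commutatorElement_def, map_mul, map_mul, map_mul, Matrix.det_mul, Matrix.det_mul,
          Matrix.det_mul]
        have ha' : (ρ a).det * (ρ a⁻¹).det = 1 := by
          rw [← Matrix.det_mul, ← map_mul, mul_inv_cancel, map_one, Matrix.det_one]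
        have hb' : (ρ b).det * (ρ b⁻¹).det = 1 := by
          rw [← Matrix.det_mul, ← map_mul, mul_inv_cancel, map_one, Matrix.det_one]
        linear_combination (ρ b).det * (ρ b⁻¹).det * ha' + hb'
    intro g hg
    obtain ⟨hgv, hgd⟩ := (hK g).1 (hle hg)
    obtain ⟨M, hM⟩ : ∃ M : Matrix (Fin 2) (Fin 2) F, M = ρ g := ⟨_, rfl⟩
    rw [← hM] at hgv hgd ⊢
    have hdet0 : (M - 1).det = 0 := by
      rw [← Matrix.exists_mulVec_eq_zero_iff]
      exact ⟨v, hv, by rw [Matrix.sub_mulVec, hgv, Matrix.one_mulVec, sub_self]⟩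
    rw [Matrix.det_fin_two] at hdet0 hgd
    simp only [Matrix.sub_apply, Matrix.one_apply] at hdet0
    simp only [if_true, Fin.isValue, zero_ne_one, one_ne_zero, if_false, sub_zero] at hdet0
    have htr : M 0 0 + M 1 1 = 2 := by linear_combination hgd - hdet0
    obtain ⟨N, hN⟩ : ∃ N : Matrix (Fin 2) (Fin 2) F, N = M - 1 := ⟨_, rfl⟩
    have hNN : N * N = 0 := by
      rw [hN]
      ext i j
      revert i j
      simp only [Fin.forall_fin_two, Matrix.mul_apply, Fin.sum_univ_two, Matrix.sub_apply,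
        Matrix.one_apply, Matrix.zero_apply]
      simp only [if_true, Fin.isValue, zero_ne_one, one_ne_zero, if_false, sub_zero]
      refine ⟨⟨?_, ?_⟩, ?_, ?_⟩
      · linear_combination M 0 0 * htr - hgd
      · linear_combination M 0 1 * htr
      · linear_combination M 1 0 * htr
      · linear_combination M 1 1 * htr - hgd
    have hMN : M = (1 : F) • (1 : Matrix (Fin 2) (Fin 2) F) + N := by
      rw [hN, one_smul]; abel
    obtain ⟨k, hk⟩ : ∃ k, p = k + 1 := ⟨p - 1, by have := hpp.pos; omega⟩
    rw [hMN, hk, gl2_scalar_add_nil_pow 1 N hNN k, ← hk, CharP.cast_eq_zero F p, zero_mul,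
      zero_smul, add_zero, one_pow, one_smul]

end Cfsg.Agent.Helper10
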