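import Mathlib
import Cfsg.Agent.Helper10.GL2Abel

set_option autoImplicit false

universe u

namespace Cfsg.Agent.Helper10

open scoped commutatorElement

/-- Additive version: a finite solvable group of odd order acting on a `2`-dimensional
`𝔽_p`-space (`p` odd): its derived subgroup acts with exponent `p`. -/
theorem add_rank2_derived (p : ℕ) [Fact p.Prime] (hp : p ≠ 2) {V : Type*} [AddCommGroup V]
    [Module (ZMod p) V] [Finite V] (hcard : Nat.card V = p ^ 2)
    {X : Type*} [Group X] [Finite X] (hodd : Odd (Nat.card X)) [Group.IsSolvable X]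
    (θ : X →* AddMonoid.End V) : ∀ g ∈ commutator X, (θ g) ^ p = 1 := by
  classical
  have hpp : p.Prime := Fact.out
  have : Module.Finite (ZMod p) V := Module.Finite.of_finite
  have hfr : Module.finrank (ZMod p) V = 2 := by
    have h1 : Nat.card V = Nat.card (ZMod p) ^ Module.finrank (ZMod p) V :=
      Module.natCard_eq_pow_finrank
    rw [Nat.card_zmod, hcard] at h1
    exact (Nat.pow_right_injective hpp.two_le h1).symm
  obtain ⟨bas⟩ : Nonempty (Module.Basis (Fin 2) (ZMod p) V) :=
    ⟨Module.finBasisOfFinrankEq _ _ hfr⟩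
  obtain ⟨L, hL⟩ : ∃ L : X → (V →ₗ[ZMod p] V), ∀ (x : X) (w : V), L x w = θ x w :=
    ⟨fun x => AddMonoidHom.toZModLinearMap p (θ x), fun x w => rfl⟩
  have hL1 : L 1 = LinearMap.id := by
    ext w
    rw [hL, map_one]
    rfl
  have hLmul : ∀ x y, L (x * y) = (L x).comp (L y) := by
    intro x y
    ext w
    rw [hL, map_mul, LinearMap.comp_apply, hL, hL]
    rfl
  obtain ⟨ρ, hρ⟩ : ∃ ρ : X →* Matrix (Fin 2) (Fin 2) (ZMod p),
      ∀ x, ρ x = LinearMap.toMatrix bas bas (L x) :=
    ⟨{ toFun := fun x => LinearMap.toMatrix bas bas (L x)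
       map_one' := by rw [hL1, LinearMap.toMatrix_id]
       map_mul' := by
         intro x y
         rw [hLmul, LinearMap.toMatrix_comp bas bas bas] }, fun x => rfl⟩
  intro g hg
  have h1 := gl2_odd_derived p hp hodd ρ g hg
  rw [← map_pow, hρ] at h1
  have h2 : L (g ^ p) = LinearMap.id := by
    apply (LinearMap.toMatrix bas bas).injective
    rw [h1, LinearMap.toMatrix_id]
  rw [← map_pow]
  ext w
  have h3 := congrArg (fun f : V →ₗ[ZMod p] V => f w) h2
  simp only [hL] at h3
  exact h3

/-- The additive endomorphism attached to a multiplicative automorphism. -/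
def mulAutToAddEnd (W : Type*) [Group W] : MulAut W →* AddMonoid.End (Additive W) where
  toFun f := MonoidHom.toAdditive f.toMonoidHom
  map_one' := rfl
  map_mul' _ _ := rfl

theorem mulAutToAddEnd_injective (W : Type*) [Group W] :
    Function.Injective (mulAutToAddEnd W) := by
  intro f g h
  ext w
  exact congrArg (fun e : AddMonoid.End (Additive W) => Additive.toMul (e (Additive.ofMul w))) h

/-- A finite solvable group of odd order acting on an elementary abelian group of order `p²`
(`p` odd): its derived subgroup acts with exponent `p`. -/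
theorem elem_rank2_derived (p : ℕ) [Fact p.Prime] (hp : p ≠ 2) {W : Type*} [CommGroup W]
    [Finite W] (hexp : ∀ w : W, w ^ p = 1) (hcard : Nat.card W = p ^ 2)
    {X : Type*} [Group X] [Finite X] (hodd : Odd (Nat.card X)) [Group.IsSolvable X]
    (θ : X →* MulAut W) : ∀ g ∈ commutator X, (θ g) ^ p = 1 := by
  classical
  intro g hg
  have h1 := @add_rank2_derived p _ hp (Additive W) _
    (AddCommGroup.zmodModule (n := p) (fun x => by
      have h1 := hexp (Additive.toMul x)
      exact congrArg Additive.ofMul h1)) _ hcard X _ _ hodd _ ((mulAutToAddEnd W).comp θ) g hg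
  apply mulAutToAddEnd_injective W
  rw [map_pow, map_one]
  exact h1

/-- A finite solvable group of odd order acting on an elementary abelian `p`-group of order at
most `p²` (`p` odd): its derived subgroup acts with exponent `p`. -/
theorem elem_rank_le2_derived (p : ℕ) [Fact p.Prime] (hp : p ≠ 2) {W : Type*} [Group W]
    [Finite W] (hcomm : ∀ a b : W, a * b = b * a) (hexp : ∀ w : W, w ^ p = 1)
    (hcard : Nat.card W ∣ p ^ 2)
    {X : Type*} [Group X] [Finite X] (hodd : Odd (Nat.card X)) [Group.IsSolvable X]
    (θ : X →* MulAut W) : ∀ g ∈ commutator X, (θ g) ^ p = 1 := by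
  classical
  have hpp : p.Prime := Fact.out
  obtain ⟨k, hk, hcardk⟩ := (Nat.dvd_prime_pow hpp).1 hcard
  interval_cases k
  · have hs : Subsingleton W := (Nat.card_eq_one_iff_unique.1 (by simpa using hcardk)).1
    intro g hg
    ext w
    exact Subsingleton.elim _ _
  · have : IsCyclic W := isCyclic_of_prime_card (p := p) (by simpa using hcardk)
    have hc : ∀ f h : MulAut W, f * h = h * f := by
      intro f h
      apply (IsCyclic.mulAutMulEquiv W).injective
      rw [map_mul, map_mul, mul_comm]
    have hle : commutator X ≤ θ.ker := by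
      rw [commutator_def, Subgroup.commutator_le]
      intro a _ b _
      rw [MonoidHom.mem_ker, map_commutatorElement, commutatorElement_eq_one_iff_commute]
      exact hc _ _
    intro g hg
    rw [(MonoidHom.mem_ker).1 (hle hg), one_pow]
  · exact @elem_rank2_derived p _ hp W { (inferInstance : Group W) with mul_comm := hcomm } _
      hexp hcardk X _ _ hodd _ θ

end Cfsg.Agent.Helper10
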