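import Mathlib

set_option autoImplicit false

/-!
# Free action of a cyclic `p`-group coming from a Frobenius action, helper10
-/

namespace Cfsg.Agent.Helper10

section FreeAct

/-- In characteristic `p`, `1 + β + ⋯ + β^(p^j - 1) = (β - 1)^(p^j - 1)`. -/
theorem geom_sum_eq_sub_one_pow (p : ℕ) [Fact p.Prime] {R : Type*} [Ring R] [Algebra (ZMod p) R]
    (β : R) (j : ℕ) :
    ∑ i ∈ Finset.range (p ^ j), β ^ i = (β - 1) ^ (p ^ j - 1) := by
  have key : ∑ i ∈ Finset.range (p ^ j), (Polynomial.X : Polynomial (ZMod p)) ^ i =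
      (Polynomial.X - 1) ^ (p ^ j - 1) := by
    have hne : (Polynomial.X - 1 : Polynomial (ZMod p)) ≠ 0 := by
      have h := Polynomial.X_sub_C_ne_zero (1 : ZMod p)
      rwa [Polynomial.C_1] at h
    apply mul_left_cancel₀ hne
    rw [mul_geom_sum, ← pow_succ',
      Nat.sub_add_cancel (Nat.one_le_pow _ _ (Fact.out : p.Prime).pos), sub_pow_char_pow, one_pow]
  have h2 := congrArg (Polynomial.aeval β) key
  simpa using h2

/-- If `ker u ⊆ im u^(n-1)` then `|ker u|^n ≤ |V|`. -/
theorem card_ker_pow_le (p : ℕ) [Fact p.Prime] {V : Type*} [AddCommGroup V] [Module (ZMod p) V]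
    [Finite V] (u : Module.End (ZMod p) V) (n : ℕ) (hn : 0 < n)
    (h : ∀ w : V, u w = 0 → ∃ x : V, (u ^ (n - 1)) x = w) :
    Nat.card (LinearMap.ker u) ^ n ≤ Nat.card V := by
  have claim : ∀ k : ℕ, k ≤ n →
      Nat.card (LinearMap.ker u) ^ k ≤ Nat.card (LinearMap.ker (u ^ k)) := by
    intro k
    induction k with
    | zero =>
      intro _
      rw [pow_zero]
      exact Nat.card_pos
    | succ k ih =>
      intro hk
      have ihk := ih (by omega)
      have hg : ∀ w : LinearMap.ker u, ∃ x : V, (u ^ k) x = (w : V) := by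
        intro w
        obtain ⟨x, hx⟩ := h w (LinearMap.mem_ker.1 w.2)
        refine ⟨(u ^ (n - 1 - k)) x, ?_⟩
        rw [← Module.End.mul_apply, ← pow_add, show k + (n - 1 - k) = n - 1 by omega, hx]
      choose g hg' using hg
      have hmem : ∀ (y : LinearMap.ker (u ^ k)) (w : LinearMap.ker u),
          (y : V) + g w ∈ LinearMap.ker (u ^ (k + 1)) := by
        intro y w
        rw [LinearMap.mem_ker, pow_succ', Module.End.mul_apply, map_add, hg' w,
          LinearMap.mem_ker.1 y.2, zero_add]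
        exact LinearMap.mem_ker.1 w.2
      have hinj : Function.Injective (fun yw : LinearMap.ker (u ^ k) × LinearMap.ker u =>
          (⟨(yw.1 : V) + g yw.2, hmem yw.1 yw.2⟩ : LinearMap.ker (u ^ (k + 1)))) := by
        rintro ⟨y, w⟩ ⟨y', w'⟩ hyw
        have h1 : (y : V) + g w = (y' : V) + g w' := congrArg Subtype.val hyw
        have h2 := congrArg (u ^ k) h1
        rw [map_add, map_add, hg' w, hg' w', LinearMap.mem_ker.1 y.2, LinearMap.mem_ker.1 y'.2,
          zero_add, zero_add] at h2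
        have hw : w = w' := Subtype.ext h2
        subst hw
        have hy : y = y' := Subtype.ext (add_right_cancel h1)
        rw [hy]
      have hcard := Nat.card_le_card_of_injective _ hinj
      rw [Nat.card_prod] at hcard
      calc Nat.card (LinearMap.ker u) ^ (k + 1)
          = Nat.card (LinearMap.ker u) ^ k * Nat.card (LinearMap.ker u) := pow_succ _ _
        _ ≤ Nat.card (LinearMap.ker (u ^ k)) * Nat.card (LinearMap.ker u) :=
            Nat.mul_le_mul_right _ ihk
        _ ≤ _ := hcard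
  have h1 := claim n le_rfl
  exact h1.trans (Nat.card_le_card_of_injective _ Subtype.val_injective)

/-- Sum over a finite set of ring elements on which conjugation by `β` acts freely, applied to a
`β`-fixed vector, lies in the image of the trace `1 + β + ⋯ + β^(n-1)`. -/
theorem orbit_sum_mem {R V : Type*} [Ring R] [AddCommGroup V] [Module R V] (β : Rˣ) (n : ℕ)
    (hβ : β ^ n = 1) (hn : 0 < n) (v : V) (hv : (β : R) • v = v) :
    ∀ (m : ℕ) (S : Finset R), S.card = m →
      (∀ s ∈ S, ConjAct.toConjAct β • s ∈ S) →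
      (∀ s ∈ S, ∀ i : ℕ, 0 < i → i < n → (ConjAct.toConjAct β) ^ i • s ≠ s) →
      ∃ w : V, ∑ s ∈ S, s • v = (∑ i ∈ Finset.range n, (β : R) ^ i) • w := by
  obtain ⟨γ, hγ⟩ : ∃ γ : ConjAct Rˣ, γ = ConjAct.toConjAct β := ⟨_, rfl⟩
  rw [← hγ]
  have hγn : γ ^ n = 1 := by rw [hγ, ← map_pow, hβ, map_one]
  have hact : ∀ (i : ℕ) (s : R), (γ ^ i • s) • v = ((β : R) ^ i) • (s • v) := by
    intro i s
    have h1 : ∀ δ : Rˣ, (δ : R) • v = v → ((δ⁻¹ : Rˣ) : R) • v = v := by
      intro δ hδ
      calc ((δ⁻¹ : Rˣ) : R) • v = ((δ⁻¹ : Rˣ) : R) • ((δ : R) • v) := by rw [hδ]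
        _ = v := by rw [← mul_smul, Units.inv_mul, one_smul]
    have h2 : ((β ^ i : Rˣ) : R) • v = v := by
      induction i with
      | zero => simp
      | succ i ih => rw [pow_succ, Units.val_mul, mul_smul, hv, ih]
    rw [hγ, ← map_pow, ConjAct.units_smul_def, ConjAct.ofConjAct_toConjAct, mul_smul, mul_smul,
      h1 _ h2, Units.val_pow_eq_pow_val]
  intro m
  induction m using Nat.strong_induction_on with
  | _ m IH =>
    intro S hcard hstab hfree
    rcases S.eq_empty_or_nonempty with rfl | ⟨s₀, hs₀⟩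
    · exact ⟨0, by simp⟩
    · classical
      obtain ⟨c, hc⟩ : ∃ c : ℕ → R, ∀ i, c i = γ ^ i • s₀ := ⟨_, fun _ => rfl⟩
      have hcS : ∀ i, c i ∈ S := by
        intro i
        induction i with
        | zero => rw [hc, pow_zero, one_smul]; exact hs₀
        | succ i ih =>
          rw [hc, pow_succ', mul_smul, ← hc]
          exact hstab _ ih
      have hcmod : ∀ k, c k = c (k % n) := by
        intro k
        rw [hc, hc, pow_eq_pow_mod k hγn]
      have hcinj : ∀ i ∈ Finset.range n, ∀ j ∈ Finset.range n, c i = c j → i = j := by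
        have aux : ∀ i j : ℕ, i < j → j < n → c i ≠ c j := by
          intro i j hij hjn heq
          apply hfree s₀ hs₀ (j - i) (by omega) (by omega)
          rw [hc, hc] at heq
          have hj : γ ^ j = γ ^ i * γ ^ (j - i) := by rw [← pow_add]; congr 1; omega
          rw [hj, mul_smul] at heq
          exact (MulAction.injective (γ ^ i) heq).symm
        intro i hi j hj heq
        rw [Finset.mem_range] at hi hj
        rcases lt_trichotomy i j with h | h | h
        · exact absurd heq (aux i j h hj)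
        · exact h
        · exact absurd heq.symm (aux j i h hi)
      obtain ⟨O, hO⟩ : ∃ O : Finset R, O = (Finset.range n).image c := ⟨_, rfl⟩
      have hOS : O ⊆ S := by
        intro s hs
        rw [hO, Finset.mem_image] at hs
        obtain ⟨i, -, rfl⟩ := hs
        exact hcS i
      have hOmem : ∀ k, c k ∈ O := by
        intro k
        rw [hcmod k, hO]
        exact Finset.mem_image_of_mem c (Finset.mem_range.2 (Nat.mod_lt k hn))
      have hOne : O.Nonempty := ⟨c 0, hOmem 0⟩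
      have hstab' : ∀ s ∈ S \ O, γ • s ∈ S \ O := by
        intro s hs
        rw [Finset.mem_sdiff] at hs ⊢
        refine ⟨hstab s hs.1, fun hmem => hs.2 ?_⟩
        rw [hO, Finset.mem_image] at hmem
        obtain ⟨i, -, hi⟩ := hmem
        have e : s = c (n - 1 + i) := by
          have h1 : γ ^ (n - 1) * γ = 1 := by rw [← pow_succ, Nat.sub_add_cancel hn, hγn]
          calc s = (γ ^ (n - 1) * γ) • s := by rw [h1, one_smul]
            _ = γ ^ (n - 1) • (γ • s) := mul_smul _ _ _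
            _ = γ ^ (n - 1) • c i := by rw [hi]
            _ = c (n - 1 + i) := by rw [hc, hc, ← mul_smul, ← pow_add]
        rw [e]; exact hOmem _
      have hfree' : ∀ s ∈ S \ O, ∀ i : ℕ, 0 < i → i < n → γ ^ i • s ≠ s :=
        fun s hs => hfree s (Finset.mem_sdiff.1 hs).1
      have hlt : (S \ O).card < m := by
        rw [← hcard]
        exact Finset.card_lt_card (Finset.sdiff_ssubset hOS hOne)
      obtain ⟨w', hw'⟩ := IH _ hlt (S \ O) rfl hstab' hfree'
      have hOsum : ∑ s ∈ O, s • v = (∑ i ∈ Finset.range n, (β : R) ^ i) • (s₀ • v) := by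
        rw [hO, Finset.sum_image hcinj, Finset.sum_smul]
        apply Finset.sum_congr rfl
        intro i _
        rw [hc, hact]
      refine ⟨w' + s₀ • v, ?_⟩
      rw [← Finset.sum_sdiff hOS, hw', hOsum, smul_add]

/-- A `β`-fixed vector killed by the sum of a set of operators containing `1` on whose other
elements `β` acts freely by conjugation is a trace. -/
theorem fixed_mem_range_of_free {R V : Type*} [Ring R] [AddCommGroup V] [Module R V] (β : Rˣ)
    (n : ℕ) (hβ : β ^ n = 1) (hn : 0 < n) (S : Finset R) (h1 : (1 : R) ∈ S)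
    (hstab : ∀ s ∈ S, ConjAct.toConjAct β • s ∈ S)
    (hfree : ∀ s ∈ S, s ≠ 1 → ∀ i : ℕ, 0 < i → i < n → (ConjAct.toConjAct β) ^ i • s ≠ s)
    (v : V) (hv : (β : R) • v = v) (hsum : ∑ s ∈ S, s • v = 0) :
    ∃ w : V, v = (∑ i ∈ Finset.range n, (β : R) ^ i) • w := by
  classical
  have hstab' : ∀ s ∈ S.erase 1, ConjAct.toConjAct β • s ∈ S.erase 1 := by
    intro s hs
    rw [Finset.mem_erase] at hs ⊢
    refine ⟨?_, hstab s hs.2⟩
    intro h
    apply hs.1
    have h2 : ConjAct.toConjAct β • s = ConjAct.toConjAct β • (1 : R) := by rw [h, smul_one]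
    exact MulAction.injective _ h2
  have hfree' : ∀ s ∈ S.erase 1, ∀ i : ℕ, 0 < i → i < n →
      (ConjAct.toConjAct β) ^ i • s ≠ s :=
    fun s hs => hfree s (Finset.mem_erase.1 hs).2 (Finset.mem_erase.1 hs).1
  obtain ⟨w, hw⟩ := orbit_sum_mem β n hβ hn v hv _ (S.erase 1) rfl hstab' hfree'
  refine ⟨-w, ?_⟩
  rw [← Finset.add_sum_erase S _ h1, one_smul, hw] at hsum
  rw [smul_neg]
  exact eq_neg_of_add_eq_zero_left hsum

/-- The fixed points of `β` have at most `|V|^(1/p^j)` elements. -/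
theorem card_fixed_pow_le (p : ℕ) [Fact p.Prime] {V : Type*} [AddCommGroup V]
    [Module (ZMod p) V] [Finite V] (β : (Module.End (ZMod p) V)ˣ) (j : ℕ)
    (hβ : β ^ (p ^ j) = 1) (S : Finset (Module.End (ZMod p) V))
    (h1 : (1 : Module.End (ZMod p) V) ∈ S)
    (hstab : ∀ s ∈ S, ConjAct.toConjAct β • s ∈ S)
    (hfree : ∀ s ∈ S, s ≠ 1 → ∀ i : ℕ, 0 < i → i < p ^ j →
      (ConjAct.toConjAct β) ^ i • s ≠ s)
    (hsum : ∀ v : V, ∑ s ∈ S, s v = 0) :
    Nat.card (LinearMap.ker ((β : Module.End (ZMod p) V) - 1)) ^ (p ^ j) ≤ Nat.card V := by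
  have hn : 0 < p ^ j := pow_pos (Fact.out : p.Prime).pos j
  apply card_ker_pow_le p _ (p ^ j) hn
  intro w hw
  have hv : (β : Module.End (ZMod p) V) • w = w := by
    have h2 : (β : Module.End (ZMod p) V) w - w = 0 := by simpa using hw
    exact sub_eq_zero.1 h2
  obtain ⟨x, hx⟩ := fixed_mem_range_of_free β (p ^ j) hβ hn S h1 hstab hfree w hv (hsum w)
  refine ⟨x, ?_⟩
  rw [← geom_sum_eq_sub_one_pow p (β : Module.End (ZMod p) V) j]
  exact hx.symm

/-- Abstract form: a group `M` acts on an elementary abelian `p`-group `Wt`; a subgroup `A` acts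
faithfully and without fixed points; `b` permutes the operators of `A` freely (up to the power
`p^j`). Then `b` has at most `|Wt|^(1/p^j)` fixed points, and at least two if `Wt ≠ 1`. -/
theorem frob_fixed_abstract {M Wt : Type*} [Group M] [CommGroup Wt] [Finite Wt] (p : ℕ)
    [hp : Fact p.Prime] (hexp : ∀ w : Wt, w ^ p = 1) (φ : M →* MulAut Wt) (A : Subgroup M)
    [Finite A]
    (hinj : ∀ a ∈ A, φ a = 1 → a = 1)
    (hfix : ∀ w : Wt, (∀ a ∈ A, φ a w = w) → w = 1)
    (b : M) (hstab : ∀ a ∈ A, ∃ a' ∈ A, φ (b * a * b⁻¹) = φ a')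
    (j : ℕ) (hbj : φ (b ^ (p ^ j)) = 1)
    (hfree : ∀ i : ℕ, 0 < i → i < p ^ j → ∀ a ∈ A,
      φ (b ^ i * a * (b ^ i)⁻¹) = φ a → φ a = 1) :
    Nat.card {w : Wt // φ b w = w} ^ (p ^ j) ≤ Nat.card Wt ∧
      (Nontrivial Wt → 2 ≤ Nat.card {w : Wt // φ b w = w}) := by
  classical
  have hV : ∀ x : Additive Wt, p • x = 0 := fun x => by
    change (Additive.toMul x) ^ p = 1
    exact hexp _
  haveI modV : Module (ZMod p) (Additive Wt) := AddCommGroup.zmodModule hV
  haveI : Finite (Additive Wt) := inferInstanceAs (Finite Wt)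
  obtain ⟨ρ₀, hρ₀⟩ : ∃ ρ₀ : M →* Module.End (ZMod p) (Additive Wt),
      ∀ (m : M) (v : Additive Wt), ρ₀ m v = Additive.ofMul (φ m (Additive.toMul v)) :=
    ⟨{ toFun := fun m => AddMonoidHom.toZModLinearMap p (MonoidHom.toAdditive (φ m).toMonoidHom)
       map_one' := by
         apply LinearMap.ext
         intro v
         show Additive.ofMul ((φ 1) (Additive.toMul v)) = v
         rw [map_one]; rfl
       map_mul' := by
         intro m m'
         apply LinearMap.ext
         intro v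
         show Additive.ofMul ((φ (m * m')) (Additive.toMul v)) =
           Additive.ofMul ((φ m) ((φ m') (Additive.toMul v)))
         rw [map_mul]; rfl }, fun m v => rfl⟩
  have hρ1 : ∀ m : M, φ m = 1 → ρ₀ m = 1 := by
    intro m hm
    apply LinearMap.ext
    intro v
    rw [hρ₀, hm]; rfl
  have hρeq : ∀ m m' : M, ρ₀ m = ρ₀ m' ↔ φ m = φ m' := by
    intro m m'
    constructor
    · intro h
      apply MulEquiv.ext
      intro w
      have h1 := hρ₀ m (Additive.ofMul w)
      have h2 := hρ₀ m' (Additive.ofMul w)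
      rw [h] at h1
      exact congrArg Additive.toMul (h1.symm.trans h2)
    · intro h
      apply LinearMap.ext
      intro v
      rw [hρ₀, hρ₀, h]
  obtain ⟨ρ, hρ⟩ : ∃ ρ : M →* (Module.End (ZMod p) (Additive Wt))ˣ,
      ∀ m, ((ρ m : (Module.End (ZMod p) (Additive Wt))ˣ) : Module.End (ZMod p) (Additive Wt)) =
        ρ₀ m :=
    ⟨ρ₀.toHomUnits, fun m => MonoidHom.coe_toHomUnits ρ₀ m⟩
  have hn : 0 < p ^ j := pow_pos hp.out.pos j
  have hβ : ρ b ^ (p ^ j) = 1 := by
    rw [← map_pow]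
    apply Units.ext
    rw [hρ, hρ1 _ hbj]; rfl
  haveI : Fintype A := Fintype.ofFinite A
  obtain ⟨S, hS⟩ : ∃ S : Finset (Module.End (ZMod p) (Additive Wt)),
      S = Finset.univ.image (fun a : A => ρ₀ (a : M)) := ⟨_, rfl⟩
  have hSmem : ∀ s, s ∈ S ↔ ∃ a ∈ A, ρ₀ a = s := by
    intro s
    rw [hS, Finset.mem_image]
    constructor
    · rintro ⟨a, -, rfl⟩; exact ⟨a, a.2, rfl⟩
    · rintro ⟨a, ha, rfl⟩; exact ⟨⟨a, ha⟩, Finset.mem_univ _, rfl⟩
  have hconj : ∀ (m x : M), ConjAct.toConjAct (ρ m) • ρ₀ x = ρ₀ (m * x * m⁻¹) := by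
    intro m x
    rw [ConjAct.units_smul_def, ConjAct.ofConjAct_toConjAct, ← map_inv, hρ, hρ, map_mul, map_mul]
  have h1S : (1 : Module.End (ZMod p) (Additive Wt)) ∈ S :=
    (hSmem 1).2 ⟨1, A.one_mem, map_one ρ₀⟩
  have hstabS : ∀ s ∈ S, ConjAct.toConjAct (ρ b) • s ∈ S := by
    intro s hs
    obtain ⟨a, ha, rfl⟩ := (hSmem s).1 hs
    obtain ⟨a', ha', he⟩ := hstab a ha
    rw [hconj]
    exact (hSmem _).2 ⟨a', ha', ((hρeq _ _).2 he).symm⟩
  have hfreeS : ∀ s ∈ S, s ≠ 1 → ∀ i : ℕ, 0 < i → i < p ^ j →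
      (ConjAct.toConjAct (ρ b)) ^ i • s ≠ s := by
    intro s hs hs1 i hi0 hin heq
    obtain ⟨a, ha, rfl⟩ := (hSmem s).1 hs
    rw [← map_pow, ← map_pow, hconj] at heq
    exact hs1 (hρ1 a (hfree i hi0 hin a ha ((hρeq _ _).1 heq)))
  have hsum : ∀ v : Additive Wt, ∑ s ∈ S, s v = 0 := by
    intro v
    have hinjA : ∀ x ∈ (Finset.univ : Finset A), ∀ y ∈ (Finset.univ : Finset A),
        ρ₀ (x : M) = ρ₀ (y : M) → x = y := by
      intro x _ y _ hxy
      have h1 : φ ((x : M)⁻¹ * (y : M)) = 1 := by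
        rw [map_mul, map_inv, (hρeq _ _).1 hxy, inv_mul_cancel]
      have h2 := hinj _ (A.mul_mem (A.inv_mem x.2) y.2) h1
      exact Subtype.ext (inv_mul_eq_one.1 h2)
    rw [hS, Finset.sum_image hinjA]
    obtain ⟨u, hu⟩ : ∃ u : Additive Wt, u = ∑ a : A, ρ₀ (a : M) v := ⟨_, rfl⟩
    rw [← hu]
    have hfixu : ∀ a₀ ∈ A, φ a₀ (Additive.toMul u) = Additive.toMul u := by
      intro a₀ ha₀
      have h1 : ρ₀ a₀ u = u := by
        rw [hu, map_sum]
        refine Fintype.sum_equiv (Equiv.mulLeft (⟨a₀, ha₀⟩ : A)) _ _ ?_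
        intro a
        show ρ₀ a₀ (ρ₀ (a : M) v) = ρ₀ (((⟨a₀, ha₀⟩ : A) * a : A) : M) v
        rw [Subgroup.coe_mul, map_mul, Module.End.mul_apply]
      have h2 := hρ₀ a₀ u
      rw [h1] at h2
      exact (congrArg Additive.toMul h2).symm
    have h3 := hfix (Additive.toMul u) hfixu
    exact congrArg Additive.ofMul h3
  have hmain := card_fixed_pow_le p (ρ b) j hβ S h1S hstabS hfreeS hsum
  obtain ⟨u, hu⟩ : ∃ u : Module.End (ZMod p) (Additive Wt),
      u = ((ρ b : (Module.End (ZMod p) (Additive Wt))ˣ) : Module.End (ZMod p) (Additive Wt)) - 1 :=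
    ⟨_, rfl⟩
  rw [← hu] at hmain
  have hmem : ∀ v : Additive Wt, v ∈ LinearMap.ker u ↔
      φ b (Additive.toMul v) = Additive.toMul v := by
    intro v
    rw [hu, LinearMap.mem_ker, LinearMap.sub_apply, hρ, hρ₀, sub_eq_zero]
    constructor
    · intro h; exact congrArg Additive.toMul h
    · intro h; exact congrArg Additive.ofMul h
  have hcard : Nat.card {w : Wt // φ b w = w} = Nat.card (LinearMap.ker u) :=
    Nat.card_congr
      { toFun := fun w => ⟨Additive.ofMul (w : Wt), (hmem _).2 w.2⟩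
        invFun := fun v => ⟨Additive.toMul (v : Additive Wt), (hmem _).1 v.2⟩
        left_inv := fun w => rfl
        right_inv := fun v => rfl }
  refine ⟨?_, ?_⟩
  · rw [hcard]
    exact hmain
  · intro hnt
    rw [hcard]
    have hnil : u ^ (p ^ j) = 0 := by
      have h1 := mul_geom_sum
        ((ρ b : (Module.End (ZMod p) (Additive Wt))ˣ) : Module.End (ZMod p) (Additive Wt)) (p ^ j)
      rw [geom_sum_eq_sub_one_pow p _ j, ← pow_succ', Nat.sub_add_cancel hn] at h1
      rw [hu, h1, ← Units.val_pow_eq_pow_val, hβ, Units.val_one, sub_self]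
    obtain ⟨w₀, hw₀⟩ := exists_ne (1 : Wt)
    have hex : ∃ k : ℕ, (u ^ k) (Additive.ofMul w₀) = 0 := ⟨p ^ j, by rw [hnil]; rfl⟩
    obtain ⟨k, hk, hkmin⟩ : ∃ k, (u ^ k) (Additive.ofMul w₀) = 0 ∧
        ∀ k' < k, (u ^ k') (Additive.ofMul w₀) ≠ 0 :=
      ⟨Nat.find hex, Nat.find_spec hex, fun k' hk' => Nat.find_min hex hk'⟩
    have hk0 : k ≠ 0 := by
      rintro rfl
      apply hw₀
      have h0 : Additive.ofMul w₀ = 0 := by simpa using hk
      exact congrArg Additive.toMul h0
    obtain ⟨k', rfl⟩ := Nat.exists_eq_succ_of_ne_zero hk0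
    have hv0 := hkmin k' (Nat.lt_succ_self k')
    have hvker : (u ^ k') (Additive.ofMul w₀) ∈ LinearMap.ker u := by
      rw [LinearMap.mem_ker, ← Module.End.mul_apply, ← pow_succ']
      exact hk
    have h2 : (1 : ℕ) < Nat.card (LinearMap.ker u) := by
      rw [Finite.one_lt_card_iff_nontrivial]
      exact ⟨⟨0, ⟨_, hvker⟩, fun h => hv0 (congrArg Subtype.val h).symm⟩⟩
    exact h2

end FreeAct

end Cfsg.Agent.Helper10
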