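import Cfsg.Agent.Helper10.FrobPrime

set_option autoImplicit false
set_option linter.unusedSectionVars false
set_option linter.style.haveILetI false
set_option linter.unusedVariables false

namespace Cfsg.Agent.Helper10

open scoped commutatorElement

section Cyc

variable {Γ : Type*} [Group Γ] [Finite Γ] {W : Type*} [AddCommGroup W] [Finite W]
  [DistribMulAction Γ W]

theorem frob_cyc_ab (K R : Subgroup Γ)
    (hRK : ∀ r ∈ R, ∀ x ∈ K, r * x * r⁻¹ ∈ K)
    (hfpf : ∀ r ∈ R, r ≠ 1 → ∀ x ∈ K, r * x = x * r → x = 1)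
    (hnil : Group.IsNilpotent ↥K)
    (hcK : Nat.Coprime (Nat.card K) (Nat.card W)) :
    ∀ (n : ℕ) (S : AddSubgroup W), Nat.card S = n →
      (∀ x ∈ K, ∀ w ∈ S, x • w ∈ S) → (∀ r ∈ R, ∀ w ∈ S, r • w ∈ S) →
      (∀ w ∈ S, (∀ x ∈ K, x • w = w) → w = 0) → IsAddCyclic ↥(S ⊓ fixS R) →
      ∀ x ∈ K, ∀ y ∈ K, ∀ w ∈ S, x • y • w = y • x • w := by
  haveI := hnil
  have hsolvK : Group.IsSolvable ↥K := inferInstance
  intro n
  induction n using Nat.strong_induction_on with
  | _ n ih =>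
    intro S hn hSK hSR hC hcyc
    by_cases hSb : S = ⊥
    · intro x hx y hy w hw
      rw [hSb] at hw
      rw [AddSubgroup.mem_bot.mp hw, smul_zero, smul_zero, smul_zero]
    -- kernel of the action on S
    let D : Subgroup Γ :=
      { carrier := {x | x ∈ K ∧ ∀ w ∈ S, x • w = w}
        one_mem' := ⟨K.one_mem, fun w _ => one_smul _ w⟩
        mul_mem' := fun {a b} ha hb => ⟨K.mul_mem ha.1 hb.1, fun w hw => by
          rw [mul_smul, hb.2 w hw, ha.2 w hw]⟩
        inv_mem' := fun {a} ha => ⟨K.inv_mem ha.1, fun w hw => by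
          rw [inv_smul_eq_iff, ha.2 w hw]⟩ }
    have hDK : D ≤ K := fun x hx => hx.1
    have hDne : D ≠ K := by
      intro h
      apply hSb
      rw [eq_bot_iff]
      intro w hw
      refine AddSubgroup.mem_bot.mpr (hC w hw (fun x hx => ?_))
      have hxD : x ∈ D := by rw [h]; exact hx
      exact hxD.2 w hw
    obtain ⟨z₀, hz₀K, hz₀D, hz₀c⟩ := nilp_central K hnil D hDK hDne
    -- elements of K commuting with K on S
    let Z : Subgroup Γ :=
      { carrier := {x | x ∈ K ∧ ∀ k ∈ K, ∀ w ∈ S, x • k • w = k • x • w}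
        one_mem' := ⟨K.one_mem, fun k _ w _ => by rw [one_smul, one_smul]⟩
        mul_mem' := fun {a b} ha hb => ⟨K.mul_mem ha.1 hb.1, fun k hk w hw => by
          rw [mul_smul, mul_smul, hb.2 k hk w hw, ha.2 k hk _ (hSK b hb.1 w hw)]⟩
        inv_mem' := fun {a} ha => ⟨K.inv_mem ha.1, fun k hk w hw => by
          rw [inv_smul_eq_iff, ha.2 k hk _ (hSK a⁻¹ (K.inv_mem ha.1) w hw), smul_inv_smul]⟩ }
    have hZK : Z ≤ K := fun x hx => hx.1
    have hZc : ∀ z ∈ Z, ∀ k ∈ K, ∀ w ∈ S, z • k • w = k • z • w := fun z hz => hz.2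
    have hz₀Z : z₀ ∈ Z := by
      refine ⟨hz₀K, fun k hk w hw => ?_⟩
      have h1 : z₀ * k = ⁅z₀, k⁆ * (k * z₀) := by rw [commutatorElement_def]; group
      rw [← mul_smul, h1, mul_smul, mul_smul,
        (hz₀c k hk).2 _ (hSK k hk _ (hSK z₀ hz₀K w hw))]
    have hnormZ : ∀ g : Γ, (∀ k ∈ K, g * k * g⁻¹ ∈ K) → (∀ k ∈ K, g⁻¹ * k * g ∈ K) →
        (∀ w ∈ S, g⁻¹ • w ∈ S) → ∀ z ∈ Z, g * z * g⁻¹ ∈ Z := by
      intro g hg1 hg2 hg3 z hz
      refine ⟨hg1 z hz.1, fun k hk w hw => ?_⟩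
      have h2 := hz.2 (g⁻¹ * k * g) (hg2 k hk) (g⁻¹ • w) (hg3 w hw)
      have e1 : (g * z * g⁻¹) • k • w = g • (z • (g⁻¹ * k * g) • g⁻¹ • w) := by
        simp only [← mul_smul]; congr 1; group
      have e2 : k • (g * z * g⁻¹) • w = g • ((g⁻¹ * k * g) • z • g⁻¹ • w) := by
        simp only [← mul_smul]; congr 1; group
      rw [e1, e2, h2]
    have hKZ : ∀ x ∈ K, ∀ z ∈ Z, x * z * x⁻¹ ∈ Z := fun x hx =>
      hnormZ x (fun k hk => K.mul_mem (K.mul_mem hx hk) (K.inv_mem hx))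
        (fun k hk => K.mul_mem (K.mul_mem (K.inv_mem hx) hk) hx)
        (fun w hw => hSK _ (K.inv_mem hx) w hw)
    have hRZ : ∀ r ∈ R, ∀ z ∈ Z, r * z * r⁻¹ ∈ Z := fun r hr =>
      hnormZ r (hRK r hr)
        (fun k hk => by
          have h3 := hRK r⁻¹ (R.inv_mem hr) k hk
          rw [inv_inv] at h3; exact h3)
        (fun w hw => hSR _ (R.inv_mem hr) w hw)
    have hcZ : Nat.Coprime (Nat.card Z) (Nat.card W) :=
      Nat.Coprime.coprime_dvd_left (Subgroup.card_dvd_of_le hZK) hcK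
    have hsolvZ : Group.IsSolvable ↥Z :=
      Group.isSolvable_of_isSolvable_injective (Subgroup.inclusion_injective hZK)
    have hθS : ∀ w ∈ S, nu Z w ∈ S := nu_mem _ S (fun b hb w hw => hSK b (hZK hb) w hw)
    have hθθ : ∀ w : W, nu Z (nu Z w) = Nat.card ↥Z • nu Z w :=
      fun w => nu_of_fixed _ _ (nu_fixed _ w)
    have hθK : ∀ x ∈ K, ∀ w : W, x • nu Z w = nu Z (x • w) :=
      fun x hx w => by rw [smul_nu, cj_eq_self (hKZ x hx)]
    have hθR : ∀ r ∈ R, ∀ w : W, r • nu Z w = nu Z (r • w) :=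
      fun r hr w => by rw [smul_nu, cj_eq_self (hRZ r hr)]

    have hsplit := idem_card (nu Z) (Nat.card ↥Z) hcZ S hθS (fun w _ => hθθ w)
    have hAK : ∀ x ∈ K, ∀ w ∈ eigS (nu Z) (Nat.card ↥Z) S,
        x • w ∈ eigS (nu Z) (Nat.card ↥Z) S := by
      intro x hx w hw
      exact ⟨hSK x hx w hw.1, by rw [← hθK x hx w, hw.2, smul_comm]⟩
    have hAR : ∀ r ∈ R, ∀ w ∈ eigS (nu Z) (Nat.card ↥Z) S,
        r • w ∈ eigS (nu Z) (Nat.card ↥Z) S := by
      intro r hr w hw
      exact ⟨hSR r hr w hw.1, by rw [← hθR r hr w, hw.2, smul_comm]⟩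
    have hBK : ∀ x ∈ K, ∀ w ∈ eigS (nu Z) 0 S, x • w ∈ eigS (nu Z) 0 S := by
      intro x hx w hw
      exact ⟨hSK x hx w hw.1,
        by rw [← hθK x hx w, hw.2, zero_nsmul, zero_nsmul, smul_zero]⟩
    have hBR : ∀ r ∈ R, ∀ w ∈ eigS (nu Z) 0 S, r • w ∈ eigS (nu Z) 0 S := by
      intro r hr w hw
      exact ⟨hSR r hr w hw.1,
        by rw [← hθR r hr w, hw.2, zero_nsmul, zero_nsmul, smul_zero]⟩
    by_cases hB : eigS (nu Z) 0 S = ⊥
    · exfalso
      rw [hB, AddSubgroup.card_bot, mul_one] at hsplit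
      have h4 : eigS (nu Z) (Nat.card ↥Z) S = S :=
        AddSubgroup.eq_of_le_of_card_ge (eigS_le _ _ _) hsplit.le
      apply hz₀D
      refine ⟨hz₀K, fun w hw => ?_⟩
      have hw' : w ∈ eigS (nu Z) (Nat.card ↥Z) S := by rw [h4]; exact hw
      have h5 := nu_fixed Z w z₀ hz₀Z
      rw [hw'.2, smul_comm] at h5
      exact nsmul_inj_of_coprime hcZ h5
    by_cases hA : eigS (nu Z) (Nat.card ↥Z) S = ⊥
    · have hCZ : ∀ w ∈ S, (∀ z ∈ Z, z • w = w) → w = 0 := by
        intro w hw hfixw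
        have hw' : w ∈ eigS (nu Z) (Nat.card ↥Z) S := ⟨hw, nu_of_fixed Z w hfixw⟩
        rw [hA] at hw'
        exact AddSubgroup.mem_bot.mp hw'
      obtain ⟨c', hc'⟩ := IsAddCyclic.exists_zsmul_surjective (G := ↥(S ⊓ fixS R))
      obtain ⟨c, hc⟩ := c'
      have hcS : c ∈ S := hc.1
      have hcR : ∀ r ∈ R, r • c = c := hc.2
      -- the cyclic submodule generated by c
      obtain ⟨S', hS'def⟩ : ∃ S' : AddSubgroup W,
          S' = AddSubgroup.closure (Set.range (fun z : ↥Z => (z : Γ) • c)) := ⟨_, rfl⟩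
      have hgen : ∀ z ∈ Z, z • c ∈ S' := by
        intro z hz; rw [hS'def]; exact AddSubgroup.subset_closure ⟨⟨z, hz⟩, rfl⟩
      have hS'S : S' ≤ S := by
        rw [hS'def, AddSubgroup.closure_le]
        rintro _ ⟨z, rfl⟩
        exact hSK z (hZK z.2) c hcS
      have hcS' : c ∈ S' := by
        have h1 := hgen 1 Z.one_mem
        rw [one_smul] at h1; exact h1
      have hS'Z : ∀ z ∈ Z, ∀ w ∈ S', z • w ∈ S' := by
        intro z hz w hw
        rw [hS'def] at hw
        refine AddSubgroup.closure_induction (p := fun w _ => z • w ∈ S') ?_ ?_ ?_ ?_ hw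
        · rintro _ ⟨z', rfl⟩
          rw [← mul_smul]
          exact hgen _ (Z.mul_mem hz z'.2)
        · rw [smul_zero]; exact S'.zero_mem
        · intro a b _ _ ha hb
          rw [smul_add]; exact S'.add_mem ha hb
        · intro a _ ha
          rw [smul_neg]; exact S'.neg_mem ha
      have hS'R : ∀ r ∈ R, ∀ w ∈ S', r • w ∈ S' := by
        intro r hr w hw
        rw [hS'def] at hw
        refine AddSubgroup.closure_induction (p := fun w _ => r • w ∈ S') ?_ ?_ ?_ ?_ hw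
        · rintro _ ⟨z', rfl⟩
          have e : r • (z' : Γ) • c = (r * z' * r⁻¹) • c := by
            rw [mul_smul, mul_smul, hcR r⁻¹ (R.inv_mem hr)]
          rw [e]
          exact hgen _ (hRZ r hr z' z'.2)
        · rw [smul_zero]; exact S'.zero_mem
        · intro a b _ _ ha hb
          rw [smul_add]; exact S'.add_mem ha hb
        · intro a _ ha
          rw [smul_neg]; exact S'.neg_mem ha

      have hS' := frob_kl R (Nat.card Z) Z rfl hRZ
        (fun r hr hne x hx => hfpf r hr hne x (hZK hx)) hsolvZ hcZ S' hS'Z hS'R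
        (fun w hw h => hCZ w (hS'S hw) h)
      have hSf := frob_kl R (Nat.card Z) Z rfl hRZ
        (fun r hr hne x hx => hfpf r hr hne x (hZK hx)) hsolvZ hcZ S
        (fun z hz => hSK z (hZK hz)) hSR hCZ
      have hfixeq : S' ⊓ fixS R = S ⊓ fixS R := by
        apply le_antisymm (inf_le_inf_right _ hS'S)
        intro w hw
        obtain ⟨k, hk⟩ := hc' ⟨w, hw⟩
        have hwk : k • c = w := by
          have h6 := congrArg Subtype.val hk
          rw [AddSubgroup.coe_zsmul] at h6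
          exact h6
        exact ⟨by rw [← hwk]; exact S'.zsmul_mem hcS' k, hw.2⟩
      have hS'eq : S' = S := by
        apply AddSubgroup.eq_of_le_of_card_ge hS'S
        rw [hS', hSf, hfixeq]
      -- commutation
      have hrep : ∀ u ∈ S', ∃ h : W →+ W, ((∀ w ∈ S, h w ∈ S) ∧
          (∀ k ∈ K, ∀ w ∈ S, h (k • w) = k • h w) ∧
          (∀ h₂ : W →+ W, (∀ w ∈ S, h₂ w ∈ S) → (∀ k ∈ K, ∀ w ∈ S, h₂ (k • w) = k • h₂ w) →
            ∀ w ∈ S, h (h₂ w) = h₂ (h w))) ∧ h c = u := by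
        intro u hu
        rw [hS'def] at hu
        refine AddSubgroup.closure_induction (p := fun u _ => ∃ h : W →+ W, ((∀ w ∈ S, h w ∈ S) ∧
          (∀ k ∈ K, ∀ w ∈ S, h (k • w) = k • h w) ∧
          (∀ h₂ : W →+ W, (∀ w ∈ S, h₂ w ∈ S) → (∀ k ∈ K, ∀ w ∈ S, h₂ (k • w) = k • h₂ w) →
            ∀ w ∈ S, h (h₂ w) = h₂ (h w))) ∧ h c = u) ?_ ?_ ?_ ?_ hu
        · rintro _ ⟨z, rfl⟩
          exact ⟨DistribSMul.toAddMonoidHom W (z : Γ),
            ⟨fun w hw => hSK z (hZK z.2) w hw, fun k hk w hw => hZc z z.2 k hk w hw,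
              fun h₂ h₂S h₂K w hw => (h₂K z (hZK z.2) w hw).symm⟩, rfl⟩
        · exact ⟨0, ⟨fun w _ => S.zero_mem, fun k _ w _ => (smul_zero k).symm,
            fun h₂ _ _ w _ => (map_zero h₂).symm⟩, rfl⟩
        · rintro a b _ _ ⟨ha, hPa, rfl⟩ ⟨hb, hPb, rfl⟩
          refine ⟨ha + hb, ⟨fun w hw => S.add_mem (hPa.1 w hw) (hPb.1 w hw), fun k hk w hw => ?_,
            fun h₂ h₂S h₂K w hw => ?_⟩, rfl⟩
          · rw [AddMonoidHom.add_apply, AddMonoidHom.add_apply, hPa.2.1 k hk w hw,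
              hPb.2.1 k hk w hw, smul_add]
          · rw [AddMonoidHom.add_apply, AddMonoidHom.add_apply, hPa.2.2 h₂ h₂S h₂K w hw,
              hPb.2.2 h₂ h₂S h₂K w hw, map_add]
        · rintro a _ ⟨ha, hPa, rfl⟩
          refine ⟨-ha, ⟨fun w hw => S.neg_mem (hPa.1 w hw), fun k hk w hw => ?_,
            fun h₂ h₂S h₂K w hw => ?_⟩, rfl⟩
          · rw [AddMonoidHom.neg_apply, AddMonoidHom.neg_apply, hPa.2.1 k hk w hw, smul_neg]
          · rw [AddMonoidHom.neg_apply, AddMonoidHom.neg_apply, hPa.2.2 h₂ h₂S h₂K w hw, map_neg]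
      intro x hx y hy w hw
      obtain ⟨h, hP, hhc⟩ := hrep (x • c) (by rw [hS'eq]; exact hSK x hx c hcS)
      obtain ⟨h', hP', hhc'⟩ := hrep (y • c) (by rw [hS'eq]; exact hSK y hy c hcS)
      have key : x • y • c = y • x • c := by
        calc x • y • c = x • h' c := by rw [hhc']
          _ = h' (x • c) := (hP'.2.1 x hx c hcS).symm
          _ = h' (h c) := by rw [hhc]
          _ = h (h' c) := (hP.2.2 h' hP'.1 hP'.2.1 c hcS).symm
          _ = h (y • c) := by rw [hhc']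
          _ = y • h c := hP.2.1 y hy c hcS
          _ = y • x • c := by rw [hhc]
      have hwS' : w ∈ S' := by rw [hS'eq]; exact hw
      rw [hS'def] at hwS'
      refine AddSubgroup.closure_induction (p := fun w _ => x • y • w = y • x • w) ?_ ?_ ?_ ?_ hwS'
      · rintro _ ⟨z, rfl⟩
        have hz := hZc z z.2
        rw [← hz y hy c hcS, ← hz x hx _ (hSK y hy c hcS), key, hz y hy _ (hSK x hx c hcS),
          hz x hx c hcS]
      · rw [smul_zero, smul_zero, smul_zero]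
      · intro a b _ _ ha hb
        rw [smul_add, smul_add, ha, hb, smul_add, smul_add]
      · intro a _ ha
        rw [smul_neg, smul_neg, ha, smul_neg, smul_neg]
    · have hA1 : 1 < Nat.card ↥(eigS (nu Z) (Nat.card ↥Z) S) := by
        rw [Finite.one_lt_card_iff_nontrivial]
        exact (AddSubgroup.nontrivial_iff_ne_bot _).mpr hA
      have hB1 : 1 < Nat.card ↥(eigS (nu Z) 0 S) := by
        rw [Finite.one_lt_card_iff_nontrivial]
        exact (AddSubgroup.nontrivial_iff_ne_bot _).mpr hB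
      have hAlt : Nat.card ↥(eigS (nu Z) (Nat.card ↥Z) S) < n := by
        rw [← hn, hsplit]; nlinarith
      have hBlt : Nat.card ↥(eigS (nu Z) 0 S) < n := by
        rw [← hn, hsplit]; nlinarith
      haveI := hcyc
      have hcycA : IsAddCyclic ↥(eigS (nu Z) (Nat.card ↥Z) S ⊓ fixS R) :=
        isAddCyclic_of_injective
          (AddSubgroup.inclusion (inf_le_inf_right (fixS R) (eigS_le (nu Z) (Nat.card ↥Z) S)))
          (AddSubgroup.inclusion_injective _)
      have hcycB : IsAddCyclic ↥(eigS (nu Z) 0 S ⊓ fixS R) :=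
        isAddCyclic_of_injective
          (AddSubgroup.inclusion (inf_le_inf_right (fixS R) (eigS_le (nu Z) 0 S)))
          (AddSubgroup.inclusion_injective _)
      have ihA := ih _ hAlt _ rfl hAK hAR (fun w hw h => hC w hw.1 h) hcycA
      have ihB := ih _ hBlt _ rfl hBK hBR (fun w hw h => hC w hw.1 h) hcycB
      intro x hx y hy w hw
      apply nsmul_inj_of_coprime hcZ
      have h1 : Nat.card Z • w = nu Z w + (Nat.card Z • w - nu Z w) := by abel
      have hu : nu Z w ∈ eigS (nu Z) (Nat.card ↥Z) S := ⟨hθS w hw, hθθ w⟩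
      have hv : (Nat.card Z • w - nu Z w) ∈ eigS (nu Z) 0 S :=
        ⟨S.sub_mem (S.nsmul_mem hw _) (hθS w hw),
          by rw [map_sub, map_nsmul, hθθ, sub_self, zero_nsmul]⟩
      have e1 : Nat.card Z • (x • y • w) = x • y • (Nat.card Z • w) := by
        rw [smul_comm y (Nat.card Z) w, smul_comm x (Nat.card Z) (y • w)]
      have e2 : Nat.card Z • (y • x • w) = y • x • (Nat.card Z • w) := by
        rw [smul_comm x (Nat.card Z) w, smul_comm y (Nat.card Z) (x • w)]
      rw [e1, e2, h1, smul_add, smul_add, smul_add, smul_add, ihA x hx y hy _ hu,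
        ihB x hx y hy _ hv]

theorem frob_cyc_comm (K R : Subgroup Γ)
    (hRK : ∀ r ∈ R, ∀ x ∈ K, r * x * r⁻¹ ∈ K)
    (hfpf : ∀ r ∈ R, r ≠ 1 → ∀ x ∈ K, r * x = x * r → x = 1)
    (hnil : Group.IsNilpotent ↥K)
    (hcK : Nat.Coprime (Nat.card K) (Nat.card W))
    (hcyc : IsAddCyclic ↥(fixS R : AddSubgroup W)) :
    ∀ x ∈ K, ∀ y ∈ K, ∀ w : W, x • y • w = y • x • w := by
  have hθθ : ∀ w : W, nu K (nu K w) = Nat.card ↥K • nu K w :=
    fun w => nu_of_fixed _ _ (nu_fixed _ w)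
  have hθK : ∀ x ∈ K, ∀ w : W, x • nu K w = nu K (x • w) :=
    fun x hx w => by
      rw [smul_nu, cj_eq_self (fun b hb => K.mul_mem (K.mul_mem hx hb) (K.inv_mem hx))]
  have hθR : ∀ r ∈ R, ∀ w : W, r • nu K w = nu K (r • w) :=
    fun r hr w => by rw [smul_nu, cj_eq_self (hRK r hr)]
  haveI := hcyc
  have hcycB : IsAddCyclic ↥(eigS (nu K) 0 (⊤ : AddSubgroup W) ⊓ fixS R) :=
    isAddCyclic_of_injective
      (AddSubgroup.inclusion (inf_le_right : eigS (nu K) 0 (⊤ : AddSubgroup W) ⊓ fixS R ≤ fixS R))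
      (AddSubgroup.inclusion_injective _)
  have hab := frob_cyc_ab K R hRK hfpf hnil hcK _ (eigS (nu K) 0 (⊤ : AddSubgroup W)) rfl
    (fun x hx w hw => ⟨AddSubgroup.mem_top _,
      by rw [← hθK x hx w, hw.2, zero_nsmul, zero_nsmul, smul_zero]⟩)
    (fun r hr w hw => ⟨AddSubgroup.mem_top _,
      by rw [← hθR r hr w, hw.2, zero_nsmul, zero_nsmul, smul_zero]⟩)
    (fun w hw hfixw => by
      have h3 := nu_of_fixed K w hfixw
      rw [hw.2, zero_nsmul] at h3
      exact nsmul_inj_of_coprime hcK (by rw [← h3, smul_zero]))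
    hcycB
  intro x hx y hy w
  apply nsmul_inj_of_coprime hcK
  have h1 : Nat.card K • w = nu K w + (Nat.card K • w - nu K w) := by abel
  have hu : ∀ k ∈ K, k • nu K w = nu K w := nu_fixed K w
  have hv : (Nat.card K • w - nu K w) ∈ eigS (nu K) 0 (⊤ : AddSubgroup W) :=
    ⟨AddSubgroup.mem_top _, by rw [map_sub, map_nsmul, hθθ, sub_self, zero_nsmul]⟩
  have e1 : Nat.card K • (x • y • w) = x • y • (Nat.card K • w) := by
    rw [smul_comm y (Nat.card K) w, smul_comm x (Nat.card K) (y • w)]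
  have e2 : Nat.card K • (y • x • w) = y • x • (Nat.card K • w) := by
    rw [smul_comm x (Nat.card K) w, smul_comm y (Nat.card K) (x • w)]
  rw [e1, e2, h1, smul_add, smul_add, smul_add, smul_add, hab x hx y hy _ hv, hu y hy, hu x hx,
    hu y hy]

end Cyc

end Cfsg.Agent.Helper10
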