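import Cfsg.Agent.Helper10.FrobKL

set_option autoImplicit false
set_option linter.unusedSectionVars false
set_option linter.style.haveILetI false
set_option linter.unusedVariables false

namespace Cfsg.Agent.Helper10

open scoped commutatorElement

section Concrete

variable {Y : Type*} [Group Y] [Finite Y]

theorem frob_ab (A : Subgroup Y) [hAn : A.Normal] (hAc : ∀ x ∈ A, ∀ y ∈ A, x * y = y * x)
    (U E : Subgroup Y)
    (hEU : ∀ e ∈ E, ∀ x ∈ U, e * x * e⁻¹ ∈ U)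
    (hfpf : ∀ e ∈ E, e ≠ 1 → ∀ x ∈ U, e * x = x * e → x = 1)
    (hsolv : Group.IsSolvable U)
    (hcU : Nat.Coprime (Nat.card U) (Nat.card A)) :
    Nat.card ↥(A ⊓ Subgroup.centralizer ((U ⊔ E : Subgroup Y) : Set Y)) ^ Nat.card E * Nat.card A
      = Nat.card ↥(A ⊓ Subgroup.centralizer (E : Set Y)) ^ Nat.card E
        * Nat.card ↥(A ⊓ Subgroup.centralizer (U : Set Y)) := by
  let cA : Y → ↥A → ↥A := fun g x => ⟨g * x * g⁻¹, hAn.conj_mem x x.2 g⟩
  have hc1 : ∀ x : ↥A, cA 1 x = x := fun x => Subtype.ext (by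
    show (1 : Y) * (x : Y) * (1 : Y)⁻¹ = (x : Y)
    rw [one_mul, inv_one, mul_one])
  have hc2 : ∀ (g g' : Y) (x : ↥A), cA (g * g') x = cA g (cA g' x) := fun g g' x =>
    Subtype.ext (by
      show (g * g') * (x : Y) * (g * g')⁻¹ = g * (g' * (x : Y) * g'⁻¹) * g⁻¹
      group)
  have hc3 : ∀ g : Y, cA g 1 = 1 := fun g => Subtype.ext (by
    show g * (1 : Y) * g⁻¹ = (1 : Y)
    rw [mul_one, mul_inv_cancel])
  have hc4 : ∀ (g : Y) (x x' : ↥A), cA g (x * x') = cA g x * cA g x' := fun g x x' =>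
    Subtype.ext (by
      show g * ((x : Y) * (x' : Y)) * g⁻¹ = (g * (x : Y) * g⁻¹) * (g * (x' : Y) * g⁻¹)
      group)
  letI : CommGroup ↥A :=
    { (inferInstance : Group ↥A) with mul_comm := fun x y => Subtype.ext (hAc x x.2 y y.2) }
  letI : DistribMulAction Y (Additive ↥A) :=
    { smul := fun g w => Additive.ofMul (cA g (Additive.toMul w))
      one_smul := fun w => hc1 w
      mul_smul := fun g g' w => hc2 g g' w
      smul_zero := fun g => hc3 g
      smul_add := fun g w w' => hc4 g w w' }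
  have hsm : ∀ (g : Y) (w : Additive ↥A),
      (((Additive.toMul (g • w) : ↥A)) : Y) = g * ((Additive.toMul w : ↥A) : Y) * g⁻¹ :=
    fun g w => rfl
  have hcard : ∀ B : Subgroup Y, Nat.card ↥(fixS B : AddSubgroup (Additive ↥A))
      = Nat.card ↥(A ⊓ Subgroup.centralizer (B : Set Y)) := by
    intro B
    refine Nat.card_congr ⟨fun w => ⟨((Additive.toMul (w : Additive ↥A) : ↥A) : Y),
      (Additive.toMul (w : Additive ↥A)).2, ?_⟩,
      fun x => ⟨Additive.ofMul (⟨(x : Y), x.2.1⟩ : ↥A), ?_⟩, fun w => rfl, fun x => rfl⟩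
    · refine Subgroup.mem_centralizer_iff.mpr ?_
      intro b hb
      have h1 := w.2 b hb
      have h2 : b * ((Additive.toMul (w : Additive ↥A) : ↥A) : Y) * b⁻¹
          = ((Additive.toMul (w : Additive ↥A) : ↥A) : Y) := by
        rw [← hsm, h1]
      exact mul_inv_eq_iff_eq_mul.mp h2
    · intro b hb
      have hx := (Subgroup.mem_centralizer_iff.mp x.2.2) b hb
      have h3 : (((Additive.toMul (b • (Additive.ofMul (⟨(x : Y), x.2.1⟩ : ↥A))) : ↥A)) : Y)
          = (x : Y) := by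
        rw [hsm]
        show b * (x : Y) * b⁻¹ = (x : Y)
        rw [hx, mul_inv_cancel_right]
      exact congrArg Additive.ofMul (Subtype.ext h3)
  have key := frob_ab_abs (W := Additive ↥A) U E hEU hfpf hsolv hcU
  rw [hcard, hcard, hcard] at key
  exact key

theorem card_map_mk_inf (N : Subgroup Y) [N.Normal] (K : Subgroup Y) :
    Nat.card ↥(K.map (QuotientGroup.mk' N)) * Nat.card ↥(K ⊓ N) = Nat.card ↥K := by
  have h1 : ((QuotientGroup.mk' N).comp K.subtype).range = K.map (QuotientGroup.mk' N) := by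
    rw [MonoidHom.range_comp, Subgroup.range_subtype]
  have h2 : ((QuotientGroup.mk' N).comp K.subtype).ker = N.subgroupOf K := by
    ext x
    rw [MonoidHom.mem_ker, Subgroup.mem_subgroupOf]
    show ((x : Y) : Y ⧸ N) = 1 ↔ _
    rw [QuotientGroup.eq_one_iff]
  have h3 : Nat.card ↥(N.subgroupOf K) = Nat.card ↥(K ⊓ N) := by
    rw [← Subgroup.card_map_of_injective K.subtype_injective, Subgroup.subgroupOf_map_subtype,
      inf_comm]
  rw [← h1, ← h3, ← h2,
    Subgroup.card_eq_card_quotient_mul_card_subgroup ((QuotientGroup.mk' N).comp K.subtype).ker,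
    Nat.card_congr (QuotientGroup.quotientKerEquivRange
      ((QuotientGroup.mk' N).comp K.subtype)).toEquiv]

theorem cent_map_eq (N H : Subgroup Y) [N.Normal] [H.Normal] (hNH : N ≤ H)
    (B : Subgroup Y) (hcop : Nat.Coprime (Nat.card B) (Nat.card H))
    (hsolv : Group.IsSolvable H) :
    (H ⊓ Subgroup.centralizer (B : Set Y)).map (QuotientGroup.mk' N)
      = H.map (QuotientGroup.mk' N) ⊓ Subgroup.centralizer
          ((B.map (QuotientGroup.mk' N) : Subgroup (Y ⧸ N)) : Set (Y ⧸ N)) := by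
  apply le_antisymm
  · rintro _ ⟨x, ⟨hxH, hxC⟩, rfl⟩
    refine ⟨⟨x, hxH, rfl⟩, ?_⟩
    refine Subgroup.mem_centralizer_iff.mpr ?_
    rintro _ ⟨b, hb, rfl⟩
    rw [← map_mul, ← map_mul, (Subgroup.mem_centralizer_iff.mp hxC) b hb]
  · rintro _ ⟨⟨y, hyH, rfl⟩, hyC⟩
    have hinv : ∀ b ∈ B, y⁻¹ * b * y * b⁻¹ ∈ N := by
      intro b hb
      have h1 := (Subgroup.mem_centralizer_iff.mp hyC) _
        (Subgroup.mem_map_of_mem (QuotientGroup.mk' N) hb)
      have h2 : (QuotientGroup.mk' N) (y⁻¹ * b * y * b⁻¹) = 1 := by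
        rw [map_mul, map_mul, map_mul, map_inv, map_inv,
          mul_assoc ((QuotientGroup.mk' N) y)⁻¹, h1]
        group
      exact (QuotientGroup.eq_one_iff _).mp h2
    have hBH : B ≤ Subgroup.normalizer (H : Set Y) := by
      rw [Subgroup.normalizer_eq_top]; exact le_top
    have hBN : B ≤ Subgroup.normalizer (N : Set Y) := by
      rw [Subgroup.normalizer_eq_top]; exact le_top
    obtain ⟨d, hd, hyd⟩ := Cfsg.Agent.Helper1.coprime_coset_fixed B H N hBH hBN hNH hcop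
      (Or.inr hsolv) y hyH hinv
    refine ⟨y * d, ⟨H.mul_mem hyH (hNH hd), hyd⟩, ?_⟩
    rw [map_mul]
    have h5 : (QuotientGroup.mk' N) d = 1 := (QuotientGroup.eq_one_iff d).mpr hd
    rw [h5, mul_one]

theorem arith_comb (a1 a2 a3 n1 n2 n3 hb cn k : ℕ) (h1 : a1 ^ k * hb = a2 ^ k * a3)
    (h2 : n1 ^ k * cn = n2 ^ k * n3) :
    (a1 * n1) ^ k * (hb * cn) = (a2 * n2) ^ k * (a3 * n3) := by
  calc (a1 * n1) ^ k * (hb * cn) = (a1 ^ k * hb) * (n1 ^ k * cn) := by ring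
    _ = (a2 ^ k * a3) * (n2 ^ k * n3) := by rw [h1, h2]
    _ = _ := by ring

theorem frob_main (U E : Subgroup Y)
    (hEU : ∀ e ∈ E, ∀ x ∈ U, e * x * e⁻¹ ∈ U)
    (hfpf : ∀ e ∈ E, e ≠ 1 → ∀ x ∈ U, e * x = x * e → x = 1)
    (hsolvU : Group.IsSolvable U) :
    ∀ (n : ℕ) (H : Subgroup Y), H.Normal → Nat.card H = n → Group.IsSolvable H →
      Nat.Coprime (Nat.card H) (Nat.card ↥(U ⊔ E)) →
      Nat.card ↥(H ⊓ Subgroup.centralizer ((U ⊔ E : Subgroup Y) : Set Y)) ^ Nat.card E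
          * Nat.card H
        = Nat.card ↥(H ⊓ Subgroup.centralizer (E : Set Y)) ^ Nat.card E
          * Nat.card ↥(H ⊓ Subgroup.centralizer (U : Set Y)) := by
  intro n
  induction n using Nat.strong_induction_on with
  | _ n ih =>
    intro H hHn hn hsolvH hcop
    by_cases hHb : H = ⊥
    · rw [hHb]; simp
    haveI := hHn
    have hNlt : ⁅H, H⁆ < H := comm_lt hsolvH hHb
    have hNH : ⁅H, H⁆ ≤ H := hNlt.le
    haveI hNn : (⁅H, H⁆).Normal := Subgroup.commutator_normal H H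
    have hlt : Nat.card ↥(⁅H, H⁆) < n := by rw [← hn]; exact card_lt_of_lt' hNlt
    have hsolvN : Group.IsSolvable ↥(⁅H, H⁆) :=
      Group.isSolvable_of_isSolvable_injective (Subgroup.inclusion_injective hNH)
    have hcopN : Nat.Coprime (Nat.card ↥(⁅H, H⁆)) (Nat.card ↥(U ⊔ E)) :=
      Nat.Coprime.coprime_dvd_left (Subgroup.card_dvd_of_le hNH) hcop
    have ihN := ih _ hlt ⁅H, H⁆ hNn rfl hsolvN hcopN
    have hdisj : ∀ z ∈ H, z ∈ U ⊔ E → z = 1 := by
      intro z hz hz'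
      have h1 : z ∈ H ⊓ (U ⊔ E) := ⟨hz, hz'⟩
      rw [(Subgroup.disjoint_of_coprime_natCard hcop).eq_bot] at h1
      exact Subgroup.mem_bot.mp h1
    haveI hHbar : (H.map (QuotientGroup.mk' ⁅H, H⁆)).Normal :=
      Subgroup.Normal.map hHn _ (QuotientGroup.mk'_surjective _)
    have hAc : ∀ x ∈ H.map (QuotientGroup.mk' ⁅H, H⁆), ∀ y ∈ H.map (QuotientGroup.mk' ⁅H, H⁆),
        x * y = y * x := by
      rintro _ ⟨a, ha, rfl⟩ _ ⟨b, hb, rfl⟩
      rw [← map_mul, ← map_mul]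
      show ((a * b : Y) : Y ⧸ ⁅H, H⁆) = ((b * a : Y) : Y ⧸ ⁅H, H⁆)
      rw [QuotientGroup.eq]
      have h1 : (a * b)⁻¹ * (b * a) = ⁅b⁻¹, a⁻¹⁆ := by rw [commutatorElement_def]; group
      rw [h1]
      exact Subgroup.commutator_mem_commutator (H.inv_mem hb) (H.inv_mem ha)
    have hEU' : ∀ e ∈ E.map (QuotientGroup.mk' ⁅H, H⁆), ∀ x ∈ U.map (QuotientGroup.mk' ⁅H, H⁆),
        e * x * e⁻¹ ∈ U.map (QuotientGroup.mk' ⁅H, H⁆) := by
      rintro _ ⟨e, he, rfl⟩ _ ⟨x, hx, rfl⟩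
      exact ⟨e * x * e⁻¹, hEU e he x hx, by rw [map_mul, map_mul, map_inv]⟩
    have hfpf' : ∀ e ∈ E.map (QuotientGroup.mk' ⁅H, H⁆), e ≠ 1 →
        ∀ x ∈ U.map (QuotientGroup.mk' ⁅H, H⁆), e * x = x * e → x = 1 := by
      rintro _ ⟨e, he, rfl⟩ hne _ ⟨x, hx, rfl⟩ hcomm
      rw [← map_mul, ← map_mul] at hcomm
      have h1 : (e * x)⁻¹ * (x * e) ∈ ⁅H, H⁆ := QuotientGroup.eq.mp hcomm
      have h2 : (e * x)⁻¹ * (x * e) = x⁻¹ * (e⁻¹ * x * e⁻¹⁻¹) := by group
      have h3 : (e * x)⁻¹ * (x * e) ∈ U ⊔ E := by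
        rw [h2]
        exact Subgroup.mem_sup_left (U.mul_mem (U.inv_mem hx) (hEU e⁻¹ (E.inv_mem he) x hx))
      have h4 := hdisj _ (hNH h1) h3
      have h5 : e * x = x * e := by
        have := inv_mul_eq_one.mp h4
        exact this
      have he1 : e ≠ 1 := by
        intro h6; apply hne; rw [h6, map_one]
      rw [hfpf e he he1 x hx h5, map_one]
    have hsolvU' : Group.IsSolvable ↥(U.map (QuotientGroup.mk' ⁅H, H⁆)) :=
      Group.isSolvable_of_surjective (MonoidHom.subgroupMap_surjective (QuotientGroup.mk' ⁅H, H⁆) U)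
    have hcU' : Nat.Coprime (Nat.card ↥(U.map (QuotientGroup.mk' ⁅H, H⁆)))
        (Nat.card ↥(H.map (QuotientGroup.mk' ⁅H, H⁆))) := by
      have h1 : Nat.card ↥(U.map (QuotientGroup.mk' ⁅H, H⁆)) ∣ Nat.card ↥(U ⊔ E) :=
        (Subgroup.card_map_dvd U _).trans (Subgroup.card_dvd_of_le le_sup_left)
      have h2 : Nat.card ↥(H.map (QuotientGroup.mk' ⁅H, H⁆)) ∣ Nat.card H :=
        Subgroup.card_map_dvd H _
      exact Nat.Coprime.coprime_dvd_left h1 (Nat.Coprime.coprime_dvd_right h2 hcop.symm)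
    have key := frob_ab (H.map (QuotientGroup.mk' ⁅H, H⁆)) hAc _ _ hEU' hfpf' hsolvU' hcU'
    have hcm : ∀ B : Subgroup Y, B ≤ U ⊔ E →
        Nat.card ↥(H.map (QuotientGroup.mk' ⁅H, H⁆) ⊓ Subgroup.centralizer
          ((B.map (QuotientGroup.mk' ⁅H, H⁆) : Subgroup (Y ⧸ ⁅H, H⁆)) : Set (Y ⧸ ⁅H, H⁆)))
          * Nat.card ↥(⁅H, H⁆ ⊓ Subgroup.centralizer (B : Set Y))
        = Nat.card ↥(H ⊓ Subgroup.centralizer (B : Set Y)) := by
      intro B hB
      have hcB : Nat.Coprime (Nat.card B) (Nat.card H) :=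
        Nat.Coprime.coprime_dvd_left (Subgroup.card_dvd_of_le hB) hcop.symm
      rw [← cent_map_eq ⁅H, H⁆ H hNH B hcB hsolvH]
      have h1 := card_map_mk_inf ⁅H, H⁆ (H ⊓ Subgroup.centralizer (B : Set Y))
      have h2 : H ⊓ Subgroup.centralizer (B : Set Y) ⊓ ⁅H, H⁆
          = ⁅H, H⁆ ⊓ Subgroup.centralizer (B : Set Y) := by
        rw [inf_comm, ← inf_assoc, inf_eq_left.mpr hNH]
      rw [h2] at h1
      exact h1
    have hcardE : Nat.card ↥(E.map (QuotientGroup.mk' ⁅H, H⁆)) = Nat.card E := by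
      have h1 := card_map_mk_inf ⁅H, H⁆ E
      have h2 : E ⊓ ⁅H, H⁆ = ⊥ := by
        rw [eq_bot_iff]
        rintro z ⟨hzE, hzN⟩
        exact Subgroup.mem_bot.mpr (hdisj z (hNH hzN) (Subgroup.mem_sup_right hzE))
      rw [h2, Subgroup.card_bot, mul_one] at h1
      exact h1
    have hcardH : Nat.card ↥(H.map (QuotientGroup.mk' ⁅H, H⁆)) * Nat.card ↥(⁅H, H⁆)
        = Nat.card H := by
      have h1 := card_map_mk_inf ⁅H, H⁆ H
      rw [inf_eq_right.mpr hNH] at h1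
      exact h1
    rw [hcardE, ← Subgroup.map_sup] at key
    rw [← hcm (U ⊔ E) le_rfl, ← hcm E le_sup_right, ← hcm U le_sup_left, ← hcardH]
    exact arith_comb _ _ _ _ _ _ _ _ _ key ihN

end Concrete

end Cfsg.Agent.Helper10
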