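import Cfsg.Agent.Helper10.FrobCyc
import Cfsg.Agent.Helper10.FrobMain
import Cfsg.Agent.Helper1.FpfNil2
import Cfsg.Agent.Helper1.Basic2

set_option autoImplicit false
set_option linter.unusedSectionVars false
set_option linter.style.haveILetI false
set_option linter.unusedVariables false

universe u

namespace Cfsg.Agent.Helper10

open scoped commutatorElement

/-- in a finite nilpotent group commutators lie in the Frattini subgroup -/
theorem nilp_comm_frattini {N : Type*} [Group N] [Finite N] [Group.IsNilpotent N] (a b : N) :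
    a * b * a⁻¹ * b⁻¹ ∈ frattini N := by
  rw [Cfsg.Agent.Helper1.mem_frattini_iff]
  intro M hM
  have tfae := (Group.isNilpotent_of_finite_tfae (G := N)).out 0 2
  haveI hMn : M.Normal := (tfae.mp inferInstance) M hM
  obtain ⟨g, -, hg⟩ := SetLike.exists_of_lt (lt_top_iff_ne_top.mpr hM.1)
  have htop : M ⊔ Subgroup.zpowers g = ⊤ := by
    apply hM.2
    refine lt_of_le_of_ne le_sup_left ?_
    intro h
    apply hg
    rw [h]
    exact le_sup_right (a := M) (Subgroup.mem_zpowers g)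
  have ha : a ∈ M ⊔ Subgroup.zpowers g := by rw [htop]; exact Subgroup.mem_top a
  have hb : b ∈ M ⊔ Subgroup.zpowers g := by rw [htop]; exact Subgroup.mem_top b
  obtain ⟨x₁, hx₁, z₁, hz₁, rfl⟩ := Subgroup.mem_sup_of_normal_left.mp ha
  obtain ⟨x₂, hx₂, z₂, hz₂, rfl⟩ := Subgroup.mem_sup_of_normal_left.mp hb
  obtain ⟨i, rfl⟩ := Subgroup.mem_zpowers_iff.mp hz₁
  obtain ⟨j, rfl⟩ := Subgroup.mem_zpowers_iff.mp hz₂
  have key : ∀ u v : N, u * v = v * u →
      x₁ * u * (x₂ * v) * (x₁ * u)⁻¹ * (x₂ * v)⁻¹ ∈ M := by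
    intro u v huv
    have hc : u * v * u⁻¹ * v⁻¹ = 1 := by rw [huv]; group
    have e : x₁ * u * (x₂ * v) * (x₁ * u)⁻¹ * (x₂ * v)⁻¹ =
        x₁ * (u * x₂ * u⁻¹) * (u * v * u⁻¹ * v⁻¹) * (v * x₁⁻¹ * v⁻¹) * x₂⁻¹ := by group
    rw [e, hc, mul_one]
    exact M.mul_mem (M.mul_mem (M.mul_mem hx₁ (hMn.conj_mem _ hx₂ _))
      (hMn.conj_mem _ (M.inv_mem hx₁) _)) (M.inv_mem hx₂)
  exact key _ _ ((Commute.refl g).zpow_zpow i j).eq

/-- the kernel of a fixed-point-free action is nilpotent (Thompson) -/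
theorem frob_kernel_nilpotent {X : Type u} [Group X] [Finite X] (U E : Subgroup X) (hE1 : E ≠ ⊥)
    (hUn : ∀ e ∈ E, ∀ u ∈ U, e * u * e⁻¹ ∈ U)
    (hfpf : ∀ e ∈ E, e ≠ 1 → ∀ u ∈ U, e * u = u * e → u = 1) : Group.IsNilpotent U := by
  have hcard : Nat.card E ≠ 1 := fun h1 => hE1 (Subgroup.card_eq_one.mp h1)
  obtain ⟨r, hr, hrdvd⟩ := Nat.exists_prime_and_dvd hcard
  haveI : Fact r.Prime := ⟨hr⟩
  obtain ⟨h, hh⟩ := exists_prime_orderOf_dvd_card' r hrdvd
  have hh0 : orderOf (h : X) = r := by rw [Subgroup.orderOf_coe]; exact hh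
  have hh1 : (h : X) ≠ 1 := by
    intro h1
    rw [h1, orderOf_one] at hh0
    exact hr.one_lt.ne hh0
  have hinv : ∀ u ∈ U, (h : X)⁻¹ * u * (h : X) ∈ U := by
    intro u hu
    have h2 := hUn (h : X)⁻¹ (E.inv_mem h.2) u hu
    rw [inv_inv] at h2
    exact h2
  let φ : ↥U ≃* ↥U :=
    { toFun := fun u => ⟨(h : X) * u * (h : X)⁻¹, hUn h h.2 u u.2⟩
      invFun := fun u => ⟨(h : X)⁻¹ * u * (h : X), hinv u u.2⟩
      left_inv := fun u => Subtype.ext (by
        show (h : X)⁻¹ * ((h : X) * (u : X) * (h : X)⁻¹) * (h : X) = (u : X)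
        group)
      right_inv := fun u => Subtype.ext (by
        show (h : X) * ((h : X)⁻¹ * (u : X) * (h : X)) * (h : X)⁻¹ = (u : X)
        group)
      map_mul' := fun u v => Subtype.ext (by
        show (h : X) * ((u : X) * (v : X)) * (h : X)⁻¹
          = ((h : X) * (u : X) * (h : X)⁻¹) * ((h : X) * (v : X) * (h : X)⁻¹)
        group) }
  have hφ1 : ∀ u : ↥U, ((φ u : ↥U) : X) = (h : X) * u * (h : X)⁻¹ := fun u => rfl
  have hφpow : ∀ (k : ℕ) (u : ↥U),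
      (((φ ^ k) u : ↥U) : X) = (h : X) ^ k * u * ((h : X) ^ k)⁻¹ := by
    intro k
    induction k with
    | zero => intro u; simp
    | succ k ih =>
      intro u
      rw [pow_succ, MulAut.mul_apply, ih, hφ1, pow_succ]
      simp only [mul_inv_rev, mul_assoc]
  have hφr : φ ^ r = 1 := by
    refine MulEquiv.ext (fun u => Subtype.ext ?_)
    rw [hφpow, ← hh0, pow_orderOf_eq_one]
    simp
  have hφf : MonoidHom.FixedPointFree ((φ : ↥U ≃* ↥U) : ↥U →* ↥U) := by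
    intro k hk
    have hk' : (h : X) * (k : X) * (h : X)⁻¹ = (k : X) := congrArg Subtype.val hk
    have h4 : (h : X) * (k : X) = (k : X) * (h : X) := mul_inv_eq_iff_eq_mul.mp hk'
    exact Subtype.ext (hfpf h h.2 hh1 k k.2 h4)
  exact Cfsg.Agent.Helper1.fpf_nilpotent_aux r hr (Nat.card ↥U) ↥U rfl φ hφf hφr


/-- Frobenius action with cyclic `C_V(R)` on an abelian group: the derived subgroup of the
kernel centralizes `V`. -/
theorem frob_cyc_conc {X : Type*} [Group X] [Finite X] (V L K R : Subgroup X)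
    (hV : ∀ a ∈ V, ∀ b ∈ V, a * b = b * a)
    (hL : L ≤ Subgroup.normalizer (V : Set X)) (hKL : K ≤ L) (hRL : R ≤ L)
    (hRK : ∀ r ∈ R, ∀ x ∈ K, r * x * r⁻¹ ∈ K)
    (hfpf : ∀ r ∈ R, r ≠ 1 → ∀ x ∈ K, r * x = x * r → x = 1)
    (hnil : Group.IsNilpotent ↥K)
    (hcK : Nat.Coprime (Nat.card K) (Nat.card V))
    (hcyc : IsCyclic ↥(V ⊓ Subgroup.centralizer (R : Set X))) :
    ⁅K, K⁆ ≤ Subgroup.centralizer (V : Set X) := by
  have hLV : ∀ g ∈ L, ∀ v ∈ V, g * v * g⁻¹ ∈ V :=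
    fun g hg v hv => (Subgroup.mem_normalizer_iff.mp (hL hg) v).mp hv
  let cA : ↥L → ↥V → ↥V := fun g x => ⟨(g : X) * x * (g : X)⁻¹, hLV g g.2 x x.2⟩
  have hc1 : ∀ x : ↥V, cA 1 x = x := fun x => Subtype.ext (by
    show (1 : X) * (x : X) * (1 : X)⁻¹ = (x : X)
    rw [one_mul, inv_one, mul_one])
  have hc2 : ∀ (g g' : ↥L) (x : ↥V), cA (g * g') x = cA g (cA g' x) := fun g g' x =>
    Subtype.ext (by
      show ((g : X) * (g' : X)) * (x : X) * ((g : X) * (g' : X))⁻¹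
        = (g : X) * ((g' : X) * (x : X) * (g' : X)⁻¹) * (g : X)⁻¹
      group)
  have hc3 : ∀ g : ↥L, cA g 1 = 1 := fun g => Subtype.ext (by
    show (g : X) * (1 : X) * (g : X)⁻¹ = (1 : X)
    rw [mul_one, mul_inv_cancel])
  have hc4 : ∀ (g : ↥L) (x x' : ↥V), cA g (x * x') = cA g x * cA g x' := fun g x x' =>
    Subtype.ext (by
      show (g : X) * ((x : X) * (x' : X)) * (g : X)⁻¹
        = ((g : X) * (x : X) * (g : X)⁻¹) * ((g : X) * (x' : X) * (g : X)⁻¹)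
      group)
  have hzp : ∀ (a b : ↥V) (k : ℤ), (a : X) ^ k = (b : X) → a ^ k = b := fun a b k h =>
    Subtype.ext (by rw [Subgroup.coe_zpow]; exact h)
  letI : CommGroup ↥V :=
    { (inferInstance : Group ↥V) with mul_comm := fun x y => Subtype.ext (hV x x.2 y y.2) }
  letI : DistribMulAction ↥L (Additive ↥V) :=
    { smul := fun g w => Additive.ofMul (cA g (Additive.toMul w))
      one_smul := fun w => hc1 w
      mul_smul := fun g g' w => hc2 g g' w
      smul_zero := fun g => hc3 g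
      smul_add := fun g w w' => hc4 g w w' }
  have hsm : ∀ (g : ↥L) (w : Additive ↥V),
      (((Additive.toMul (g • w) : ↥V)) : X) = (g : X) * ((Additive.toMul w : ↥V) : X) * (g : X)⁻¹ :=
    fun g w => rfl
  have hRK' : ∀ r ∈ R.subgroupOf L, ∀ x ∈ K.subgroupOf L, r * x * r⁻¹ ∈ K.subgroupOf L := by
    intro r hr x hx
    rw [Subgroup.mem_subgroupOf] at hr hx ⊢
    exact hRK r hr x hx
  have hfpf' : ∀ r ∈ R.subgroupOf L, r ≠ 1 → ∀ x ∈ K.subgroupOf L, r * x = x * r → x = 1 := by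
    intro e he hne x hx hcomm
    rw [Subgroup.mem_subgroupOf] at he hx
    have h1 : (e : X) ≠ 1 := fun h => hne (Subtype.ext h)
    have h2 : (e : X) * (x : X) = (x : X) * (e : X) := congrArg Subtype.val hcomm
    exact Subtype.ext (hfpf e he h1 x hx h2)
  have hnil' : Group.IsNilpotent ↥(K.subgroupOf L) := by
    haveI := hnil
    exact Group.nilpotent_of_mulEquiv (Subgroup.subgroupOfEquivOfLe hKL).symm
  have hcK' : Nat.Coprime (Nat.card ↥(K.subgroupOf L)) (Nat.card (Additive ↥V)) := by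
    rw [Nat.card_congr (Subgroup.subgroupOfEquivOfLe hKL).toEquiv]; exact hcK
  have hfwd : ∀ w : Additive ↥V, w ∈ (fixS (R.subgroupOf L) : AddSubgroup (Additive ↥V)) →
      ((Additive.toMul w : ↥V) : X) ∈ V ⊓ Subgroup.centralizer (R : Set X) := by
    intro w hw
    refine ⟨(Additive.toMul w).2, Subgroup.mem_centralizer_iff.mpr ?_⟩
    intro b hb
    have h1 := hw ⟨b, hRL hb⟩ (Subgroup.mem_subgroupOf.mpr hb)
    have h2 : b * ((Additive.toMul w : ↥V) : X) * b⁻¹ = ((Additive.toMul w : ↥V) : X) := by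
      have h3 := hsm ⟨b, hRL hb⟩ w
      rw [h1] at h3
      exact h3.symm
    exact mul_inv_eq_iff_eq_mul.mp h2
  have hbwd : ∀ x : X, ∀ hx : x ∈ V ⊓ Subgroup.centralizer (R : Set X),
      Additive.ofMul (⟨x, hx.1⟩ : ↥V) ∈ (fixS (R.subgroupOf L) : AddSubgroup (Additive ↥V)) := by
    intro x hx b hb
    have hxc := (Subgroup.mem_centralizer_iff.mp hx.2) (b : X) (Subgroup.mem_subgroupOf.mp hb)
    have h3 : (((Additive.toMul (b • (Additive.ofMul (⟨x, hx.1⟩ : ↥V))) : ↥V)) : X) = x := by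
      rw [hsm]
      show (b : X) * x * (b : X)⁻¹ = x
      rw [hxc, mul_inv_cancel_right]
    exact congrArg Additive.ofMul (Subtype.ext h3)
  have hcyc' : IsAddCyclic ↥(fixS (R.subgroupOf L) : AddSubgroup (Additive ↥V)) := by
    haveI := hcyc
    obtain ⟨g, hg⟩ := IsCyclic.exists_zpow_surjective
      (G := ↥(V ⊓ Subgroup.centralizer (R : Set X)))
    refine ⟨⟨⟨Additive.ofMul (⟨(g : X), g.2.1⟩ : ↥V), hbwd g g.2⟩, fun w => ?_⟩⟩
    obtain ⟨k, hk⟩ := hg ⟨_, hfwd w w.2⟩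
    refine ⟨k, ?_⟩
    have h8 : (g : X) ^ k = ((Additive.toMul (w : Additive ↥V) : ↥V) : X) := by
      have h9 := congrArg Subtype.val hk
      rw [Subgroup.coe_zpow] at h9
      exact h9
    have h7 := hzp ⟨(g : X), g.2.1⟩ (Additive.toMul (w : Additive ↥V)) k h8
    apply Subtype.ext
    exact congrArg Additive.ofMul h7
  have hab := frob_cyc_comm (W := Additive ↥V) (K.subgroupOf L) (R.subgroupOf L) hRK' hfpf'
    hnil' hcK' hcyc'
  rw [Subgroup.commutator_le]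
  intro x hx y hy
  refine Subgroup.mem_centralizer_iff.mpr ?_
  intro v hv
  have hI := congrArg (fun w : Additive ↥V => ((Additive.toMul w : ↥V) : X))
    (hab ⟨x⁻¹, hKL (K.inv_mem hx)⟩ (Subgroup.mem_subgroupOf.mpr (K.inv_mem hx))
      ⟨y⁻¹, hKL (K.inv_mem hy)⟩ (Subgroup.mem_subgroupOf.mpr (K.inv_mem hy))
      (Additive.ofMul (⟨v, hv⟩ : ↥V)))
  have hI' : x⁻¹ * (y⁻¹ * v * y⁻¹⁻¹) * x⁻¹⁻¹ = y⁻¹ * (x⁻¹ * v * x⁻¹⁻¹) * y⁻¹⁻¹ := hI
  rw [inv_inv, inv_inv] at hI'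
  rw [commutatorElement_def]
  calc v * (x * y * x⁻¹ * y⁻¹) = x * y * (y⁻¹ * (x⁻¹ * v * x) * y) * x⁻¹ * y⁻¹ := by group
    _ = x * y * (x⁻¹ * (y⁻¹ * v * y) * x) * x⁻¹ * y⁻¹ := by rw [← hI']
    _ = (x * y * x⁻¹ * y⁻¹) * v := by group


end Cfsg.Agent.Helper10
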