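import Cfsg.Agent.Helper10.FrobCycC
import Cfsg.Agent.Helper1.Coprime

set_option autoImplicit false
set_option linter.unusedSectionVars false
set_option linter.style.haveILetI false
set_option linter.unusedVariables false

universe u

namespace Cfsg.Agent.Helper10

open scoped commutatorElement

/-- Frobenius action on a nilpotent normal subgroup `M` with cyclic `C_M(R)`: the derived
subgroup of the kernel centralizes `M`. -/
theorem frob_cyc_normal {Y : Type u} [Group Y] [Finite Y] (M K R : Subgroup Y) [hMn : M.Normal]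
    (hMnil : Group.IsNilpotent ↥M)
    (hRK : ∀ r ∈ R, ∀ x ∈ K, r * x * r⁻¹ ∈ K)
    (hfpf : ∀ r ∈ R, r ≠ 1 → ∀ x ∈ K, r * x = x * r → x = 1)
    (hnil : Group.IsNilpotent ↥K)
    (hcop : Nat.Coprime (Nat.card ↥(K ⊔ R)) (Nat.card M))
    (hcyc : IsCyclic ↥(M ⊓ Subgroup.centralizer (R : Set Y))) :
    ⁅K, K⁆ ≤ Subgroup.centralizer (M : Set Y) := by
  haveI := hMnil
  have hsolvM : Group.IsSolvable ↥M := inferInstance
  obtain ⟨Φ, hΦdef⟩ : ∃ Φ : Subgroup Y, Φ = (frattini ↥M).map M.subtype := ⟨_, rfl⟩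
  haveI hΦn : Φ.Normal := by rw [hΦdef]; infer_instance
  have hΦM : Φ ≤ M := by rw [hΦdef]; exact Subgroup.map_subtype_le _
  have hcommΦ : ∀ a ∈ M, ∀ b ∈ M, a * b * a⁻¹ * b⁻¹ ∈ Φ := by
    intro a ha b hb
    rw [hΦdef]
    exact ⟨_, nilp_comm_frattini (⟨a, ha⟩ : ↥M) ⟨b, hb⟩, rfl⟩
  have hdisj : ∀ z ∈ M, z ∈ K ⊔ R → z = 1 := by
    intro z hz hz'
    have h1 : z ∈ (K ⊔ R) ⊓ M := ⟨hz', hz⟩
    rw [(Subgroup.disjoint_of_coprime_natCard hcop).eq_bot] at h1
    exact Subgroup.mem_bot.mp h1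
  haveI hMbar : (M.map (QuotientGroup.mk' Φ)).Normal :=
    Subgroup.Normal.map hMn _ (QuotientGroup.mk'_surjective _)
  have hV : ∀ a ∈ M.map (QuotientGroup.mk' Φ), ∀ b ∈ M.map (QuotientGroup.mk' Φ),
      a * b = b * a := by
    rintro _ ⟨a, ha, rfl⟩ _ ⟨b, hb, rfl⟩
    rw [← map_mul, ← map_mul]
    show ((a * b : Y) : Y ⧸ Φ) = ((b * a : Y) : Y ⧸ Φ)
    rw [QuotientGroup.eq]
    have h1 : (a * b)⁻¹ * (b * a) = b⁻¹ * a⁻¹ * b⁻¹⁻¹ * a⁻¹⁻¹ := by group
    rw [h1]
    exact hcommΦ _ (M.inv_mem hb) _ (M.inv_mem ha)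
  have hRK' : ∀ r ∈ R.map (QuotientGroup.mk' Φ), ∀ x ∈ K.map (QuotientGroup.mk' Φ),
      r * x * r⁻¹ ∈ K.map (QuotientGroup.mk' Φ) := by
    rintro _ ⟨e, he, rfl⟩ _ ⟨x, hx, rfl⟩
    exact ⟨e * x * e⁻¹, hRK e he x hx, by rw [map_mul, map_mul, map_inv]⟩
  have hfpf' : ∀ r ∈ R.map (QuotientGroup.mk' Φ), r ≠ 1 →
      ∀ x ∈ K.map (QuotientGroup.mk' Φ), r * x = x * r → x = 1 := by
    rintro _ ⟨e, he, rfl⟩ hne _ ⟨x, hx, rfl⟩ hcomm
    rw [← map_mul, ← map_mul] at hcomm
    have h1 : (e * x)⁻¹ * (x * e) ∈ Φ := QuotientGroup.eq.mp hcomm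
    have h2 : (e * x)⁻¹ * (x * e) = x⁻¹ * (e⁻¹ * x * e⁻¹⁻¹) := by group
    have h3 : (e * x)⁻¹ * (x * e) ∈ K ⊔ R := by
      rw [h2]
      exact Subgroup.mem_sup_left (K.mul_mem (K.inv_mem hx) (hRK e⁻¹ (R.inv_mem he) x hx))
    have h4 := hdisj _ (hΦM h1) h3
    have h5 : e * x = x * e := inv_mul_eq_one.mp h4
    have he1 : e ≠ 1 := by
      intro h6; apply hne; rw [h6, map_one]
    rw [hfpf e he he1 x hx h5, map_one]
  have hnil' : Group.IsNilpotent ↥(K.map (QuotientGroup.mk' Φ)) := by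
    haveI := hnil
    exact Group.nilpotent_of_surjective ((QuotientGroup.mk' Φ).subgroupMap K)
      (MonoidHom.subgroupMap_surjective (QuotientGroup.mk' Φ) K)
  have hcK' : Nat.Coprime (Nat.card ↥(K.map (QuotientGroup.mk' Φ)))
      (Nat.card ↥(M.map (QuotientGroup.mk' Φ))) := by
    have h1 : Nat.card ↥(K.map (QuotientGroup.mk' Φ)) ∣ Nat.card ↥(K ⊔ R) :=
      (Subgroup.card_map_dvd K _).trans (Subgroup.card_dvd_of_le le_sup_left)
    have h2 : Nat.card ↥(M.map (QuotientGroup.mk' Φ)) ∣ Nat.card M :=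
      Subgroup.card_map_dvd M _
    exact Nat.Coprime.coprime_dvd_left h1 (Nat.Coprime.coprime_dvd_right h2 hcop)
  have hcR : Nat.Coprime (Nat.card R) (Nat.card M) :=
    Nat.Coprime.coprime_dvd_left (Subgroup.card_dvd_of_le le_sup_right) hcop
  have hcyc' : IsCyclic ↥(M.map (QuotientGroup.mk' Φ) ⊓ Subgroup.centralizer
      ((R.map (QuotientGroup.mk' Φ) : Subgroup (Y ⧸ Φ)) : Set (Y ⧸ Φ))) := by
    rw [← cent_map_eq Φ M hΦM R hcR hsolvM]
    haveI := hcyc
    exact isCyclic_of_surjective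
      ((QuotientGroup.mk' Φ).subgroupMap (M ⊓ Subgroup.centralizer (R : Set Y)))
      (MonoidHom.subgroupMap_surjective _ _)
  have hL : (⊤ : Subgroup (Y ⧸ Φ))
      ≤ Subgroup.normalizer ((M.map (QuotientGroup.mk' Φ) : Subgroup (Y ⧸ Φ)) : Set (Y ⧸ Φ)) := by
    rw [Subgroup.normalizer_eq_top]
  have hbar := frob_cyc_conc (M.map (QuotientGroup.mk' Φ)) ⊤ (K.map (QuotientGroup.mk' Φ))
    (R.map (QuotientGroup.mk' Φ)) hV hL le_top le_top hRK' hfpf' hnil' hcK' hcyc'
  rw [← Subgroup.map_commutator] at hbar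
  -- back to Y
  have hact : ∀ a ∈ ⁅K, K⁆, ∀ m ∈ M, m⁻¹ * a * m * a⁻¹ ∈ Φ := by
    intro a ha m hm
    have h1 := (Subgroup.mem_centralizer_iff.mp
      (hbar (Subgroup.mem_map_of_mem (QuotientGroup.mk' Φ) ha))) _
      (Subgroup.mem_map_of_mem (QuotientGroup.mk' Φ) hm)
    have h2 : (QuotientGroup.mk' Φ) (m⁻¹ * a * m * a⁻¹) = 1 := by
      rw [map_mul, map_mul, map_mul, map_inv, map_inv, mul_assoc ((QuotientGroup.mk' Φ) m)⁻¹,
        ← h1]
      group
    exact (QuotientGroup.eq_one_iff _).mp h2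
  have hKK : ⁅K, K⁆ ≤ K := by
    rw [Subgroup.commutator_le]
    intro x hx y hy
    rw [commutatorElement_def]
    exact K.mul_mem (K.mul_mem (K.mul_mem hx hy) (K.inv_mem hx)) (K.inv_mem hy)
  intro k hk
  have hzk : Subgroup.zpowers k ≤ ⁅K, K⁆ := by rw [Subgroup.zpowers_le]; exact hk
  have hAK : Subgroup.zpowers k ≤ Subgroup.normalizer (M : Set Y) := by
    rw [Subgroup.normalizer_eq_top]; exact le_top
  have hAD : Subgroup.zpowers k ≤ Subgroup.normalizer (Φ : Set Y) := by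
    rw [Subgroup.normalizer_eq_top]; exact le_top
  have hcard : (Nat.card ↥(Subgroup.zpowers k)).Coprime (Nat.card ↥M) :=
    Nat.Coprime.coprime_dvd_left
      (Subgroup.card_dvd_of_le ((hzk.trans hKK).trans le_sup_left)) hcop
  have htop : (Subgroup.centralizer (Subgroup.zpowers k : Set Y)).subgroupOf M = ⊤ := by
    apply frattini_nongenerating
    rw [eq_top_iff]
    intro q _
    obtain ⟨d, hd, hqd⟩ := Cfsg.Agent.Helper1.coprime_coset_fixed (Subgroup.zpowers k) M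
      Φ hAK hAD hΦM hcard (Or.inr hsolvM) (q : Y) q.2
      (fun a ha => hact a (hzk ha) q q.2)
    rw [hΦdef] at hd
    obtain ⟨d', hd', rfl⟩ := Subgroup.mem_map.mp hd
    have e : (q * d') * d'⁻¹ = q := by group
    rw [← e]
    refine Subgroup.mul_mem_sup ?_ (Subgroup.inv_mem _ hd')
    rw [Subgroup.mem_subgroupOf]
    exact hqd
  refine Subgroup.mem_centralizer_iff.mpr ?_
  intro m hm
  have hmem : (⟨m, hm⟩ : ↥M) ∈
      (Subgroup.centralizer (Subgroup.zpowers k : Set Y)).subgroupOf M := by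
    rw [htop]; exact Subgroup.mem_top _
  rw [Subgroup.mem_subgroupOf, Subgroup.mem_centralizer_iff] at hmem
  exact (hmem k (Subgroup.mem_zpowers k)).symm

/-- General form: `M` need not be normal in the ambient group. -/
theorem frob_cyc_gen {X : Type u} [Group X] [Finite X] (M K R : Subgroup X)
    (hKM : K ≤ Subgroup.normalizer (M : Set X)) (hRM : R ≤ Subgroup.normalizer (M : Set X))
    (hMnil : Group.IsNilpotent ↥M)
    (hRK : ∀ r ∈ R, ∀ x ∈ K, r * x * r⁻¹ ∈ K)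
    (hfpf : ∀ r ∈ R, r ≠ 1 → ∀ x ∈ K, r * x = x * r → x = 1)
    (hnil : Group.IsNilpotent ↥K)
    (hcop : Nat.Coprime (Nat.card ↥(K ⊔ R)) (Nat.card M))
    (hcyc : IsCyclic ↥(M ⊓ Subgroup.centralizer (R : Set X))) :
    ⁅K, K⁆ ≤ Subgroup.centralizer (M : Set X) := by
  have hML : M ≤ Subgroup.normalizer (M : Set X) := Subgroup.le_normalizer
  have hKRL : K ⊔ R ≤ Subgroup.normalizer (M : Set X) := sup_le hKM hRM
  haveI hnorm : (M.subgroupOf (Subgroup.normalizer (M : Set X))).Normal :=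
    Subgroup.normal_in_normalizer
  have hRK' : ∀ r ∈ R.subgroupOf (Subgroup.normalizer (M : Set X)),
      ∀ x ∈ K.subgroupOf (Subgroup.normalizer (M : Set X)),
      r * x * r⁻¹ ∈ K.subgroupOf (Subgroup.normalizer (M : Set X)) := by
    intro r hr x hx
    rw [Subgroup.mem_subgroupOf] at hr hx ⊢
    exact hRK r hr x hx
  have hfpf' : ∀ r ∈ R.subgroupOf (Subgroup.normalizer (M : Set X)), r ≠ 1 →
      ∀ x ∈ K.subgroupOf (Subgroup.normalizer (M : Set X)), r * x = x * r → x = 1 := by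
    intro e he hne x hx hcomm
    rw [Subgroup.mem_subgroupOf] at he hx
    have h1 : (e : X) ≠ 1 := fun h => hne (Subtype.ext h)
    have h2 : (e : X) * (x : X) = (x : X) * (e : X) := congrArg Subtype.val hcomm
    exact Subtype.ext (hfpf e he h1 x hx h2)
  have hnil' : Group.IsNilpotent ↥(K.subgroupOf (Subgroup.normalizer (M : Set X))) := by
    haveI := hnil
    exact Group.nilpotent_of_mulEquiv (Subgroup.subgroupOfEquivOfLe hKM).symm
  have hMnil' : Group.IsNilpotent ↥(M.subgroupOf (Subgroup.normalizer (M : Set X))) := by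
    haveI := hMnil
    exact Group.nilpotent_of_mulEquiv (Subgroup.subgroupOfEquivOfLe hML).symm
  have hcop' : Nat.Coprime
      (Nat.card ↥(K.subgroupOf (Subgroup.normalizer (M : Set X))
        ⊔ R.subgroupOf (Subgroup.normalizer (M : Set X))))
      (Nat.card ↥(M.subgroupOf (Subgroup.normalizer (M : Set X)))) := by
    rw [← Subgroup.subgroupOf_sup hKM hRM,
      Nat.card_congr (Subgroup.subgroupOfEquivOfLe hKRL).toEquiv,
      Nat.card_congr (Subgroup.subgroupOfEquivOfLe hML).toEquiv]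
    exact hcop
  have hcyc' : IsCyclic ↥(M.subgroupOf (Subgroup.normalizer (M : Set X)) ⊓ Subgroup.centralizer
      ((R.subgroupOf (Subgroup.normalizer (M : Set X)) :
        Subgroup ↥(Subgroup.normalizer (M : Set X))) :
        Set ↥(Subgroup.normalizer (M : Set X)))) := by
    haveI := hcyc
    let f : ↥(M ⊓ Subgroup.centralizer (R : Set X)) →*
        ↥(M.subgroupOf (Subgroup.normalizer (M : Set X)) ⊓ Subgroup.centralizer
          ((R.subgroupOf (Subgroup.normalizer (M : Set X)) :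
            Subgroup ↥(Subgroup.normalizer (M : Set X))) :
            Set ↥(Subgroup.normalizer (M : Set X)))) :=
      { toFun := fun x => ⟨⟨(x : X), hML x.2.1⟩, Subgroup.mem_subgroupOf.mpr x.2.1,
          Subgroup.mem_centralizer_iff.mpr (fun b hb => Subtype.ext
            ((Subgroup.mem_centralizer_iff.mp x.2.2) (b : X) (Subgroup.mem_subgroupOf.mp hb)))⟩
        map_one' := rfl
        map_mul' := fun _ _ => rfl }
    refine isCyclic_of_surjective f ?_
    intro y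
    refine ⟨⟨((y : ↥(Subgroup.normalizer (M : Set X))) : X), Subgroup.mem_subgroupOf.mp y.2.1,
      Subgroup.mem_centralizer_iff.mpr (fun b hb => ?_)⟩, rfl⟩
    have h3 := (Subgroup.mem_centralizer_iff.mp y.2.2) ⟨b, hRM hb⟩
      (Subgroup.mem_subgroupOf.mpr hb)
    exact congrArg Subtype.val h3
  have key := frob_cyc_normal (M.subgroupOf (Subgroup.normalizer (M : Set X)))
    (K.subgroupOf (Subgroup.normalizer (M : Set X)))
    (R.subgroupOf (Subgroup.normalizer (M : Set X))) hMnil' hRK' hfpf' hnil' hcop' hcyc'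
  rw [Subgroup.commutator_le]
  intro x hx y hy
  refine Subgroup.mem_centralizer_iff.mpr ?_
  intro m hm
  have h1 := key (Subgroup.commutator_mem_commutator
    (show (⟨x, hKM hx⟩ : ↥(Subgroup.normalizer (M : Set X)))
      ∈ K.subgroupOf (Subgroup.normalizer (M : Set X)) from Subgroup.mem_subgroupOf.mpr hx)
    (show (⟨y, hKM hy⟩ : ↥(Subgroup.normalizer (M : Set X)))
      ∈ K.subgroupOf (Subgroup.normalizer (M : Set X)) from Subgroup.mem_subgroupOf.mpr hy))
  have h2 := (Subgroup.mem_centralizer_iff.mp h1) ⟨m, hML hm⟩ (Subgroup.mem_subgroupOf.mpr hm)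
  exact congrArg Subtype.val h2

end Cfsg.Agent.Helper10
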