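import Cfsg.Agent.Helper10.FrobMain
import Cfsg.Agent.Helper1.FpfNil2

set_option autoImplicit false
set_option linter.unusedSectionVars false
set_option linter.style.haveILetI false
set_option linter.unusedVariables false

universe u

namespace Cfsg.Agent.Helper10

/-- the kernel of a fixed-point-free action is solvable (Thompson) -/
theorem frob_kernel_solvable {X : Type u} [Group X] [Finite X] (U E : Subgroup X) (hE1 : E ≠ ⊥)
    (hUn : ∀ e ∈ E, ∀ u ∈ U, e * u * e⁻¹ ∈ U)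
    (hfpf : ∀ e ∈ E, e ≠ 1 → ∀ u ∈ U, e * u = u * e → u = 1) : Group.IsSolvable U := by
  have hcard : Nat.card E ≠ 1 := fun h1 => hE1 (Subgroup.card_eq_one.mp h1)
  obtain ⟨r, hr, hrdvd⟩ := Nat.exists_prime_and_dvd hcard
  haveI : Fact r.Prime := ⟨hr⟩
  obtain ⟨h, hh⟩ := exists_prime_orderOf_dvd_card' r hrdvd
  have hh0 : orderOf (h : X) = r := by rw [Subgroup.orderOf_coe]; exact hh
  have hh1 : (h : X) ≠ 1 := by
    intro h1
    rw [h1, orderOf_one] at hh0
    exact hr.one_lt.ne hh0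
  have hinv : ∀ u ∈ U, (h : X)⁻¹ * u * (h : X) ∈ U := by
    intro u hu
    have h2 := hUn (h : X)⁻¹ (E.inv_mem h.2) u hu
    rw [inv_inv] at h2
    exact h2
  let φ : ↥U ≃* ↥U :=
    { toFun := fun u => ⟨(h : X) * u * (h : X)⁻¹, hUn h h.2 u u.2⟩
      invFun := fun u => ⟨(h : X)⁻¹ * u * (h : X), hinv u u.2⟩
      left_inv := fun u => Subtype.ext (by
        show (h : X)⁻¹ * ((h : X) * (u : X) * (h : X)⁻¹) * (h : X) = (u : X)
        group)
      right_inv := fun u => Subtype.ext (by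
        show (h : X) * ((h : X)⁻¹ * (u : X) * (h : X)) * (h : X)⁻¹ = (u : X)
        group)
      map_mul' := fun u v => Subtype.ext (by
        show (h : X) * ((u : X) * (v : X)) * (h : X)⁻¹
          = ((h : X) * (u : X) * (h : X)⁻¹) * ((h : X) * (v : X) * (h : X)⁻¹)
        group) }
  have hφ1 : ∀ u : ↥U, ((φ u : ↥U) : X) = (h : X) * u * (h : X)⁻¹ := fun u => rfl
  have hφpow : ∀ (k : ℕ) (u : ↥U),
      (((φ ^ k) u : ↥U) : X) = (h : X) ^ k * u * ((h : X) ^ k)⁻¹ := by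
    intro k
    induction k with
    | zero => intro u; simp
    | succ k ih =>
      intro u
      rw [pow_succ, MulAut.mul_apply, ih, hφ1, pow_succ]
      simp only [mul_inv_rev, mul_assoc]
  have hφr : φ ^ r = 1 := by
    refine MulEquiv.ext (fun u => Subtype.ext ?_)
    rw [hφpow, ← hh0, pow_orderOf_eq_one]
    simp
  have hφf : MonoidHom.FixedPointFree ((φ : ↥U ≃* ↥U) : ↥U →* ↥U) := by
    intro k hk
    have hk' : (h : X) * (k : X) * (h : X)⁻¹ = (k : X) := congrArg Subtype.val hk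
    have h4 : (h : X) * (k : X) = (k : X) * (h : X) := mul_inv_eq_iff_eq_mul.mp hk'
    exact Subtype.ext (hfpf h h.2 hh1 k k.2 h4)
  haveI : Group.IsNilpotent ↥U :=
    Cfsg.Agent.Helper1.fpf_nilpotent_aux r hr (Nat.card ↥U) ↥U rfl φ hφf hφr
  infer_instance

theorem frob_final_aux {X : Type u} [Group X] [Finite X] (U E H L : Subgroup X) (hHL : H ≤ L)
    (hUEL : U ⊔ E ≤ L) (hnorm : (H.subgroupOf L).Normal) (hsolvU : Group.IsSolvable U)
    (hUn : ∀ e ∈ E, ∀ u ∈ U, e * u * e⁻¹ ∈ U)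
    (hfpf : ∀ e ∈ E, e ≠ 1 → ∀ u ∈ U, e * u = u * e → u = 1)
    (hsolv : Group.IsSolvable H) (hcop : Nat.Coprime (Nat.card H) (Nat.card ↥(U ⊔ E))) :
    Nat.card ↥(H ⊓ Subgroup.centralizer ((U ⊔ E : Subgroup X) : Set X)) ^ Nat.card E * Nat.card H
      = Nat.card ↥(H ⊓ Subgroup.centralizer (E : Set X)) ^ Nat.card E
        * Nat.card ↥(H ⊓ Subgroup.centralizer (U : Set X)) := by
  have hUL : U ≤ L := le_sup_left.trans hUEL
  have hEL : E ≤ L := le_sup_right.trans hUEL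
  have hEU' : ∀ e ∈ E.subgroupOf L, ∀ x ∈ U.subgroupOf L, e * x * e⁻¹ ∈ U.subgroupOf L := by
    intro e he x hx
    rw [Subgroup.mem_subgroupOf] at he hx ⊢
    exact hUn e he x hx
  have hfpf' : ∀ e ∈ E.subgroupOf L, e ≠ 1 → ∀ x ∈ U.subgroupOf L, e * x = x * e → x = 1 := by
    intro e he hne x hx hcomm
    rw [Subgroup.mem_subgroupOf] at he hx
    have h1 : (e : X) ≠ 1 := fun h => hne (Subtype.ext h)
    have h2 : (e : X) * (x : X) = (x : X) * (e : X) := congrArg Subtype.val hcomm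
    exact Subtype.ext (hfpf e he h1 x hx h2)
  have hsolvU' : Group.IsSolvable ↥(U.subgroupOf L) :=
    Group.isSolvable_of_isSolvable_injective
      (f := (Subgroup.subgroupOfEquivOfLe hUL).toMonoidHom)
      (Subgroup.subgroupOfEquivOfLe hUL).injective
  have hsolvH' : Group.IsSolvable ↥(H.subgroupOf L) :=
    Group.isSolvable_of_isSolvable_injective
      (f := (Subgroup.subgroupOfEquivOfLe hHL).toMonoidHom)
      (Subgroup.subgroupOfEquivOfLe hHL).injective
  have hcardB : ∀ B : Subgroup X, B ≤ L → Nat.card ↥(B.subgroupOf L) = Nat.card ↥B :=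
    fun B hB => Nat.card_congr (Subgroup.subgroupOfEquivOfLe hB).toEquiv
  have hsup : U.subgroupOf L ⊔ E.subgroupOf L = (U ⊔ E).subgroupOf L :=
    (Subgroup.subgroupOf_sup hUL hEL).symm
  have hcop' : Nat.Coprime (Nat.card ↥(H.subgroupOf L))
      (Nat.card ↥(U.subgroupOf L ⊔ E.subgroupOf L)) := by
    rw [hsup, hcardB H hHL, hcardB (U ⊔ E) hUEL]; exact hcop
  have key := frob_main (U.subgroupOf L) (E.subgroupOf L) hEU' hfpf' hsolvU' _
    (H.subgroupOf L) hnorm rfl hsolvH' hcop'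
  have hcent : ∀ B : Subgroup X, B ≤ L →
      Nat.card ↥(H.subgroupOf L ⊓ Subgroup.centralizer ((B.subgroupOf L : Subgroup ↥L) : Set ↥L))
        = Nat.card ↥(H ⊓ Subgroup.centralizer (B : Set X)) := by
    intro B hB
    refine Nat.card_congr ⟨fun y => ⟨((y : ↥L) : X), ?_, ?_⟩,
      fun x => ⟨⟨(x : X), hHL x.2.1⟩, ?_, ?_⟩, fun y => rfl, fun x => rfl⟩
    · exact Subgroup.mem_subgroupOf.mp y.2.1
    · refine Subgroup.mem_centralizer_iff.mpr ?_
      intro b hb
      have h3 := (Subgroup.mem_centralizer_iff.mp y.2.2) ⟨b, hB hb⟩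
        (Subgroup.mem_subgroupOf.mpr hb)
      exact congrArg Subtype.val h3
    · exact Subgroup.mem_subgroupOf.mpr x.2.1
    · refine Subgroup.mem_centralizer_iff.mpr ?_
      intro b hb
      have h3 := (Subgroup.mem_centralizer_iff.mp x.2.2) (b : X) (Subgroup.mem_subgroupOf.mp hb)
      exact Subtype.ext h3
  rw [hsup, hcent (U ⊔ E) hUEL, hcent E hEL, hcent U hUL, hcardB E hEL, hcardB H hHL] at key
  exact key

/-- **Frobenius action fixed-point formula.** -/
theorem frob_final {X : Type u} [Group X] [Finite X] (U E H : Subgroup X) (hE1 : E ≠ ⊥)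
    (hUn : ∀ e ∈ E, ∀ u ∈ U, e * u * e⁻¹ ∈ U)
    (hfpf : ∀ e ∈ E, e ≠ 1 → ∀ u ∈ U, e * u = u * e → u = 1)
    (hHn : ∀ x ∈ U ⊔ E, ∀ h ∈ H, x * h * x⁻¹ ∈ H)
    (hsolv : Group.IsSolvable H) (hcop : Nat.Coprime (Nat.card H) (Nat.card ↥(U ⊔ E))) :
    Nat.card ↥(H ⊓ Subgroup.centralizer ((U ⊔ E : Subgroup X) : Set X)) ^ Nat.card E * Nat.card H
      = Nat.card ↥(H ⊓ Subgroup.centralizer (E : Set X)) ^ Nat.card E
        * Nat.card ↥(H ⊓ Subgroup.centralizer (U : Set X)) := by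
  have hsolvU := frob_kernel_solvable U E hE1 hUn hfpf
  have hUEL : U ⊔ E ≤ Subgroup.normalizer (H : Set X) := by
    intro x hx
    rw [Subgroup.mem_normalizer_iff]
    intro h
    constructor
    · exact hHn x hx h
    · intro hh
      have h1 := hHn x⁻¹ ((U ⊔ E).inv_mem hx) _ hh
      have h2 : x⁻¹ * (x * h * x⁻¹) * x⁻¹⁻¹ = h := by group
      rw [h2] at h1; exact h1
  exact frob_final_aux U E H (Subgroup.normalizer (H : Set X)) Subgroup.le_normalizer hUEL
    Subgroup.normal_in_normalizer hsolvU hUn hfpf hsolv hcop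

end Cfsg.Agent.Helper10
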