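import Cfsg.Agent.Helper10.FrobStep
import Cfsg.Agent.Helper1.Coprime

set_option autoImplicit false
set_option linter.unusedSectionVars false
set_option linter.style.haveILetI false
set_option linter.unusedVariables false

namespace Cfsg.Agent.Helper10

open scoped commutatorElement

section KL

variable {Γ : Type*} [Group Γ] [Finite Γ] {W : Type*} [AddCommGroup W] [Finite W]
  [DistribMulAction Γ W]

omit [Finite Γ] in
theorem comm_conj_mem {M : Subgroup Γ} {g : Γ} (hg : ∀ x ∈ M, g * x * g⁻¹ ∈ M) :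
    ∀ z ∈ ⁅M, M⁆, g * z * g⁻¹ ∈ ⁅M, M⁆ := by
  intro z hz
  have hle : M.map (MulAut.conj g).toMonoidHom ≤ M := by
    rintro _ ⟨x, hx, rfl⟩; exact hg x hx
  have h1 : (⁅M, M⁆).map (MulAut.conj g).toMonoidHom ≤ ⁅M, M⁆ := by
    rw [Subgroup.map_commutator]; exact Subgroup.commutator_mono hle hle
  exact h1 ⟨z, hz, rfl⟩

omit [Finite Γ] in
theorem comm_lt {M : Subgroup Γ} (hsolv : Group.IsSolvable M) (hMb : M ≠ ⊥) : ⁅M, M⁆ < M := by
  haveI : Nontrivial ↥M := (Subgroup.nontrivial_iff_ne_bot M).mpr hMb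
  have h1 := Group.IsSolvable.commutator_lt_top_of_nontrivial ↥M
  have h2 := Subgroup.map_subtype_lt_map_subtype.mpr h1
  rw [Subgroup.map_subtype_commutator, ← MonoidHom.range_eq_map, Subgroup.range_subtype] at h2
  exact h2

theorem card_lt_of_lt' {N M : Subgroup Γ} (h : N < M) : Nat.card N < Nat.card M := by
  refine lt_of_le_of_ne (Nat.le_of_dvd Nat.card_pos (Subgroup.card_dvd_of_le h.le)) ?_
  intro heq
  exact h.ne (Subgroup.eq_of_le_of_card_ge h.le heq.ge)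

theorem frob_kl (E : Subgroup Γ) :
    ∀ (n : ℕ) (M : Subgroup Γ), Nat.card M = n →
      (∀ e ∈ E, ∀ x ∈ M, e * x * e⁻¹ ∈ M) →
      (∀ e ∈ E, e ≠ 1 → ∀ x ∈ M, e * x = x * e → x = 1) →
      Group.IsSolvable M →
      Nat.Coprime (Nat.card M) (Nat.card W) →
      ∀ S : AddSubgroup W, (∀ x ∈ M, ∀ w ∈ S, x • w ∈ S) → (∀ e ∈ E, ∀ w ∈ S, e • w ∈ S) →
        (∀ w ∈ S, (∀ x ∈ M, x • w = w) → w = 0) →
        Nat.card S = Nat.card ↥(S ⊓ fixS E) ^ Nat.card E := by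
  intro n
  induction n using Nat.strong_induction_on with
  | _ n ih =>
    intro M hn hEM hfpf hsolv hcM S hSM hSE hC
    by_cases hMb : M = ⊥
    · have hSb : S = ⊥ := by
        rw [eq_bot_iff]
        intro w hw
        refine AddSubgroup.mem_bot.mpr (hC w hw (fun x hx => ?_))
        rw [hMb, Subgroup.mem_bot] at hx
        rw [hx, one_smul]
      have h1 : S ⊓ fixS E = ⊥ := by rw [hSb]; exact bot_inf_eq _
      rw [h1, hSb]; simp
    have hNlt : ⁅M, M⁆ < M := comm_lt hsolv hMb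
    have hNM : ⁅M, M⁆ ≤ M := hNlt.le
    have hlt : Nat.card ↥(⁅M, M⁆) < n := by rw [← hn]; exact card_lt_of_lt' hNlt
    have hEN : ∀ e ∈ E, ∀ z ∈ ⁅M, M⁆, e * z * e⁻¹ ∈ ⁅M, M⁆ :=
      fun e he => comm_conj_mem (hEM e he)
    have hMN : ∀ x ∈ M, ∀ z ∈ ⁅M, M⁆, x * z * x⁻¹ ∈ ⁅M, M⁆ :=
      fun x hx => comm_conj_mem (fun y hy => M.mul_mem (M.mul_mem hx hy) (M.inv_mem hx))
    have hcN : Nat.Coprime (Nat.card ↥(⁅M, M⁆)) (Nat.card W) :=
      Nat.Coprime.coprime_dvd_left (Subgroup.card_dvd_of_le hNM) hcM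
    have hsolvN : Group.IsSolvable ↥(⁅M, M⁆) :=
      Group.isSolvable_of_isSolvable_injective (Subgroup.inclusion_injective hNM)
    have hθS : ∀ w ∈ S, nu ⁅M, M⁆ w ∈ S :=
      nu_mem _ S (fun b hb w hw => hSM b (hNM hb) w hw)
    have hθθ : ∀ w : W, nu ⁅M, M⁆ (nu ⁅M, M⁆ w) = Nat.card ↥(⁅M, M⁆) • nu ⁅M, M⁆ w :=
      fun w => nu_of_fixed _ _ (nu_fixed _ w)
    have hθE : ∀ e ∈ E, ∀ w : W, e • nu ⁅M, M⁆ w = nu ⁅M, M⁆ (e • w) :=
      fun e he w => by rw [smul_nu, cj_eq_self (hEN e he)]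
    have hθM : ∀ x ∈ M, ∀ w : W, x • nu ⁅M, M⁆ w = nu ⁅M, M⁆ (x • w) :=
      fun x hx w => by rw [smul_nu, cj_eq_self (hMN x hx)]
    have hfixA : ∀ w ∈ eigS (nu ⁅M, M⁆) (Nat.card ↥(⁅M, M⁆)) S,
        w ∈ (fixS ⁅M, M⁆ : AddSubgroup W) := by
      intro w hw b hb
      have h3 := nu_fixed ⁅M, M⁆ w b hb
      rw [hw.2, smul_comm] at h3
      exact nsmul_inj_of_coprime hcN h3
    have hAM : ∀ x ∈ M, ∀ w ∈ eigS (nu ⁅M, M⁆) (Nat.card ↥(⁅M, M⁆)) S,
        x • w ∈ eigS (nu ⁅M, M⁆) (Nat.card ↥(⁅M, M⁆)) S := by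
      intro x hx w hw
      exact ⟨hSM x hx w hw.1, by rw [← hθM x hx w, hw.2, smul_comm]⟩
    have hA : Nat.card ↥(eigS (nu ⁅M, M⁆) (Nat.card ↥(⁅M, M⁆)) S)
        = Nat.card ↥(eigS (nu ⁅M, M⁆) (Nat.card ↥(⁅M, M⁆)) S ⊓ fixS E) ^ Nat.card E := by
      refine frob_step M E hEM hfpf hcM _ _ rfl hAM ?_ ?_ ?_
      · intro e he w hw
        exact ⟨hSE e he w hw.1, by rw [← hθE e he w, hw.2, smul_comm]⟩
      · intro x hx y hy w hw
        have h1 : x * y = ⁅x, y⁆ * (y * x) := by rw [commutatorElement_def]; group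
        have h2 := hfixA _ (hAM y hy _ (hAM x hx w hw)) ⁅x, y⁆
          (Subgroup.commutator_mem_commutator hx hy)
        rw [← mul_smul, h1, mul_smul, mul_smul, h2]
      · intro w hw hfix
        exact hC w hw.1 hfix
    have hB : Nat.card ↥(eigS (nu ⁅M, M⁆) 0 S)
        = Nat.card ↥(eigS (nu ⁅M, M⁆) 0 S ⊓ fixS E) ^ Nat.card E := by
      refine ih _ hlt ⁅M, M⁆ rfl hEN (fun e he hne x hx => hfpf e he hne x (hNM hx)) hsolvN hcN
        _ ?_ ?_ ?_
      · intro b hb w hw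
        exact ⟨hSM b (hNM hb) w hw.1,
          by rw [← hθM b (hNM hb) w, hw.2, zero_nsmul, zero_nsmul, smul_zero]⟩
      · intro e he w hw
        exact ⟨hSE e he w hw.1, by rw [← hθE e he w, hw.2, zero_nsmul, zero_nsmul, smul_zero]⟩
      · intro w hw hfix
        have h3 := nu_of_fixed ⁅M, M⁆ w hfix
        rw [hw.2, zero_nsmul] at h3
        exact nsmul_inj_of_coprime hcN (by rw [← h3, smul_zero])
    exact split_formula (nu ⁅M, M⁆) _ hcN E S hθS (fun w _ => hθθ w)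
      (fun e he w _ => hθE e he w) _ hA hB

theorem frob_ab_abs (U E : Subgroup Γ)
    (hEU : ∀ e ∈ E, ∀ x ∈ U, e * x * e⁻¹ ∈ U)
    (hfpf : ∀ e ∈ E, e ≠ 1 → ∀ x ∈ U, e * x = x * e → x = 1)
    (hsolv : Group.IsSolvable U)
    (hcU : Nat.Coprime (Nat.card U) (Nat.card W)) :
    Nat.card ↥(fixS (U ⊔ E) : AddSubgroup W) ^ Nat.card E * Nat.card W
      = Nat.card ↥(fixS E : AddSubgroup W) ^ Nat.card E
        * Nat.card ↥(fixS U : AddSubgroup W) := by
  have hθθ : ∀ w : W, nu U (nu U w) = Nat.card U • nu U w :=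
    fun w => nu_of_fixed U _ (nu_fixed U w)
  have hθE : ∀ e ∈ E, ∀ w : W, e • nu U w = nu U (e • w) :=
    fun e he w => by rw [smul_nu, cj_eq_self (hEU e he)]
  have hθU : ∀ x ∈ U, ∀ w : W, x • nu U w = nu U (x • w) :=
    fun x hx w => by
      rw [smul_nu, cj_eq_self (fun b hb => U.mul_mem (U.mul_mem hx hb) (U.inv_mem hx))]
  have h1 := idem_card (nu U) (Nat.card U) hcU (⊤ : AddSubgroup W)
    (fun _ _ => AddSubgroup.mem_top _) (fun w _ => hθθ w)
  have h2 := idem_card (nu U) (Nat.card U) hcU (fixS E : AddSubgroup W)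
    (fun w hw e he => by rw [hθE e he, hw e he]) (fun w _ => hθθ w)
  have hA : eigS (nu U) (Nat.card U) (⊤ : AddSubgroup W) = fixS U := by
    ext w
    constructor
    · rintro ⟨-, hw⟩ b hb
      have h3 := nu_fixed U w b hb
      rw [hw, smul_comm] at h3
      exact nsmul_inj_of_coprime hcU h3
    · intro hw
      exact ⟨AddSubgroup.mem_top _, nu_of_fixed U w hw⟩
  have hA' : eigS (nu U) (Nat.card U) (fixS E : AddSubgroup W) = fixS (U ⊔ E) := by
    ext w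
    constructor
    · rintro ⟨hwE, hw⟩
      have hwU : w ∈ (fixS U : AddSubgroup W) := by
        rw [← hA]; exact ⟨AddSubgroup.mem_top _, hw⟩
      exact fixS_sup hwU hwE
    · intro hw
      have hwU : w ∈ (fixS U : AddSubgroup W) := fun b hb => hw b (Subgroup.mem_sup_left hb)
      exact ⟨fun e he => hw e (Subgroup.mem_sup_right he), nu_of_fixed U w hwU⟩
  have hBU : ∀ x ∈ U, ∀ w ∈ eigS (nu U) 0 (⊤ : AddSubgroup W),
      x • w ∈ eigS (nu U) 0 (⊤ : AddSubgroup W) := by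
    intro x hx w hw
    exact ⟨AddSubgroup.mem_top _, by rw [← hθU x hx w, hw.2, zero_nsmul, zero_nsmul, smul_zero]⟩
  have hBE : ∀ e ∈ E, ∀ w ∈ eigS (nu U) 0 (⊤ : AddSubgroup W),
      e • w ∈ eigS (nu U) 0 (⊤ : AddSubgroup W) := by
    intro e he w hw
    exact ⟨AddSubgroup.mem_top _, by rw [← hθE e he w, hw.2, zero_nsmul, zero_nsmul, smul_zero]⟩
  have hBC : ∀ w ∈ eigS (nu U) 0 (⊤ : AddSubgroup W), (∀ x ∈ U, x • w = w) → w = 0 := by
    intro w hw hfix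
    have h3 := nu_of_fixed U w hfix
    rw [hw.2, zero_nsmul] at h3
    exact nsmul_inj_of_coprime hcU (by rw [← h3, smul_zero])
  have hB := frob_kl E (Nat.card U) U rfl hEU hfpf hsolv hcU
    (eigS (nu U) 0 (⊤ : AddSubgroup W)) hBU hBE hBC
  have hB' : eigS (nu U) 0 (fixS E : AddSubgroup W)
      = eigS (nu U) 0 (⊤ : AddSubgroup W) ⊓ fixS E := by
    rw [← eigS_inf, top_inf_eq]
  rw [hA] at h1
  rw [hA', hB'] at h2
  rw [← AddSubgroup.card_top (G := W), h1, h2, hB, mul_pow]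
  ring

end KL

end Cfsg.Agent.Helper10
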