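import Cfsg.Agent.Helper10.FrobKL

set_option autoImplicit false
set_option linter.unusedSectionVars false
set_option linter.style.haveILetI false
set_option linter.unusedVariables false

namespace Cfsg.Agent.Helper10

open scoped commutatorElement

section Prime

variable {Γ : Type*} [Group Γ] [Finite Γ] {W : Type*} [AddCommGroup W] [Finite W]
  [DistribMulAction Γ W]

omit [Finite Γ] in
/-- In a nilpotent group `K`, a proper subgroup `D` admits an element of `K` outside `D` that is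
central modulo `D`. -/
theorem nilp_central (K : Subgroup Γ) (hnil : Group.IsNilpotent ↥K) (D : Subgroup Γ)
    (hDK : D ≤ K) (hne : D ≠ K) : ∃ x ∈ K, x ∉ D ∧ ∀ k ∈ K, ⁅x, k⁆ ∈ D := by
  classical
  obtain ⟨n, hn⟩ := Subgroup.nilpotent_iff_lowerCentralSeries.mp hnil
  have hex : ∃ m, (⊤ : Subgroup ↥K).lowerCentralSeries m ≤ D.subgroupOf K :=
    ⟨n, by rw [hn]; exact bot_le⟩
  obtain ⟨m, hm, hmin⟩ : ∃ m, (⊤ : Subgroup ↥K).lowerCentralSeries m ≤ D.subgroupOf K ∧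
      ∀ j < m, ¬ (⊤ : Subgroup ↥K).lowerCentralSeries j ≤ D.subgroupOf K :=
    ⟨Nat.find hex, Nat.find_spec hex, fun j hj => Nat.find_min hex hj⟩
  have hm0 : m ≠ 0 := by
    intro h0
    rw [h0, Subgroup.lowerCentralSeries_zero] at hm
    apply hne
    apply le_antisymm hDK
    intro x hx
    have h1 := hm (Subgroup.mem_top (⟨x, hx⟩ : ↥K))
    exact Subgroup.mem_subgroupOf.mp h1
  obtain ⟨j, hj⟩ := Nat.exists_eq_succ_of_ne_zero hm0
  have hjn := hmin j (by omega)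
  obtain ⟨x, hx, hxD⟩ := SetLike.not_le_iff_exists.mp hjn
  refine ⟨(x : Γ), x.2, fun h => hxD (Subgroup.mem_subgroupOf.mpr h), ?_⟩
  intro k hk
  have h1 : ⁅x, (⟨k, hk⟩ : ↥K)⁆ ∈ (⊤ : Subgroup ↥K).lowerCentralSeries (j + 1) := by
    rw [Subgroup.lowerCentralSeries_succ]
    exact Subgroup.commutator_mem_commutator hx (Subgroup.mem_top _)
  have h2 : (⊤ : Subgroup ↥K).lowerCentralSeries (j + 1) ≤ D.subgroupOf K := by
    rw [← Nat.succ_eq_add_one, ← hj]; exact hm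
  exact Subgroup.mem_subgroupOf.mp (h2 h1)

theorem frob_prime_ab (K R : Subgroup Γ)
    (hRK : ∀ r ∈ R, ∀ x ∈ K, r * x * r⁻¹ ∈ K)
    (hfpf : ∀ r ∈ R, r ≠ 1 → ∀ x ∈ K, r * x = x * r → x = 1)
    (hnil : Group.IsNilpotent ↥K)
    (hcK : Nat.Coprime (Nat.card K) (Nat.card W))
    (ℓ : ℕ) (hℓ : ℓ.Prime)
    (S : AddSubgroup W) (hSK : ∀ x ∈ K, ∀ w ∈ S, x • w ∈ S) (hSR : ∀ r ∈ R, ∀ w ∈ S, r • w ∈ S)
    (hC : ∀ w ∈ S, (∀ x ∈ K, x • w = w) → w = 0)
    (hfix : Nat.card ↥(S ⊓ fixS R) ∣ ℓ) :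
    ∀ x ∈ K, ∀ y ∈ K, ∀ w ∈ S, x • y • w = y • x • w := by
  haveI := hnil
  have hsolvK : Group.IsSolvable ↥K := inferInstance
  by_cases hSb : S = ⊥
  · intro x hx y hy w hw
    rw [hSb] at hw
    rw [AddSubgroup.mem_bot.mp hw, smul_zero, smul_zero, smul_zero]
  have hS := frob_kl R (Nat.card K) K rfl hRK hfpf hsolvK hcK S hSK hSR hC
  have hfixℓ : Nat.card ↥(S ⊓ fixS R) = ℓ := by
    rcases (Nat.dvd_prime hℓ).mp hfix with h1 | h1
    · exfalso
      rw [h1, one_pow] at hS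
      exact hSb (AddSubgroup.card_eq_one.mp hS)
    · exact h1
  -- kernel of the action on S
  let D : Subgroup Γ :=
    { carrier := {x | x ∈ K ∧ ∀ w ∈ S, x • w = w}
      one_mem' := ⟨K.one_mem, fun w _ => one_smul _ w⟩
      mul_mem' := fun {a b} ha hb => ⟨K.mul_mem ha.1 hb.1, fun w hw => by
        rw [mul_smul, hb.2 w hw, ha.2 w hw]⟩
      inv_mem' := fun {a} ha => ⟨K.inv_mem ha.1, fun w hw => by
        rw [inv_smul_eq_iff, ha.2 w hw]⟩ }
  have hDK : D ≤ K := fun x hx => hx.1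
  have hDne : D ≠ K := by
    intro h
    apply hSb
    rw [eq_bot_iff]
    intro w hw
    refine AddSubgroup.mem_bot.mpr (hC w hw (fun x hx => ?_))
    have hxD : x ∈ D := by rw [h]; exact hx
    exact hxD.2 w hw
  obtain ⟨z₀, hz₀K, hz₀D, hz₀c⟩ := nilp_central K hnil D hDK hDne
  -- elements of K commuting with K on S
  let Z : Subgroup Γ :=
    { carrier := {x | x ∈ K ∧ ∀ k ∈ K, ∀ w ∈ S, x • k • w = k • x • w}
      one_mem' := ⟨K.one_mem, fun k _ w _ => by rw [one_smul, one_smul]⟩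
      mul_mem' := fun {a b} ha hb => ⟨K.mul_mem ha.1 hb.1, fun k hk w hw => by
        rw [mul_smul, mul_smul, hb.2 k hk w hw, ha.2 k hk _ (hSK b hb.1 w hw)]⟩
      inv_mem' := fun {a} ha => ⟨K.inv_mem ha.1, fun k hk w hw => by
        rw [inv_smul_eq_iff, ha.2 k hk _ (hSK a⁻¹ (K.inv_mem ha.1) w hw), smul_inv_smul]⟩ }
  have hZK : Z ≤ K := fun x hx => hx.1
  have hZc : ∀ z ∈ Z, ∀ k ∈ K, ∀ w ∈ S, z • k • w = k • z • w := fun z hz => hz.2
  have hz₀Z : z₀ ∈ Z := by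
    refine ⟨hz₀K, fun k hk w hw => ?_⟩
    have h1 : z₀ * k = ⁅z₀, k⁆ * (k * z₀) := by rw [commutatorElement_def]; group
    rw [← mul_smul, h1, mul_smul, mul_smul,
      (hz₀c k hk).2 _ (hSK k hk _ (hSK z₀ hz₀K w hw))]
  have hnormZ : ∀ g : Γ, (∀ k ∈ K, g * k * g⁻¹ ∈ K) → (∀ k ∈ K, g⁻¹ * k * g ∈ K) →
      (∀ w ∈ S, g⁻¹ • w ∈ S) → ∀ z ∈ Z, g * z * g⁻¹ ∈ Z := by
    intro g hg1 hg2 hg3 z hz
    refine ⟨hg1 z hz.1, fun k hk w hw => ?_⟩
    have h2 := hz.2 (g⁻¹ * k * g) (hg2 k hk) (g⁻¹ • w) (hg3 w hw)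
    have e1 : (g * z * g⁻¹) • k • w = g • (z • (g⁻¹ * k * g) • g⁻¹ • w) := by
      simp only [← mul_smul]; congr 1; group
    have e2 : k • (g * z * g⁻¹) • w = g • ((g⁻¹ * k * g) • z • g⁻¹ • w) := by
      simp only [← mul_smul]; congr 1; group
    rw [e1, e2, h2]
  have hKZ : ∀ x ∈ K, ∀ z ∈ Z, x * z * x⁻¹ ∈ Z := fun x hx =>
    hnormZ x (fun k hk => K.mul_mem (K.mul_mem hx hk) (K.inv_mem hx))
      (fun k hk => K.mul_mem (K.mul_mem (K.inv_mem hx) hk) hx)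
      (fun w hw => hSK _ (K.inv_mem hx) w hw)
  have hRZ : ∀ r ∈ R, ∀ z ∈ Z, r * z * r⁻¹ ∈ Z := fun r hr =>
    hnormZ r (hRK r hr)
      (fun k hk => by
        have h3 := hRK r⁻¹ (R.inv_mem hr) k hk
        rw [inv_inv] at h3; exact h3)
      (fun w hw => hSR _ (R.inv_mem hr) w hw)
  have hcZ : Nat.Coprime (Nat.card Z) (Nat.card W) :=
    Nat.Coprime.coprime_dvd_left (Subgroup.card_dvd_of_le hZK) hcK
  have hsolvZ : Group.IsSolvable ↥Z :=
    Group.isSolvable_of_isSolvable_injective (Subgroup.inclusion_injective hZK)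
  have hθS : ∀ w ∈ S, nu Z w ∈ S := nu_mem _ S (fun b hb w hw => hSK b (hZK hb) w hw)
  have hθθ : ∀ w : W, nu Z (nu Z w) = Nat.card ↥Z • nu Z w :=
    fun w => nu_of_fixed _ _ (nu_fixed _ w)
  have hθK : ∀ x ∈ K, ∀ w : W, x • nu Z w = nu Z (x • w) :=
    fun x hx w => by rw [smul_nu, cj_eq_self (hKZ x hx)]
  have hθR : ∀ r ∈ R, ∀ w : W, r • nu Z w = nu Z (r • w) :=
    fun r hr w => by rw [smul_nu, cj_eq_self (hRZ r hr)]
  have hsplit := idem_card (nu Z) (Nat.card ↥Z) hcZ S hθS (fun w _ => hθθ w)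
  have hsplit' := idem_card (nu Z) (Nat.card ↥Z) hcZ (S ⊓ fixS R)
    (fun w hw => ⟨hθS w hw.1, fun r hr => by rw [hθR r hr, hw.2 r hr]⟩) (fun w _ => hθθ w)
  rw [eigS_inf, eigS_inf, hfixℓ] at hsplit'
  have hA : Nat.card ↥(eigS (nu Z) (Nat.card ↥Z) S)
      = Nat.card ↥(eigS (nu Z) (Nat.card ↥Z) S ⊓ fixS R) ^ Nat.card R := by
    refine frob_kl R (Nat.card K) K rfl hRK hfpf hsolvK hcK _ ?_ ?_ ?_
    · intro x hx w hw
      exact ⟨hSK x hx w hw.1, by rw [← hθK x hx w, hw.2, smul_comm]⟩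
    · intro r hr w hw
      exact ⟨hSR r hr w hw.1, by rw [← hθR r hr w, hw.2, smul_comm]⟩
    · intro w hw hfix'
      exact hC w hw.1 hfix'
  have hB : Nat.card ↥(eigS (nu Z) 0 S)
      = Nat.card ↥(eigS (nu Z) 0 S ⊓ fixS R) ^ Nat.card R := by
    refine frob_kl R (Nat.card K) K rfl hRK hfpf hsolvK hcK _ ?_ ?_ ?_
    · intro x hx w hw
      exact ⟨hSK x hx w hw.1,
        by rw [← hθK x hx w, hw.2, zero_nsmul, zero_nsmul, smul_zero]⟩
    · intro r hr w hw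
      exact ⟨hSR r hr w hw.1,
        by rw [← hθR r hr w, hw.2, zero_nsmul, zero_nsmul, smul_zero]⟩
    · intro w hw hfix'
      exact hC w hw.1 hfix'
  -- C_S(Z) = 0
  have hCZ : ∀ w ∈ S, (∀ z ∈ Z, z • w = w) → w = 0 := by
    have hAbot : eigS (nu Z) (Nat.card ↥Z) S = ⊥ := by
      rcases (Nat.dvd_prime hℓ).mp (Dvd.intro _ hsplit'.symm) with h1 | h1
      · rw [h1, one_pow] at hA
        exact AddSubgroup.card_eq_one.mp hA
      · exfalso
        rw [h1] at hsplit'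
        have h2 : Nat.card ↥(eigS (nu Z) 0 S ⊓ fixS R) = 1 := by
          have h3 : ℓ * 1 = ℓ * Nat.card ↥(eigS (nu Z) 0 S ⊓ fixS R) := by
            rw [mul_one]; exact hsplit'
          exact (Nat.eq_of_mul_eq_mul_left hℓ.pos h3).symm
        rw [h2, one_pow] at hB
        rw [hB, mul_one] at hsplit
        have h4 : eigS (nu Z) (Nat.card ↥Z) S = S :=
          AddSubgroup.eq_of_le_of_card_ge (eigS_le _ _ _) hsplit.le
        apply hz₀D
        refine ⟨hz₀K, fun w hw => ?_⟩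
        have hw' : w ∈ eigS (nu Z) (Nat.card ↥Z) S := by rw [h4]; exact hw
        have h5 := nu_fixed Z w z₀ hz₀Z
        rw [hw'.2, smul_comm] at h5
        exact nsmul_inj_of_coprime hcZ h5
    intro w hw hfixw
    have hw' : w ∈ eigS (nu Z) (Nat.card ↥Z) S := ⟨hw, nu_of_fixed Z w hfixw⟩
    rw [hAbot] at hw'
    exact AddSubgroup.mem_bot.mp hw'
  -- a nonzero fixed point of R
  have hnt : Nontrivial ↥(S ⊓ fixS R) := by
    rw [← Finite.one_lt_card_iff_nontrivial, hfixℓ]; exact hℓ.one_lt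
  obtain ⟨c', hc'⟩ := exists_ne (0 : ↥(S ⊓ fixS R))
  obtain ⟨c, hc⟩ := c'
  have hc0 : c ≠ 0 := fun h => hc' (Subtype.ext h)
  have hcS : c ∈ S := hc.1
  have hcR : ∀ r ∈ R, r • c = c := hc.2
  -- the cyclic submodule generated by c
  obtain ⟨S', hS'def⟩ : ∃ S' : AddSubgroup W,
      S' = AddSubgroup.closure (Set.range (fun z : ↥Z => (z : Γ) • c)) := ⟨_, rfl⟩
  have hgen : ∀ z ∈ Z, z • c ∈ S' := by
    intro z hz; rw [hS'def]; exact AddSubgroup.subset_closure ⟨⟨z, hz⟩, rfl⟩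
  have hS'S : S' ≤ S := by
    rw [hS'def, AddSubgroup.closure_le]
    rintro _ ⟨z, rfl⟩
    exact hSK z (hZK z.2) c hcS
  have hcS' : c ∈ S' := by
    have h1 := hgen 1 Z.one_mem
    rw [one_smul] at h1; exact h1
  have hS'Z : ∀ z ∈ Z, ∀ w ∈ S', z • w ∈ S' := by
    intro z hz w hw
    rw [hS'def] at hw
    refine AddSubgroup.closure_induction (p := fun w _ => z • w ∈ S') ?_ ?_ ?_ ?_ hw
    · rintro _ ⟨z', rfl⟩
      rw [← mul_smul]
      exact hgen _ (Z.mul_mem hz z'.2)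
    · rw [smul_zero]; exact S'.zero_mem
    · intro a b _ _ ha hb
      rw [smul_add]; exact S'.add_mem ha hb
    · intro a _ ha
      rw [smul_neg]; exact S'.neg_mem ha
  have hS'R : ∀ r ∈ R, ∀ w ∈ S', r • w ∈ S' := by
    intro r hr w hw
    rw [hS'def] at hw
    refine AddSubgroup.closure_induction (p := fun w _ => r • w ∈ S') ?_ ?_ ?_ ?_ hw
    · rintro _ ⟨z', rfl⟩
      have e : r • (z' : Γ) • c = (r * z' * r⁻¹) • c := by
        rw [mul_smul, mul_smul, hcR r⁻¹ (R.inv_mem hr)]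
      rw [e]
      exact hgen _ (hRZ r hr z' z'.2)
    · rw [smul_zero]; exact S'.zero_mem
    · intro a b _ _ ha hb
      rw [smul_add]; exact S'.add_mem ha hb
    · intro a _ ha
      rw [smul_neg]; exact S'.neg_mem ha
  have hS' := frob_kl R (Nat.card Z) Z rfl hRZ
    (fun r hr hne x hx => hfpf r hr hne x (hZK hx)) hsolvZ hcZ S' hS'Z hS'R
    (fun w hw h => hCZ w (hS'S hw) h)
  have hS'fix : Nat.card ↥(S' ⊓ fixS R) = ℓ := by
    have hle : S' ⊓ fixS R ≤ S ⊓ fixS R := inf_le_inf_right _ hS'S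
    have hdvd := AddSubgroup.card_dvd_of_le hle
    rw [hfixℓ] at hdvd
    rcases (Nat.dvd_prime hℓ).mp hdvd with h1 | h1
    · exfalso
      have h2 := AddSubgroup.card_eq_one.mp h1
      have h3 : c ∈ S' ⊓ fixS R := ⟨hcS', hcR⟩
      rw [h2] at h3
      exact hc0 (AddSubgroup.mem_bot.mp h3)
    · exact h1
  have hS'eq : S' = S := by
    apply AddSubgroup.eq_of_le_of_card_ge hS'S
    rw [hS', hS'fix, hS, hfixℓ]
  -- commutation
  have hrep : ∀ u ∈ S', ∃ h : W →+ W, ((∀ w ∈ S, h w ∈ S) ∧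
      (∀ k ∈ K, ∀ w ∈ S, h (k • w) = k • h w) ∧
      (∀ h₂ : W →+ W, (∀ w ∈ S, h₂ w ∈ S) → (∀ k ∈ K, ∀ w ∈ S, h₂ (k • w) = k • h₂ w) →
        ∀ w ∈ S, h (h₂ w) = h₂ (h w))) ∧ h c = u := by
    intro u hu
    rw [hS'def] at hu
    refine AddSubgroup.closure_induction (p := fun u _ => ∃ h : W →+ W, ((∀ w ∈ S, h w ∈ S) ∧
      (∀ k ∈ K, ∀ w ∈ S, h (k • w) = k • h w) ∧
      (∀ h₂ : W →+ W, (∀ w ∈ S, h₂ w ∈ S) → (∀ k ∈ K, ∀ w ∈ S, h₂ (k • w) = k • h₂ w) →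
        ∀ w ∈ S, h (h₂ w) = h₂ (h w))) ∧ h c = u) ?_ ?_ ?_ ?_ hu
    · rintro _ ⟨z, rfl⟩
      exact ⟨DistribSMul.toAddMonoidHom W (z : Γ),
        ⟨fun w hw => hSK z (hZK z.2) w hw, fun k hk w hw => hZc z z.2 k hk w hw,
          fun h₂ h₂S h₂K w hw => (h₂K z (hZK z.2) w hw).symm⟩, rfl⟩
    · exact ⟨0, ⟨fun w _ => S.zero_mem, fun k _ w _ => (smul_zero k).symm,
        fun h₂ _ _ w _ => (map_zero h₂).symm⟩, rfl⟩
    · rintro a b _ _ ⟨ha, hPa, rfl⟩ ⟨hb, hPb, rfl⟩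
      refine ⟨ha + hb, ⟨fun w hw => S.add_mem (hPa.1 w hw) (hPb.1 w hw), fun k hk w hw => ?_,
        fun h₂ h₂S h₂K w hw => ?_⟩, rfl⟩
      · rw [AddMonoidHom.add_apply, AddMonoidHom.add_apply, hPa.2.1 k hk w hw,
          hPb.2.1 k hk w hw, smul_add]
      · rw [AddMonoidHom.add_apply, AddMonoidHom.add_apply, hPa.2.2 h₂ h₂S h₂K w hw,
          hPb.2.2 h₂ h₂S h₂K w hw, map_add]
    · rintro a _ ⟨ha, hPa, rfl⟩
      refine ⟨-ha, ⟨fun w hw => S.neg_mem (hPa.1 w hw), fun k hk w hw => ?_,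
        fun h₂ h₂S h₂K w hw => ?_⟩, rfl⟩
      · rw [AddMonoidHom.neg_apply, AddMonoidHom.neg_apply, hPa.2.1 k hk w hw, smul_neg]
      · rw [AddMonoidHom.neg_apply, AddMonoidHom.neg_apply, hPa.2.2 h₂ h₂S h₂K w hw, map_neg]
  intro x hx y hy w hw
  obtain ⟨h, hP, hhc⟩ := hrep (x • c) (by rw [hS'eq]; exact hSK x hx c hcS)
  obtain ⟨h', hP', hhc'⟩ := hrep (y • c) (by rw [hS'eq]; exact hSK y hy c hcS)
  have key : x • y • c = y • x • c := by
    calc x • y • c = x • h' c := by rw [hhc']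
      _ = h' (x • c) := (hP'.2.1 x hx c hcS).symm
      _ = h' (h c) := by rw [hhc]
      _ = h (h' c) := (hP.2.2 h' hP'.1 hP'.2.1 c hcS).symm
      _ = h (y • c) := by rw [hhc']
      _ = y • h c := hP.2.1 y hy c hcS
      _ = y • x • c := by rw [hhc]
  have hwS' : w ∈ S' := by rw [hS'eq]; exact hw
  rw [hS'def] at hwS'
  refine AddSubgroup.closure_induction (p := fun w _ => x • y • w = y • x • w) ?_ ?_ ?_ ?_ hwS'
  · rintro _ ⟨z, rfl⟩
    have hz := hZc z z.2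
    rw [← hz y hy c hcS, ← hz x hx _ (hSK y hy c hcS), key, hz y hy _ (hSK x hx c hcS),
      hz x hx c hcS]
  · rw [smul_zero, smul_zero, smul_zero]
  · intro a b _ _ ha hb
    rw [smul_add, smul_add, ha, hb, smul_add, smul_add]
  · intro a _ ha
    rw [smul_neg, smul_neg, ha, smul_neg, smul_neg]

theorem frob_prime_comm (K R : Subgroup Γ)
    (hRK : ∀ r ∈ R, ∀ x ∈ K, r * x * r⁻¹ ∈ K)
    (hfpf : ∀ r ∈ R, r ≠ 1 → ∀ x ∈ K, r * x = x * r → x = 1)
    (hnil : Group.IsNilpotent ↥K)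
    (hcK : Nat.Coprime (Nat.card K) (Nat.card W))
    (ℓ : ℕ) (hℓ : ℓ.Prime)
    (hfix : Nat.card ↥(fixS R : AddSubgroup W) ∣ ℓ) :
    ∀ x ∈ K, ∀ y ∈ K, ∀ w : W, x • y • w = y • x • w := by
  have hθθ : ∀ w : W, nu K (nu K w) = Nat.card ↥K • nu K w :=
    fun w => nu_of_fixed _ _ (nu_fixed _ w)
  have hθK : ∀ x ∈ K, ∀ w : W, x • nu K w = nu K (x • w) :=
    fun x hx w => by
      rw [smul_nu, cj_eq_self (fun b hb => K.mul_mem (K.mul_mem hx hb) (K.inv_mem hx))]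
  have hθR : ∀ r ∈ R, ∀ w : W, r • nu K w = nu K (r • w) :=
    fun r hr w => by rw [smul_nu, cj_eq_self (hRK r hr)]
  have hab := frob_prime_ab K R hRK hfpf hnil hcK ℓ hℓ (eigS (nu K) 0 (⊤ : AddSubgroup W))
    (fun x hx w hw => ⟨AddSubgroup.mem_top _,
      by rw [← hθK x hx w, hw.2, zero_nsmul, zero_nsmul, smul_zero]⟩)
    (fun r hr w hw => ⟨AddSubgroup.mem_top _,
      by rw [← hθR r hr w, hw.2, zero_nsmul, zero_nsmul, smul_zero]⟩)
    (fun w hw hfixw => by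
      have h3 := nu_of_fixed K w hfixw
      rw [hw.2, zero_nsmul] at h3
      exact nsmul_inj_of_coprime hcK (by rw [← h3, smul_zero]))
    ((AddSubgroup.card_dvd_of_le inf_le_right).trans hfix)
  intro x hx y hy w
  apply nsmul_inj_of_coprime hcK
  have h1 : Nat.card K • w = nu K w + (Nat.card K • w - nu K w) := by abel
  have hu : ∀ k ∈ K, k • nu K w = nu K w := nu_fixed K w
  have hv : (Nat.card K • w - nu K w) ∈ eigS (nu K) 0 (⊤ : AddSubgroup W) :=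
    ⟨AddSubgroup.mem_top _, by rw [map_sub, map_nsmul, hθθ, sub_self, zero_nsmul]⟩
  have e1 : Nat.card K • (x • y • w) = x • y • (Nat.card K • w) := by
    rw [smul_comm y (Nat.card K) w, smul_comm x (Nat.card K) (y • w)]
  have e2 : Nat.card K • (y • x • w) = y • x • (Nat.card K • w) := by
    rw [smul_comm x (Nat.card K) w, smul_comm y (Nat.card K) (x • w)]
  rw [e1, e2, h1, smul_add, smul_add, smul_add, smul_add, hab x hx y hy _ hv, hu y hy, hu x hx,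
    hu y hy]

end Prime

end Cfsg.Agent.Helper10
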