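import Cfsg.Agent.Helper10.FrobPrime

set_option autoImplicit false
set_option linter.unusedSectionVars false
set_option linter.style.haveILetI false
set_option linter.unusedVariables false

namespace Cfsg.Agent.Helper10

open scoped commutatorElement

/-- Frobenius action with `|C_V(R)|` prime (or trivial): the derived subgroup of the kernel
centralizes `V`. -/
theorem frob_prime_conc {X : Type*} [Group X] [Finite X] (V L K R : Subgroup X)
    (hV : ∀ a ∈ V, ∀ b ∈ V, a * b = b * a)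
    (hL : L ≤ Subgroup.normalizer (V : Set X)) (hKL : K ≤ L) (hRL : R ≤ L)
    (hRK : ∀ r ∈ R, ∀ x ∈ K, r * x * r⁻¹ ∈ K)
    (hfpf : ∀ r ∈ R, r ≠ 1 → ∀ x ∈ K, r * x = x * r → x = 1)
    (hnil : Group.IsNilpotent ↥K)
    (hcK : Nat.Coprime (Nat.card K) (Nat.card V))
    (ℓ : ℕ) (hℓ : ℓ.Prime)
    (hfix : Nat.card ↥(V ⊓ Subgroup.centralizer (R : Set X)) ∣ ℓ) :
    ⁅K, K⁆ ≤ Subgroup.centralizer (V : Set X) := by
  have hLV : ∀ g ∈ L, ∀ v ∈ V, g * v * g⁻¹ ∈ V :=
    fun g hg v hv => (Subgroup.mem_normalizer_iff.mp (hL hg) v).mp hv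
  let cA : ↥L → ↥V → ↥V := fun g x => ⟨(g : X) * x * (g : X)⁻¹, hLV g g.2 x x.2⟩
  have hc1 : ∀ x : ↥V, cA 1 x = x := fun x => Subtype.ext (by
    show (1 : X) * (x : X) * (1 : X)⁻¹ = (x : X)
    rw [one_mul, inv_one, mul_one])
  have hc2 : ∀ (g g' : ↥L) (x : ↥V), cA (g * g') x = cA g (cA g' x) := fun g g' x =>
    Subtype.ext (by
      show ((g : X) * (g' : X)) * (x : X) * ((g : X) * (g' : X))⁻¹
        = (g : X) * ((g' : X) * (x : X) * (g' : X)⁻¹) * (g : X)⁻¹
      group)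
  have hc3 : ∀ g : ↥L, cA g 1 = 1 := fun g => Subtype.ext (by
    show (g : X) * (1 : X) * (g : X)⁻¹ = (1 : X)
    rw [mul_one, mul_inv_cancel])
  have hc4 : ∀ (g : ↥L) (x x' : ↥V), cA g (x * x') = cA g x * cA g x' := fun g x x' =>
    Subtype.ext (by
      show (g : X) * ((x : X) * (x' : X)) * (g : X)⁻¹
        = ((g : X) * (x : X) * (g : X)⁻¹) * ((g : X) * (x' : X) * (g : X)⁻¹)
      group)
  letI : CommGroup ↥V :=
    { (inferInstance : Group ↥V) with mul_comm := fun x y => Subtype.ext (hV x x.2 y y.2) }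
  letI : DistribMulAction ↥L (Additive ↥V) :=
    { smul := fun g w => Additive.ofMul (cA g (Additive.toMul w))
      one_smul := fun w => hc1 w
      mul_smul := fun g g' w => hc2 g g' w
      smul_zero := fun g => hc3 g
      smul_add := fun g w w' => hc4 g w w' }
  have hsm : ∀ (g : ↥L) (w : Additive ↥V),
      (((Additive.toMul (g • w) : ↥V)) : X) = (g : X) * ((Additive.toMul w : ↥V) : X) * (g : X)⁻¹ :=
    fun g w => rfl
  have hRK' : ∀ r ∈ R.subgroupOf L, ∀ x ∈ K.subgroupOf L, r * x * r⁻¹ ∈ K.subgroupOf L := by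
    intro r hr x hx
    rw [Subgroup.mem_subgroupOf] at hr hx ⊢
    exact hRK r hr x hx
  have hfpf' : ∀ r ∈ R.subgroupOf L, r ≠ 1 → ∀ x ∈ K.subgroupOf L, r * x = x * r → x = 1 := by
    intro e he hne x hx hcomm
    rw [Subgroup.mem_subgroupOf] at he hx
    have h1 : (e : X) ≠ 1 := fun h => hne (Subtype.ext h)
    have h2 : (e : X) * (x : X) = (x : X) * (e : X) := congrArg Subtype.val hcomm
    exact Subtype.ext (hfpf e he h1 x hx h2)
  have hnil' : Group.IsNilpotent ↥(K.subgroupOf L) := by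
    haveI := hnil
    exact Group.nilpotent_of_mulEquiv (Subgroup.subgroupOfEquivOfLe hKL).symm
  have hcK' : Nat.Coprime (Nat.card ↥(K.subgroupOf L)) (Nat.card (Additive ↥V)) := by
    rw [Nat.card_congr (Subgroup.subgroupOfEquivOfLe hKL).toEquiv]; exact hcK
  have hfix' : Nat.card ↥(fixS (R.subgroupOf L) : AddSubgroup (Additive ↥V)) ∣ ℓ := by
    have hcard : Nat.card ↥(fixS (R.subgroupOf L) : AddSubgroup (Additive ↥V))
        = Nat.card ↥(V ⊓ Subgroup.centralizer (R : Set X)) := by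
      refine Nat.card_congr ⟨fun w => ⟨((Additive.toMul (w : Additive ↥V) : ↥V) : X),
        (Additive.toMul (w : Additive ↥V)).2, ?_⟩,
        fun x => ⟨Additive.ofMul (⟨(x : X), x.2.1⟩ : ↥V), ?_⟩, fun w => rfl, fun x => rfl⟩
      · refine Subgroup.mem_centralizer_iff.mpr ?_
        intro b hb
        have h1 := w.2 ⟨b, hRL hb⟩ (Subgroup.mem_subgroupOf.mpr hb)
        have h2 : b * ((Additive.toMul (w : Additive ↥V) : ↥V) : X) * b⁻¹
            = ((Additive.toMul (w : Additive ↥V) : ↥V) : X) := by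
          have h3 := hsm ⟨b, hRL hb⟩ (w : Additive ↥V)
          rw [h1] at h3
          exact h3.symm
        exact mul_inv_eq_iff_eq_mul.mp h2
      · intro b hb
        have hx := (Subgroup.mem_centralizer_iff.mp x.2.2) (b : X) (Subgroup.mem_subgroupOf.mp hb)
        have h3 : (((Additive.toMul (b • (Additive.ofMul (⟨(x : X), x.2.1⟩ : ↥V))) : ↥V)) : X)
            = (x : X) := by
          rw [hsm]
          show (b : X) * (x : X) * (b : X)⁻¹ = (x : X)
          rw [hx, mul_inv_cancel_right]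
        exact congrArg Additive.ofMul (Subtype.ext h3)
    rw [hcard]; exact hfix
  have hab := frob_prime_comm (W := Additive ↥V) (K.subgroupOf L) (R.subgroupOf L) hRK' hfpf'
    hnil' hcK' ℓ hℓ hfix'
  rw [Subgroup.commutator_le]
  intro x hx y hy
  refine Subgroup.mem_centralizer_iff.mpr ?_
  intro v hv
  have hI := congrArg (fun w : Additive ↥V => ((Additive.toMul w : ↥V) : X))
    (hab ⟨x⁻¹, hKL (K.inv_mem hx)⟩ (Subgroup.mem_subgroupOf.mpr (K.inv_mem hx))
      ⟨y⁻¹, hKL (K.inv_mem hy)⟩ (Subgroup.mem_subgroupOf.mpr (K.inv_mem hy))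
      (Additive.ofMul (⟨v, hv⟩ : ↥V)))
  have hI' : x⁻¹ * (y⁻¹ * v * y⁻¹⁻¹) * x⁻¹⁻¹ = y⁻¹ * (x⁻¹ * v * x⁻¹⁻¹) * y⁻¹⁻¹ := hI
  rw [inv_inv, inv_inv] at hI'
  rw [commutatorElement_def]
  calc v * (x * y * x⁻¹ * y⁻¹) = x * y * (y⁻¹ * (x⁻¹ * v * x) * y) * x⁻¹ * y⁻¹ := by group
    _ = x * y * (x⁻¹ * (y⁻¹ * v * y) * x) * x⁻¹ * y⁻¹ := by rw [← hI']
    _ = (x * y * x⁻¹ * y⁻¹) * v := by group

end Cfsg.Agent.Helper10
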