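import Mathlib

set_option autoImplicit false

namespace Cfsg.Agent.Helper10

open scoped commutatorElement

section Count

/-- If all point stabilizers of an action of a finite group on a finite set equal `T`, then the
index of `T` divides the number of points. -/
theorem index_dvd_card_of_stabilizer {Γ X : Type*} [Group Γ] [Finite Γ] [MulAction Γ X]
    [Finite X] (T : Subgroup Γ) (h : ∀ x : X, MulAction.stabilizer Γ x = T) :
    T.index ∣ Nat.card X := by
  classical
  have e := MulAction.selfEquivSigmaOrbitsQuotientStabilizer Γ X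
  haveI : Finite (Quotient (MulAction.orbitRel Γ X)) := Quotient.finite _
  haveI := Fintype.ofFinite (Quotient (MulAction.orbitRel Γ X))
  rw [Nat.card_congr e, Nat.card_sigma]
  apply Finset.dvd_sum
  intro ω _
  rw [h]
  exact dvd_refl _

/-- If every non-identity element of the normal subgroup `N` has centralizer exactly `T`, then the
index of `T` divides `|N| - 1`. -/
theorem index_dvd_card_sub_one {Q : Type*} [Group Q] [Finite Q] (N T : Subgroup Q)
    [hN : N.Normal] (h : ∀ n ∈ N, n ≠ 1 → ∀ g : Q, g * n * g⁻¹ = n ↔ g ∈ T) :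
    T.index ∣ Nat.card N - 1 := by
  classical
  haveI := Fintype.ofFinite Q
  letI : MulAction Q {n : Q // n ∈ N ∧ n ≠ 1} :=
    { smul := fun g n => ⟨g * n.1 * g⁻¹, hN.conj_mem _ n.2.1 g, fun h => n.2.2 (by
        have := congrArg (fun y => g⁻¹ * y * g) h
        simpa [mul_assoc] using this)⟩
      one_smul := fun n => Subtype.ext (by
        show 1 * n.1 * 1⁻¹ = n.1
        simp)
      mul_smul := fun g g' n => Subtype.ext (by
        show (g * g') * n.1 * (g * g')⁻¹ = g * (g' * n.1 * g'⁻¹) * g⁻¹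
        simp [mul_assoc]) }
  have hstab : ∀ x : {n : Q // n ∈ N ∧ n ≠ 1}, MulAction.stabilizer Q x = T := by
    intro x
    ext g
    rw [MulAction.mem_stabilizer_iff, ← h x.1 x.2.1 x.2.2 g]
    constructor
    · intro hg
      exact congrArg Subtype.val hg
    · intro hg
      exact Subtype.ext hg
  have hdvd : T.index ∣ Nat.card {n : Q // n ∈ N ∧ n ≠ 1} := index_dvd_card_of_stabilizer T hstab
  have hcard : Nat.card {n : Q // n ∈ N ∧ n ≠ 1} = Nat.card N - 1 := by
    rw [Nat.card_eq_fintype_card, Fintype.card_subtype, Nat.card_eq_fintype_card,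
      Fintype.card_subtype]
    have e : (Finset.univ.filter (fun n : Q => n ∈ N ∧ n ≠ 1)) =
        (Finset.univ.filter (fun n : Q => n ∈ N)).erase 1 := by
      ext n
      simp only [Finset.mem_filter, Finset.mem_univ, true_and, Finset.mem_erase]
      tauto
    rw [e, Finset.card_erase_of_mem]
    simp only [Finset.mem_filter, Finset.mem_univ, true_and]
    exact one_mem N
  rw [← hcard]
  exact hdvd

end Count

section Quot

variable {L : Type*} [Group L] [Finite L]

/-- The order of the image of `N ≥ H₁` in `L ⧸ H₁`. -/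
theorem card_map_mk (H₁ N : Subgroup L) [H₁.Normal] (hH₁N : H₁ ≤ N) :
    Nat.card (N.map (QuotientGroup.mk' H₁)) = H₁.relIndex N := by
  have h1 := Subgroup.card_mul_index (N.map (QuotientGroup.mk' H₁))
  have h2 : (N.map (QuotientGroup.mk' H₁)).index = N.index :=
    Subgroup.index_map_eq N (QuotientGroup.mk'_surjective H₁) (by
      rw [QuotientGroup.ker_mk']
      exact hH₁N)
  have h3 : Nat.card (L ⧸ H₁) = H₁.index := rfl
  have h4 := Subgroup.relIndex_mul_index hH₁N
  rw [h2, h3, ← h4] at h1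
  have h5 : N.index ≠ 0 := Subgroup.index_ne_zero_of_finite
  exact Nat.eq_of_mul_eq_mul_right (Nat.pos_of_ne_zero h5) h1

theorem mk_mem_map_iff (H₁ K : Subgroup L) [H₁.Normal] (hH₁K : H₁ ≤ K) (x : L) :
    QuotientGroup.mk' H₁ x ∈ K.map (QuotientGroup.mk' H₁) ↔ x ∈ K := by
  rw [Subgroup.mem_map]
  constructor
  · rintro ⟨k, hk, hkx⟩
    have h1 : k⁻¹ * x ∈ H₁ := QuotientGroup.eq.1 hkx
    have h2 : x = k * (k⁻¹ * x) := by group
    rw [h2]
    exact K.mul_mem hk (hH₁K h1)
  · intro hx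
    exact ⟨x, hx, rfl⟩

/-- A Frobenius-type quotient: if `K / H₁` is abelian and no element outside `K` centralizes a
non-identity element of `K / H₁`, then `[L : K]` divides `[N : H₁] - 1` for every normal subgroup
`N` of `L` between `H₁` and `K`. -/
theorem frob_dvd (K H₁ N : Subgroup L) [K.Normal] [hH₁ : H₁.Normal] [hN : N.Normal]
    (hH₁N : H₁ ≤ N) (hNK : N ≤ K) (hcomm : ⁅K, K⁆ ≤ H₁)
    (hfrob : ∀ k ∈ K, k ∉ H₁ → ∀ x : L, x * k * x⁻¹ * k⁻¹ ∈ H₁ → x ∈ K) :
    K.index ∣ H₁.relIndex N - 1 := by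
  haveI : (N.map (QuotientGroup.mk' H₁)).Normal :=
    Subgroup.Normal.map hN _ (QuotientGroup.mk'_surjective H₁)
  have hH₁K : H₁ ≤ K := hH₁N.trans hNK
  have h := index_dvd_card_sub_one (N.map (QuotientGroup.mk' H₁)) (K.map (QuotientGroup.mk' H₁))
    (by
      intro nb hnb hne g
      obtain ⟨n, hn, rfl⟩ := Subgroup.mem_map.1 hnb
      obtain ⟨x, rfl⟩ := QuotientGroup.mk'_surjective H₁ g
      have hnH : n ∉ H₁ := fun h => hne ((QuotientGroup.eq_one_iff n).2 h)
      rw [mk_mem_map_iff H₁ K hH₁K]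
      have key : QuotientGroup.mk' H₁ x * QuotientGroup.mk' H₁ n * (QuotientGroup.mk' H₁ x)⁻¹ =
          QuotientGroup.mk' H₁ n ↔ x * n * x⁻¹ * n⁻¹ ∈ H₁ := by
        rw [← QuotientGroup.eq_one_iff (N := H₁)]
        simp only [QuotientGroup.mk'_apply, QuotientGroup.mk_mul, QuotientGroup.mk_inv]
        exact mul_inv_eq_one.symm
      rw [key]
      constructor
      · intro hx
        exact hfrob n (hNK hn) hnH x hx
      · intro hx
        have := Subgroup.commutator_mem_commutator hx (hNK hn)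
        rw [commutatorElement_def] at this
        exact hcomm this)
  rw [card_map_mk H₁ N hH₁N, Subgroup.index_map_eq K (QuotientGroup.mk'_surjective H₁) (by
    rw [QuotientGroup.ker_mk']
    exact hH₁K)] at h
  exact h

/-- If `[K : H₁]` is not a prime power (`K / H₁` abelian, `H₁ < K`), there is a normal subgroup
of `L` strictly between `H₁` and `K`. -/
theorem exists_normal_between (K H₁ : Subgroup L) [hK : K.Normal] [hH₁ : H₁.Normal]
    (hH₁K : H₁ < K) (hcomm : ⁅K, K⁆ ≤ H₁)
    (hnpp : ¬ ∃ p j : ℕ, p.Prime ∧ H₁.relIndex K = p ^ j) :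
    ∃ N : Subgroup L, N.Normal ∧ H₁ < N ∧ N < K := by
  classical
  have hne1 : H₁.relIndex K ≠ 1 := by
    intro h
    exact not_le_of_gt hH₁K (Subgroup.relIndex_eq_one.1 h)
  obtain ⟨p, hp, hpdvd⟩ := Nat.exists_prime_and_dvd hne1
  haveI : Fact p.Prime := ⟨hp⟩
  obtain ⟨Kb, hKb⟩ : ∃ Kb : Subgroup (L ⧸ H₁), Kb = K.map (QuotientGroup.mk' H₁) := ⟨_, rfl⟩
  have hKbmem : ∀ y, y ∈ Kb ↔ y ∈ K.map (QuotientGroup.mk' H₁) := fun y => by rw [hKb]
  have hKbn : Kb.Normal := by
    rw [hKb]
    exact Subgroup.Normal.map hK _ (QuotientGroup.mk'_surjective H₁)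
  have hKbcard : Nat.card Kb = H₁.relIndex K := by
    rw [hKb]
    exact card_map_mk H₁ K hH₁K.le
  have hKbcomm : ∀ a ∈ Kb, ∀ b ∈ Kb, Commute a b := by
    intro a ha b hb
    rw [hKb] at ha hb
    obtain ⟨x, hx, rfl⟩ := Subgroup.mem_map.1 ha
    obtain ⟨y, hy, rfl⟩ := Subgroup.mem_map.1 hb
    rw [← commutatorElement_eq_one_iff_commute, ← map_commutatorElement]
    exact (QuotientGroup.eq_one_iff _).2 (hcomm (Subgroup.commutator_mem_commutator hx hy))
  obtain ⟨m, hm⟩ : ∃ m : ℕ, m = p ^ Nat.card (L ⧸ H₁) := ⟨_, rfl⟩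
  let Np : Subgroup (L ⧸ H₁) :=
    { carrier := {q | q ∈ Kb ∧ q ^ m = 1}
      mul_mem' := by
        rintro a b ⟨ha, ha'⟩ ⟨hb, hb'⟩
        refine ⟨Kb.mul_mem ha hb, ?_⟩
        rw [(hKbcomm a ha b hb).mul_pow, ha', hb', one_mul]
      one_mem' := ⟨Kb.one_mem, one_pow _⟩
      inv_mem' := by
        rintro a ⟨ha, ha'⟩
        exact ⟨Kb.inv_mem ha, by rw [inv_pow, ha', inv_one]⟩ }
  have hNpmem : ∀ q, q ∈ Np ↔ q ∈ Kb ∧ q ^ m = 1 := fun q => Iff.rfl
  have hNpn : Np.Normal := by
    refine ⟨fun q hq g => ?_⟩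
    rw [hNpmem] at hq ⊢
    refine ⟨hKbn.conj_mem q hq.1 g, ?_⟩
    rw [conj_pow, hq.2]
    simp
  refine ⟨Np.comap (QuotientGroup.mk' H₁), Subgroup.Normal.comap hNpn _, ?_, ?_⟩
  · -- strictly above H₁: Cauchy
    have hle : H₁ ≤ Np.comap (QuotientGroup.mk' H₁) := by
      intro x hx
      rw [Subgroup.mem_comap]
      have : QuotientGroup.mk' H₁ x = 1 := (QuotientGroup.eq_one_iff x).2 hx
      rw [this]
      exact Np.one_mem
    refine lt_of_le_of_ne hle ?_
    intro heq
    rw [← hKbcard] at hpdvd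
    obtain ⟨q, hq⟩ := exists_prime_orderOf_dvd_card' p hpdvd
    have hq1 : (q : L ⧸ H₁) ≠ 1 := by
      intro h
      have : q = 1 := Subtype.ext h
      rw [this, orderOf_one] at hq
      exact hp.ne_one hq.symm
    have hqm : (q : L ⧸ H₁) ^ m = 1 := by
      have h1 : q ^ p = 1 := by rw [← hq]; exact pow_orderOf_eq_one q
      have h2 : (q : L ⧸ H₁) ^ p = 1 := by
        rw [← Subgroup.coe_pow, h1]; rfl
      have hc : 0 < Nat.card (L ⧸ H₁) := Nat.card_pos
      obtain ⟨c, hc'⟩ : ∃ c, Nat.card (L ⧸ H₁) = c + 1 := ⟨Nat.card (L ⧸ H₁) - 1, by omega⟩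
      rw [hm, hc', pow_succ', pow_mul, h2, one_pow]
    obtain ⟨x, hx⟩ := QuotientGroup.mk'_surjective H₁ (q : L ⧸ H₁)
    have hxN : x ∈ Np.comap (QuotientGroup.mk' H₁) := by
      rw [Subgroup.mem_comap, hx, hNpmem]
      exact ⟨q.2, hqm⟩
    rw [← heq] at hxN
    apply hq1
    rw [← hx]
    exact (QuotientGroup.eq_one_iff x).2 hxN
  · -- strictly below K
    have hle : Np.comap (QuotientGroup.mk' H₁) ≤ K := by
      intro x hx
      rw [Subgroup.mem_comap, hNpmem, hKb] at hx
      exact (mk_mem_map_iff H₁ K hH₁K.le x).1 hx.1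
    refine lt_of_le_of_ne hle ?_
    intro heq
    apply hnpp
    have hpg : IsPGroup p Kb := by
      intro q
      refine ⟨Nat.card (L ⧸ H₁), ?_⟩
      have hqK : (q : L ⧸ H₁) ∈ K.map (QuotientGroup.mk' H₁) := (hKbmem _).1 q.2
      obtain ⟨x, hx, hxq⟩ := Subgroup.mem_map.1 hqK
      rw [← heq, Subgroup.mem_comap, hNpmem, hxq] at hx
      apply Subtype.ext
      rw [Subgroup.coe_pow, ← hm, hx.2]
      rfl
    obtain ⟨j, hj⟩ := IsPGroup.iff_card.1 hpg
    exact ⟨p, j, hp, by rw [← hKbcard, hj]⟩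

end Quot

section Nilp

variable {Q : Type*} [Group Q] [Finite Q]

/-- In a finite nilpotent group, a subgroup that together with the commutator subgroup generates
the group is the whole group. -/
theorem eq_top_of_sup_commutator (hnil : Group.IsNilpotent Q) (X : Subgroup Q)
    (h : X ⊔ commutator Q = ⊤) : X = ⊤ := by
  by_contra hX
  obtain ⟨Y, hY, hXY⟩ := (eq_top_or_exists_le_coatom X).resolve_left hX
  haveI := hnil
  haveI hYn : Y.Normal :=
    Subgroup.NormalizerCondition.normal_of_coatom Y Group.normalizerCondition_of_isNilpotent hY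
  haveI : Nontrivial (Q ⧸ Y) := by
    obtain ⟨g, -, hg⟩ := SetLike.exists_of_lt (lt_top_iff_ne_top.2 hY.1)
    refine ⟨⟨QuotientGroup.mk g, 1, ?_⟩⟩
    rw [Ne, QuotientGroup.eq_one_iff]
    exact hg
  have hlt := Group.IsSolvable.commutator_lt_top_of_nontrivial (Q ⧸ Y)
  have hZne : (commutator (Q ⧸ Y)).comap (QuotientGroup.mk' Y) ≠ ⊤ := by
    intro htop
    have h1 : (commutator (Q ⧸ Y)).comap (QuotientGroup.mk' Y) =
        (⊤ : Subgroup (Q ⧸ Y)).comap (QuotientGroup.mk' Y) := by
      rw [htop, Subgroup.comap_top]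
    exact hlt.ne (Subgroup.comap_injective (QuotientGroup.mk'_surjective Y) h1)
  have hYZ : Y ≤ (commutator (Q ⧸ Y)).comap (QuotientGroup.mk' Y) := by
    intro y hy
    rw [Subgroup.mem_comap]
    have : QuotientGroup.mk' Y y = 1 := (QuotientGroup.eq_one_iff y).2 hy
    rw [this]
    exact one_mem _
  have hZY := (hY.le_iff_eq hZne).1 hYZ
  have hcomm : commutator Q ≤ Y := by
    rw [← hZY, commutator_def, Subgroup.commutator_le]
    intro a _ b _
    rw [Subgroup.mem_comap, map_commutatorElement]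
    exact Subgroup.commutator_mem_commutator (Subgroup.mem_top _) (Subgroup.mem_top _)
  have : (⊤ : Subgroup Q) ≤ Y := by
    rw [← h]
    exact sup_le hXY hcomm
  exact hY.1 (top_le_iff.1 this)

/-- A finite nilpotent group whose abelianization has prime power order is a `p`-group. -/
theorem card_eq_prime_pow_of_commutator_index (hnil : Group.IsNilpotent Q) (p m : ℕ)
    (hp : p.Prime) (h : (commutator Q).index = p ^ m) : ∃ k, Nat.card Q = p ^ k := by
  haveI : Fact p.Prime := ⟨hp⟩
  obtain ⟨P⟩ : Nonempty (Sylow p Q) := inferInstance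
  have h1 : ((P : Subgroup Q) ⊔ commutator Q).index ∣ (P : Subgroup Q).index :=
    Subgroup.index_dvd_of_le le_sup_left
  have h2 : ((P : Subgroup Q) ⊔ commutator Q).index ∣ p ^ m := by
    rw [← h]
    exact Subgroup.index_dvd_of_le le_sup_right
  have h3 : ((P : Subgroup Q) ⊔ commutator Q).index = 1 := by
    obtain ⟨k, -, hk⟩ := (Nat.dvd_prime_pow hp).1 h2
    rcases Nat.eq_zero_or_pos k with h0 | hpos
    · rw [hk, h0, pow_zero]
    · exfalso
      apply P.not_dvd_index
      refine dvd_trans ?_ h1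
      rw [hk]
      exact dvd_pow_self p hpos.ne'
  have h4 : (P : Subgroup Q) = ⊤ :=
    eq_top_of_sup_commutator hnil _ (Subgroup.index_eq_one.1 h3)
  obtain ⟨k, hk⟩ := IsPGroup.iff_card.1 P.isPGroup'
  refine ⟨k, ?_⟩
  rw [← hk, h4, Subgroup.card_top]

/-- A finite nilpotent group whose abelianization has prime order is abelian. -/
theorem commutator_eq_bot_of_index_prime (hnil : Group.IsNilpotent Q) (p : ℕ) (hp : p.Prime)
    (h : (commutator Q).index = p) : commutator Q = ⊥ := by
  have hne : commutator Q ≠ ⊤ := by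
    intro htop
    rw [htop, Subgroup.index_top] at h
    exact hp.ne_one h.symm
  obtain ⟨g, -, hg⟩ := SetLike.exists_of_lt (lt_top_iff_ne_top.2 hne)
  have h1 := Subgroup.relIndex_mul_index (le_sup_right : commutator Q ≤
    Subgroup.zpowers g ⊔ commutator Q)
  rw [h] at h1
  have h2 : (commutator Q).relIndex (Subgroup.zpowers g ⊔ commutator Q) ≠ 1 := by
    intro h3
    have := Subgroup.relIndex_eq_one.1 h3
    exact hg (this (le_sup_left (a := Subgroup.zpowers g) (Subgroup.mem_zpowers g)))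
  have h3 : (Subgroup.zpowers g ⊔ commutator Q).index = 1 := by
    have hd : (commutator Q).relIndex (Subgroup.zpowers g ⊔ commutator Q) ∣ p :=
      Dvd.intro _ h1
    rcases (Nat.dvd_prime hp).1 hd with h4 | h4
    · exact absurd h4 h2
    · rw [h4] at h1
      have hp0 : 0 < p := hp.pos
      nlinarith
  have h4 : Subgroup.zpowers g = ⊤ :=
    eq_top_of_sup_commutator hnil _ (Subgroup.index_eq_one.1 h3)
  rw [eq_bot_iff, commutator_def, Subgroup.commutator_le]
  intro a _ b _
  rw [Subgroup.mem_bot, commutatorElement_eq_one_iff_commute]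
  have ha : a ∈ Subgroup.zpowers g := by rw [h4]; trivial
  have hb : b ∈ Subgroup.zpowers g := by rw [h4]; trivial
  obtain ⟨i, rfl⟩ := Subgroup.mem_zpowers_iff.1 ha
  obtain ⟨j, rfl⟩ := Subgroup.mem_zpowers_iff.1 hb
  exact zpow_mul_comm g i j

end Nilp

section QuotK

variable {L : Type*} [Group L] [Finite L]

theorem commutator_subgroupOf_self (K : Subgroup L) :
    (⁅K, K⁆).subgroupOf K = commutator K := by
  apply Subgroup.map_injective K.subtype_injective
  rw [Subgroup.map_subgroupOf_eq_of_le (Subgroup.commutator_le_self K), commutator_def,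
    Subgroup.map_commutator, ← MonoidHom.range_eq_map, Subgroup.range_subtype]

/-- The index of the commutator subgroup of `K / M`. -/
theorem commutator_quot_index (K M : Subgroup L) (hMK : M ≤ K) [hn : (M.subgroupOf K).Normal] :
    (commutator (K ⧸ M.subgroupOf K)).index = (⁅K, K⁆ ⊔ M).relIndex K := by
  have hsurj := QuotientGroup.mk'_surjective (M.subgroupOf K)
  have h1 : commutator (K ⧸ M.subgroupOf K) =
      (commutator K).map (QuotientGroup.mk' (M.subgroupOf K)) := by
    rw [commutator_def, commutator_def, Subgroup.map_commutator,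
      Subgroup.map_top_of_surjective _ hsurj]
  rw [h1, Subgroup.index_map, QuotientGroup.ker_mk', MonoidHom.range_eq_top.2 hsurj,
    Subgroup.index_top, mul_one]
  show _ = ((⁅K, K⁆ ⊔ M).subgroupOf K).index
  rw [Subgroup.subgroupOf_sup (Subgroup.commutator_le_self K) hMK, commutator_subgroupOf_self]

theorem commutator_le_of_quot_commutator_eq_bot (K M : Subgroup L)
    [hn : (M.subgroupOf K).Normal] (h : commutator (K ⧸ M.subgroupOf K) = ⊥) : ⁅K, K⁆ ≤ M := by
  rw [Subgroup.commutator_le]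
  intro a ha b hb
  have h1 : QuotientGroup.mk' (M.subgroupOf K) ⁅(⟨a, ha⟩ : K), ⟨b, hb⟩⁆ ∈
      commutator (K ⧸ M.subgroupOf K) := by
    rw [map_commutatorElement, commutator_def]
    exact Subgroup.commutator_mem_commutator (Subgroup.mem_top _) (Subgroup.mem_top _)
  rw [h, Subgroup.mem_bot] at h1
  exact Subgroup.mem_subgroupOf.1 ((QuotientGroup.eq_one_iff _).1 h1)

end QuotK

section Arith

theorem two_mul_add_one_le_of_dvd (e a : ℕ) (he : Odd e) (ha : Odd a) (ha1 : 1 < a)
    (h : e ∣ a - 1) : 2 * e + 1 ≤ a := by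
  obtain ⟨s, hs⟩ := h
  have ha' : a = e * s + 1 := by omega
  have hev : Even (e * s) := by
    rw [ha'] at ha
    by_contra hcon
    rw [Nat.not_even_iff_odd] at hcon
    have := Odd.add_odd hcon odd_one
    exact (Nat.not_even_iff_odd.2 ha) this
  have hs_even : Even s := by
    rcases Nat.even_mul.1 hev with h | h
    · exact absurd h (Nat.not_even_iff_odd.2 he)
    · exact h
  obtain ⟨r, hr⟩ := hs_even
  have hr1 : 1 ≤ r := by
    by_contra hcon
    have : r = 0 := by omega
    rw [this] at hr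
    rw [hr] at ha'
    omega
  have : e * 2 ≤ e * s := Nat.mul_le_mul_left e (by omega)
  omega

theorem frob_arith (e a b : ℕ) (he : Odd e) (ha : Odd a) (hb : Odd b) (ha1 : 1 < a)
    (hb1 : 1 < b) (h1 : e ∣ a - 1) (h2 : e ∣ a * b - 1) : 4 * e ^ 2 + 1 < a * b := by
  have hcop : Nat.Coprime e a := by
    have hg1 : Nat.gcd e a ∣ a - 1 := dvd_trans (Nat.gcd_dvd_left e a) h1
    have hg2 : Nat.gcd e a ∣ a := Nat.gcd_dvd_right e a
    have hg3 : Nat.gcd e a ∣ 1 := by
      have := (Nat.dvd_sub hg2 hg1)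
      have e1 : a - (a - 1) = 1 := by omega
      rwa [e1] at this
    exact Nat.dvd_one.1 hg3
  have hb' : e ∣ b - 1 := by
    have e1 : a * b - 1 = a * (b - 1) + (a - 1) := by
      obtain ⟨b', rfl⟩ : ∃ b', b = b' + 1 := ⟨b - 1, by omega⟩
      have : a * (b' + 1) = a * b' + a := by ring
      simp only [Nat.add_sub_cancel]
      omega
    rw [e1] at h2
    have h3 : e ∣ a * (b - 1) := (Nat.dvd_add_left h1).1 h2
    exact hcop.dvd_of_dvd_mul_left h3
  have hA := two_mul_add_one_le_of_dvd e a he ha ha1 h1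
  have hB := two_mul_add_one_le_of_dvd e b he hb hb1 hb'
  nlinarith [Nat.mul_le_mul hA hB]

theorem prime_pow_arith (e p j : ℕ) (hp : p.Prime) (he : Odd e) (hpo : Odd p)
    (hdvd : e ∣ p - 1) (hle : p ^ j ≤ 4 * e ^ 2 + 1) : j ≤ 1 := by
  have hp2 : 2 ≤ p := hp.two_le
  have hev : 2 ∣ p - 1 := by
    obtain ⟨r, hr⟩ := hpo
    exact ⟨r, by omega⟩
  have hcop : Nat.Coprime 2 e := by
    rw [Nat.coprime_two_left]
    exact he
  have h2e : 2 * e ∣ p - 1 := hcop.mul_dvd_of_dvd_of_dvd hev hdvd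
  have hle2 : 2 * e ≤ p - 1 := Nat.le_of_dvd (by omega) h2e
  have hlt : 4 * e ^ 2 + 1 < p ^ 2 := by
    obtain ⟨p', rfl⟩ : ∃ p', p = p' + 1 := ⟨p - 1, by omega⟩
    simp only [Nat.add_sub_cancel] at hle2
    nlinarith
  have : p ^ j < p ^ 2 := lt_of_le_of_lt hle hlt
  have := (Nat.pow_lt_pow_iff_right hp.one_lt).1 this
  omega

end Arith

end Cfsg.Agent.Helper10
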