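import Cfsg.Agent.Helper10.FrobVdm

set_option autoImplicit false
set_option linter.unusedSectionVars false
set_option linter.style.haveILetI false
set_option linter.unusedVariables false

namespace Cfsg.Agent.Helper10

section Step

variable {Γ : Type*} [Group Γ] [Finite Γ] {W : Type*} [AddCommGroup W] [Finite W]
  [DistribMulAction Γ W]

theorem frob_atomic_rel (T : AddSubgroup W) (G₀ : Subgroup Γ) (a : Γ)
    (hT : ∀ g ∈ G₀, ∀ t ∈ T, g • t ∈ T)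
    (haT : ∀ g ∈ G₀, ∀ t ∈ T, (g * a * g⁻¹) • t ∈ T)
    (hcomm : ∀ g ∈ G₀, ∀ g' ∈ G₀, ∀ t ∈ T,
      (g * a * g⁻¹) • (g' * a * g'⁻¹) • t = (g' * a * g'⁻¹) • (g * a * g⁻¹) • t)
    (hinj : ∀ g ∈ G₀, ∀ g' ∈ G₀, g ≠ g' → ∀ t ∈ T,
      (g * a * g⁻¹) • t = (g' * a * g'⁻¹) • t → t = 0) :
    Nat.card ↥T = Nat.card ↥(T ⊓ fixS G₀) ^ Nat.card ↥G₀ := by
  letI : DistribMulAction ↥G₀ ↥T :=
    { smul := fun g t => ⟨(g : Γ) • (t : W), hT g g.2 t t.2⟩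
      one_smul := fun t => Subtype.ext (one_smul Γ (t : W))
      mul_smul := fun g g' t => Subtype.ext (mul_smul (g : Γ) (g' : Γ) (t : W))
      smul_zero := fun g => Subtype.ext (smul_zero (g : Γ))
      smul_add := fun g t t' => Subtype.ext (smul_add (g : Γ) (t : W) (t' : W)) }
  let y : ↥G₀ → AddMonoid.End ↥T := fun g =>
    { toFun := fun t => ⟨((g : Γ) * a * (g : Γ)⁻¹) • (t : W), haT g g.2 t t.2⟩
      map_zero' := Subtype.ext (smul_zero _)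
      map_add' := fun t t' => Subtype.ext (smul_add _ (t : W) (t' : W)) }
  have hc : ∀ g g' : ↥G₀, Commute (y g) (y g') := by
    intro g g'
    show y g * y g' = y g' * y g
    apply AddMonoidHom.ext
    intro t
    apply Subtype.ext
    exact hcomm g g.2 g' g'.2 t t.2
  have hi : ∀ g g' : ↥G₀, g ≠ g' → ∀ t, y g t = y g' t → t = 0 := by
    intro g g' hgg t ht
    have h1 : ((g : Γ) * a * (g : Γ)⁻¹) • (t : W) = ((g' : Γ) * a * (g' : Γ)⁻¹) • (t : W) :=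
      congrArg Subtype.val ht
    have hne : (g : Γ) ≠ (g' : Γ) := fun h => hgg (Subtype.ext h)
    exact Subtype.ext (hinj g g.2 g' g'.2 hne t t.2 h1)
  have he : ∀ (g b : ↥G₀) (t : ↥T), g • (y b t) = y (g * b) (g • t) := by
    intro g b t
    apply Subtype.ext
    show (g : Γ) • ((b : Γ) * a * (b : Γ)⁻¹) • (t : W)
      = (((g : Γ) * (b : Γ)) * a * ((g : Γ) * (b : Γ))⁻¹) • (g : Γ) • (t : W)
    rw [← mul_smul, ← mul_smul]
    congr 1
    group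
  rw [frob_atomic y hc hi he]
  congr 1
  refine Nat.card_congr ⟨fun t => ⟨(t.1 : W), t.1.2, fun b hb => ?_⟩,
    fun t => ⟨⟨t.1, t.2.1⟩, fun g => ?_⟩, fun t => rfl, fun t => rfl⟩
  · exact congrArg Subtype.val (t.2 ⟨b, hb⟩)
  · exact Subtype.ext (t.2.2 g g.2)

theorem split_formula (θ : W →+ W) (q : ℕ) (hq : Nat.Coprime q (Nat.card W)) (E : Subgroup Γ)
    (S : AddSubgroup W) (hS : ∀ w ∈ S, θ w ∈ S) (hθ : ∀ w ∈ S, θ (θ w) = q • θ w)
    (hE : ∀ e ∈ E, ∀ w ∈ S, e • θ w = θ (e • w)) (k : ℕ)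
    (h1 : Nat.card ↥(eigS θ q S) = Nat.card ↥(eigS θ q S ⊓ fixS E) ^ k)
    (h0 : Nat.card ↥(eigS θ 0 S) = Nat.card ↥(eigS θ 0 S ⊓ fixS E) ^ k) :
    Nat.card ↥S = Nat.card ↥(S ⊓ fixS E) ^ k := by
  have hS' : ∀ w ∈ S ⊓ fixS E, θ w ∈ S ⊓ fixS E := by
    rintro w ⟨hw, hwE⟩
    refine ⟨hS w hw, fun e he => ?_⟩
    rw [hE e he w hw, hwE e he]
  have hθ' : ∀ w ∈ S ⊓ fixS E, θ (θ w) = q • θ w := fun w hw => hθ w hw.1
  rw [idem_card θ q hq S hS hθ, idem_card θ q hq (S ⊓ fixS E) hS' hθ', eigS_inf, eigS_inf,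
    h1, h0, mul_pow]

structure StepCtx (M E : Subgroup Γ) (S : AddSubgroup W) (B₀ : Subgroup Γ) : Prop where
  hEM : ∀ e ∈ E, ∀ x ∈ M, e * x * e⁻¹ ∈ M
  hfpf : ∀ e ∈ E, e ≠ 1 → ∀ x ∈ M, e * x = x * e → x = 1
  hcM : Nat.Coprime (Nat.card M) (Nat.card W)
  hSM : ∀ x ∈ M, ∀ w ∈ S, x • w ∈ S
  hSE : ∀ e ∈ E, ∀ w ∈ S, e • w ∈ S
  hab : ∀ x ∈ M, ∀ y ∈ M, ∀ w ∈ S, x • y • w = y • x • w
  hB : B₀ ≤ M
  hfree : ∀ x ∈ M, x ∉ B₀ → ∀ t ∈ S ⊓ fixS B₀, x • t = t → t = 0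

/-- elements of `E` normalizing `B₀` -/
def nstab (E B₀ : Subgroup Γ) : Subgroup Γ where
  carrier := {g | g ∈ E ∧ cj g B₀ = B₀}
  one_mem' := ⟨E.one_mem, cj_one B₀⟩
  mul_mem' := fun {a b} ha hb => ⟨E.mul_mem ha.1 hb.1, by rw [cj_mul, hb.2, ha.2]⟩
  inv_mem' := fun {a} ha => ⟨E.inv_mem ha.1, by
    have : cj a⁻¹ B₀ = cj a⁻¹ (cj a B₀) := by rw [ha.2]
    rw [this, ← cj_mul, inv_mul_cancel, cj_one]⟩

theorem nstab_le (E B₀ : Subgroup Γ) : nstab E B₀ ≤ E := fun _ h => h.1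

/-- representative (in `Γ`) of a coset -/
noncomputable def rep {E B₀ : Subgroup Γ} (q : ↥E ⧸ (nstab E B₀).subgroupOf E) : Γ :=
  ((Quotient.out q : ↥E) : Γ)

theorem rep_mem {E B₀ : Subgroup Γ} (q : ↥E ⧸ (nstab E B₀).subgroupOf E) : rep q ∈ E :=
  (Quotient.out q : ↥E).2

theorem rep_mk {E B₀ : Subgroup Γ} (e : ↥E) :
    (rep (QuotientGroup.mk e : ↥E ⧸ (nstab E B₀).subgroupOf E))⁻¹ * (e : Γ) ∈ nstab E B₀ := by
  have h1 : ((Quotient.out (QuotientGroup.mk e : ↥E ⧸ (nstab E B₀).subgroupOf E) : ↥E) :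
      ↥E ⧸ (nstab E B₀).subgroupOf E) = (e : ↥E ⧸ (nstab E B₀).subgroupOf E) :=
    QuotientGroup.out_eq' _
  have h2 := QuotientGroup.eq.mp h1
  exact Subgroup.mem_subgroupOf.mp h2

theorem rep_smul {E B₀ : Subgroup Γ} (e : ↥E) (q : ↥E ⧸ (nstab E B₀).subgroupOf E) :
    (rep (e • q))⁻¹ * ((e : Γ) * rep q) ∈ nstab E B₀ := by
  have h1 : e • q = (QuotientGroup.mk (e * Quotient.out q) : ↥E ⧸ (nstab E B₀).subgroupOf E) := by
    conv_lhs => rw [← QuotientGroup.out_eq' q]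
    rw [MulAction.Quotient.smul_mk, smul_eq_mul]
  have h2 := rep_mk (B₀ := B₀) (e * Quotient.out q)
  rw [← h1] at h2
  exact h2

theorem cj_of_mul_mem {E B₀ : Subgroup Γ} {x y : Γ} (hxy : x⁻¹ * y ∈ nstab E B₀) :
    cj y B₀ = cj x B₀ := by
  have : cj y B₀ = cj (x * (x⁻¹ * y)) B₀ := by rw [mul_inv_cancel_left]
  rw [this, cj_mul, hxy.2]

theorem rep_cj_inj {E B₀ : Subgroup Γ} {q q' : ↥E ⧸ (nstab E B₀).subgroupOf E}
    (hc : cj (rep q) B₀ = cj (rep q') B₀) : q = q' := by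
  have hmem : (rep q)⁻¹ * rep q' ∈ nstab E B₀ := by
    refine ⟨E.mul_mem (E.inv_mem (rep_mem q)) (rep_mem q'), ?_⟩
    rw [cj_mul, ← hc, ← cj_mul, inv_mul_cancel, cj_one]
  have h1 : ((Quotient.out q : ↥E) : ↥E ⧸ (nstab E B₀).subgroupOf E)
      = ((Quotient.out q' : ↥E) : ↥E ⧸ (nstab E B₀).subgroupOf E) :=
    QuotientGroup.eq.mpr (Subgroup.mem_subgroupOf.mpr hmem)
  rw [QuotientGroup.out_eq', QuotientGroup.out_eq'] at h1
  exact h1

/-- the projection operator onto the sum of the conjugate fixed-point spaces -/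
noncomputable def thetaOp (E B₀ : Subgroup Γ) : W →+ W :=
  letI := Fintype.ofFinite (↥E ⧸ (nstab E B₀).subgroupOf E)
  ∑ q : ↥E ⧸ (nstab E B₀).subgroupOf E, nu (cj (rep q) B₀)

theorem thetaOp_apply (E B₀ : Subgroup Γ) [inst : Fintype (↥E ⧸ (nstab E B₀).subgroupOf E)]
    (w : W) :
    thetaOp E B₀ w = ∑ q : ↥E ⧸ (nstab E B₀).subgroupOf E, nu (cj (rep q) B₀) w := by
  have : inst = Fintype.ofFinite _ := Subsingleton.elim _ _
  subst this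
  letI := Fintype.ofFinite (↥E ⧸ (nstab E B₀).subgroupOf E)
  show (∑ q : ↥E ⧸ (nstab E B₀).subgroupOf E, nu (cj (rep q) B₀)) w = _
  rw [AddMonoidHom.finsetSum_apply]

namespace StepCtx

variable {M E : Subgroup Γ} {S : AddSubgroup W} {B₀ : Subgroup Γ} (h : StepCtx M E S B₀)
include h

theorem cjM {e : Γ} (he : e ∈ E) : cj e B₀ ≤ M :=
  cj_le (fun b hb => h.hEM e he b (h.hB hb))

theorem T0_smul {x : Γ} (hx : x ∈ M) {t : W} (ht : t ∈ S ⊓ fixS B₀) : x • t ∈ S ⊓ fixS B₀ :=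
  ⟨h.hSM x hx t ht.1, fun b hb => by rw [h.hab b (h.hB hb) x hx t ht.1, ht.2 b hb]⟩

theorem hm : Nat.Coprime (Nat.card B₀) (Nat.card W) :=
  Nat.Coprime.coprime_dvd_left (Subgroup.card_dvd_of_le h.hB) h.hcM

theorem hdist {e e' : Γ} (he : e ∈ E) (he' : e' ∈ E) (hne : cj e B₀ ≠ cj e' B₀) {w : W}
    (hw : w ∈ S) (h1 : w ∈ (fixS (cj e B₀) : AddSubgroup W))
    (h2 : w ∈ (fixS (cj e' B₀) : AddSubgroup W)) : w = 0 := by
  have ht1 : e⁻¹ • w ∈ (fixS B₀ : AddSubgroup W) := inv_smul_mem_fixS h1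
  have ht2 : e⁻¹ • w ∈ (fixS (cj (e⁻¹ * e') B₀) : AddSubgroup W) := by
    rw [cj_mul]; exact smul_mem_fixS_cj h2
  have htS : e⁻¹ • w ∈ S := h.hSE e⁻¹ (E.inv_mem he) w hw
  have hne' : ¬ cj (e⁻¹ * e') B₀ ≤ B₀ := by
    intro hle
    have heq : cj (e⁻¹ * e') B₀ = B₀ := Subgroup.eq_of_le_of_card_ge hle (card_cj _ _).ge
    apply hne
    have : cj e' B₀ = cj e (cj (e⁻¹ * e') B₀) := by rw [← cj_mul, mul_inv_cancel_left]
    rw [this, heq]
  obtain ⟨x, hx, hxB⟩ := SetLike.not_le_iff_exists.mp hne'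
  have hxM : x ∈ M := h.cjM (E.mul_mem (E.inv_mem he) he') hx
  have h0 := h.hfree x hxM hxB (e⁻¹ • w) ⟨htS, ht1⟩ (ht2 x hx)
  have : w = e • e⁻¹ • w := by rw [smul_inv_smul]
  rw [this, h0, smul_zero]

theorem nu_cj_mem {e : Γ} (he : e ∈ E) {w : W} (hw : w ∈ S) :
    nu (cj e B₀) w ∈ S ⊓ fixS (cj e B₀) :=
  ⟨nu_mem _ S (fun b hb v hv => h.hSM b (h.cjM he hb) v hv) w hw, nu_fixed _ w⟩

theorem nu_cj_eq {e e' : Γ} (he : e ∈ E) (he' : e' ∈ E) {v : W}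
    (hv : v ∈ S ⊓ fixS (cj e' B₀)) (heq : cj e B₀ = cj e' B₀) :
    nu (cj e B₀) v = Nat.card B₀ • v := by
  rw [nu_of_fixed _ v (by rw [heq]; exact hv.2), card_cj]

theorem nu_cj_ne {e e' : Γ} (he : e ∈ E) (he' : e' ∈ E) {v : W}
    (hv : v ∈ S ⊓ fixS (cj e' B₀)) (hne : cj e B₀ ≠ cj e' B₀) : nu (cj e B₀) v = 0 := by
  have h1 := h.nu_cj_mem he hv.1
  refine h.hdist he he' hne h1.1 h1.2 ?_
  intro b' hb'
  have hb'M : b' ∈ M := h.cjM he' hb'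
  rw [nu_comm_smul b' (cj e B₀) v (fun b hb => h.hab b' hb'M b (h.cjM he hb) v hv.1),
    hv.2 b' hb']

theorem theta_mem {w : W} (hw : w ∈ S) : thetaOp E B₀ w ∈ S := by
  haveI := Fintype.ofFinite (↥E ⧸ (nstab E B₀).subgroupOf E)
  rw [thetaOp_apply]
  exact S.sum_mem (fun q _ => (h.nu_cj_mem (rep_mem q) hw).1)

theorem theta_of_mem {e : Γ} (he : e ∈ E) {v : W} (hv : v ∈ S ⊓ fixS (cj e B₀)) :
    thetaOp E B₀ v = Nat.card B₀ • v := by
  haveI := Fintype.ofFinite (↥E ⧸ (nstab E B₀).subgroupOf E)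
  rw [thetaOp_apply]
  have hq0 : cj (rep (QuotientGroup.mk ⟨e, he⟩ : ↥E ⧸ (nstab E B₀).subgroupOf E)) B₀ = cj e B₀ :=
    (cj_of_mul_mem (rep_mk (B₀ := B₀) ⟨e, he⟩)).symm
  rw [Finset.sum_eq_single (QuotientGroup.mk ⟨e, he⟩ : ↥E ⧸ (nstab E B₀).subgroupOf E)]
  · exact h.nu_cj_eq (rep_mem _) he hv hq0
  · intro q _ hq
    refine h.nu_cj_ne (rep_mem q) he hv ?_
    intro hc
    exact hq (rep_cj_inj (hc.trans hq0.symm))
  · intro hn; exact absurd (Finset.mem_univ _) hn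

theorem theta_theta {w : W} (hw : w ∈ S) :
    thetaOp E B₀ (thetaOp E B₀ w) = Nat.card B₀ • thetaOp E B₀ w := by
  haveI := Fintype.ofFinite (↥E ⧸ (nstab E B₀).subgroupOf E)
  rw [thetaOp_apply E B₀ w, map_sum, Finset.smul_sum]
  exact Finset.sum_congr rfl
    (fun q _ => h.theta_of_mem (rep_mem q) (h.nu_cj_mem (rep_mem q) hw))

theorem theta_smul_E {e : Γ} (he : e ∈ E) (w : W) :
    e • thetaOp E B₀ w = thetaOp E B₀ (e • w) := by
  haveI := Fintype.ofFinite (↥E ⧸ (nstab E B₀).subgroupOf E)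
  rw [thetaOp_apply, thetaOp_apply, Finset.smul_sum]
  refine Fintype.sum_equiv (MulAction.toPerm (⟨e, he⟩ : ↥E)) _ _ (fun q => ?_)
  show e • nu (cj (rep q) B₀) w = nu (cj (rep ((⟨e, he⟩ : ↥E) • q)) B₀) (e • w)
  have hcj : cj (e * rep q) B₀ = cj (rep ((⟨e, he⟩ : ↥E) • q)) B₀ :=
    cj_of_mul_mem (rep_smul ⟨e, he⟩ q)
  rw [smul_nu, ← cj_mul, hcj]

theorem theta_smul_M {x : Γ} (hx : x ∈ M) {w : W} (hw : w ∈ S) :
    x • thetaOp E B₀ w = thetaOp E B₀ (x • w) := by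
  haveI := Fintype.ofFinite (↥E ⧸ (nstab E B₀).subgroupOf E)
  rw [thetaOp_apply, thetaOp_apply, Finset.smul_sum]
  exact Finset.sum_congr rfl (fun q _ =>
    nu_comm_smul x _ w (fun b hb => h.hab x hx b (h.cjM (rep_mem q) hb) w hw))

theorem rep_smul_mem (q : ↥E ⧸ (nstab E B₀).subgroupOf E) {t : W} (ht : t ∈ S ⊓ fixS B₀) :
    rep q • t ∈ S ⊓ fixS (cj (rep q) B₀) :=
  ⟨h.hSE _ (rep_mem q) t ht.1, smul_mem_fixS_cj ht.2⟩

theorem sum_mem_eig [Fintype (↥E ⧸ (nstab E B₀).subgroupOf E)]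
    (f : ↥E ⧸ (nstab E B₀).subgroupOf E → W) (hf : ∀ q, f q ∈ S ⊓ fixS B₀) :
    ∑ q, rep q • f q ∈ eigS (thetaOp E B₀) (Nat.card B₀) S := by
  refine ⟨S.sum_mem (fun q _ => (h.rep_smul_mem q (hf q)).1), ?_⟩
  rw [map_sum, Finset.smul_sum]
  exact Finset.sum_congr rfl (fun q _ => h.theta_of_mem (rep_mem q) (h.rep_smul_mem q (hf q)))

theorem proj_sum [Fintype (↥E ⧸ (nstab E B₀).subgroupOf E)]
    (f : ↥E ⧸ (nstab E B₀).subgroupOf E → W) (hf : ∀ q, f q ∈ S ⊓ fixS B₀)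
    (q₀ : ↥E ⧸ (nstab E B₀).subgroupOf E) :
    nu (cj (rep q₀) B₀) (∑ q, rep q • f q) = Nat.card B₀ • (rep q₀ • f q₀) := by
  rw [map_sum, Finset.sum_eq_single q₀]
  · exact h.nu_cj_eq (rep_mem q₀) (rep_mem q₀) (h.rep_smul_mem q₀ (hf q₀)) rfl
  · intro q _ hq
    exact h.nu_cj_ne (rep_mem q₀) (rep_mem q) (h.rep_smul_mem q (hf q))
      (fun hc => hq (rep_cj_inj hc).symm)
  · intro hn; exact absurd (Finset.mem_univ _) hn

theorem card_S1 :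
    Nat.card ↥(eigS (thetaOp E B₀) (Nat.card B₀) S)
      = Nat.card ↥(S ⊓ fixS B₀) ^ Nat.card (↥E ⧸ (nstab E B₀).subgroupOf E) := by
  haveI := Fintype.ofFinite (↥E ⧸ (nstab E B₀).subgroupOf E)
  have hm := h.hm
  let Υ : ↥(eigS (thetaOp E B₀) (Nat.card B₀) S) →
      ((↥E ⧸ (nstab E B₀).subgroupOf E) → ↥(S ⊓ fixS B₀)) :=
    fun w q => ⟨(rep q)⁻¹ • nu (cj (rep q) B₀) (w : W),
      h.hSE _ (E.inv_mem (rep_mem q)) _ (h.nu_cj_mem (rep_mem q) w.2.1).1,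
      inv_smul_mem_fixS (h.nu_cj_mem (rep_mem q) w.2.1).2⟩
  have hΥ : Function.Injective Υ := by
    intro w w' hww
    have h1 : ∀ q : ↥E ⧸ (nstab E B₀).subgroupOf E,
        nu (cj (rep q) B₀) (w : W) = nu (cj (rep q) B₀) (w' : W) := by
      intro q
      have h3 : (rep q)⁻¹ • nu (cj (rep q) B₀) (w : W) = (rep q)⁻¹ • nu (cj (rep q) B₀) (w' : W) :=
        congrArg Subtype.val (congrFun hww q)
      exact smul_left_cancel _ h3
    have h2 : thetaOp E B₀ (w : W) = thetaOp E B₀ (w' : W) := by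
      rw [thetaOp_apply, thetaOp_apply]
      exact Finset.sum_congr rfl (fun q _ => h1 q)
    rw [w.2.2, w'.2.2] at h2
    exact Subtype.ext (nsmul_inj_of_coprime hm h2)
  let Ξ : ((↥E ⧸ (nstab E B₀).subgroupOf E) → ↥(S ⊓ fixS B₀)) →
      ↥(eigS (thetaOp E B₀) (Nat.card B₀) S) :=
    fun f => ⟨∑ q, rep q • (f q : W), h.sum_mem_eig (fun q => (f q : W)) (fun q => (f q).2)⟩
  have hΞ : Function.Injective Ξ := by
    intro f f' hff
    have h0 : ∑ q, rep q • (f q : W) = ∑ q, rep q • (f' q : W) := congrArg Subtype.val hff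
    funext q₀
    have h1 := congrArg (nu (cj (rep q₀) B₀)) h0
    rw [h.proj_sum (fun q => (f q : W)) (fun q => (f q).2),
      h.proj_sum (fun q => (f' q : W)) (fun q => (f' q).2)] at h1
    have h2 := nsmul_inj_of_coprime hm h1
    exact Subtype.ext (smul_left_cancel _ h2)
  have le1 := Nat.card_le_card_of_injective Υ hΥ
  have le2 := Nat.card_le_card_of_injective Ξ hΞ
  rw [← Nat.card_fun]
  exact le_antisymm le1 le2

theorem card_S1_fix :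
    Nat.card ↥(eigS (thetaOp E B₀) (Nat.card B₀) S ⊓ fixS E)
      = Nat.card ↥((S ⊓ fixS B₀) ⊓ fixS (nstab E B₀)) := by
  haveI := Fintype.ofFinite (↥E ⧸ (nstab E B₀).subgroupOf E)
  have hm := h.hm
  let α : ↥(eigS (thetaOp E B₀) (Nat.card B₀) S ⊓ fixS E) →
      ↥((S ⊓ fixS B₀) ⊓ fixS (nstab E B₀)) :=
    fun w => ⟨nu B₀ (w : W),
      ⟨nu_mem B₀ S (fun b hb v hv => h.hSM b (h.hB hb) v hv) _ w.2.1.1, nu_fixed B₀ _⟩,
      fun g hg => by rw [smul_nu, hg.2, w.2.2 g hg.1]⟩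
  have hα : Function.Injective α := by
    intro w w' hww
    have h0 : nu B₀ (w : W) = nu B₀ (w' : W) := congrArg Subtype.val hww
    have h1 : ∀ q : ↥E ⧸ (nstab E B₀).subgroupOf E,
        nu (cj (rep q) B₀) (w : W) = nu (cj (rep q) B₀) (w' : W) := by
      intro q
      have e1 : nu (cj (rep q) B₀) (w : W) = rep q • nu B₀ (w : W) := by
        rw [smul_nu, w.2.2 _ (rep_mem q)]
      have e2 : nu (cj (rep q) B₀) (w' : W) = rep q • nu B₀ (w' : W) := by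
        rw [smul_nu, w'.2.2 _ (rep_mem q)]
      rw [e1, e2, h0]
    have h2 : thetaOp E B₀ (w : W) = thetaOp E B₀ (w' : W) := by
      rw [thetaOp_apply, thetaOp_apply]
      exact Finset.sum_congr rfl (fun q _ => h1 q)
    rw [w.2.1.2, w'.2.1.2] at h2
    exact Subtype.ext (nsmul_inj_of_coprime hm h2)
  have hfixE : ∀ t : W, t ∈ (fixS (nstab E B₀) : AddSubgroup W) → ∀ e ∈ E,
      e • ∑ q : ↥E ⧸ (nstab E B₀).subgroupOf E, rep q • t
        = ∑ q : ↥E ⧸ (nstab E B₀).subgroupOf E, rep q • t := by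
    intro t ht e he
    rw [Finset.smul_sum]
    refine Fintype.sum_equiv (MulAction.toPerm (⟨e, he⟩ : ↥E)) _ _ (fun q => ?_)
    show e • rep q • t = rep ((⟨e, he⟩ : ↥E) • q) • t
    have hg := rep_smul (B₀ := B₀) ⟨e, he⟩ q
    have h3 := ht _ hg
    rw [mul_smul, mul_smul] at h3
    exact inv_smul_eq_iff.mp h3
  let β : ↥((S ⊓ fixS B₀) ⊓ fixS (nstab E B₀)) →
      ↥(eigS (thetaOp E B₀) (Nat.card B₀) S ⊓ fixS E) :=
    fun t => ⟨∑ q : ↥E ⧸ (nstab E B₀).subgroupOf E, rep q • (t : W),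
      h.sum_mem_eig (fun _ => (t : W)) (fun _ => t.2.1), hfixE _ t.2.2⟩
  have hβ : Function.Injective β := by
    intro t t' htt
    have h0 : ∑ q : ↥E ⧸ (nstab E B₀).subgroupOf E, rep q • (t : W)
        = ∑ q : ↥E ⧸ (nstab E B₀).subgroupOf E, rep q • (t' : W) := congrArg Subtype.val htt
    have h1 := congrArg (nu (cj (rep (QuotientGroup.mk 1 : ↥E ⧸ (nstab E B₀).subgroupOf E)) B₀)) h0
    rw [h.proj_sum (fun _ => (t : W)) (fun _ => t.2.1),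
      h.proj_sum (fun _ => (t' : W)) (fun _ => t'.2.1)] at h1
    have h2 := nsmul_inj_of_coprime hm h1
    exact Subtype.ext (smul_left_cancel _ h2)
  exact le_antisymm (Nat.card_le_card_of_injective α hα) (Nat.card_le_card_of_injective β hβ)

theorem lang_mem {g a : Γ} (hg : g ∈ nstab E B₀) (hg1 : g ≠ 1) (ha : a ∈ M)
    (hmem : a⁻¹ * g * a * g⁻¹ ∈ B₀) : a ∈ B₀ := by
  have hinj : ∀ x ∈ M, ∀ y ∈ M, x⁻¹ * g * x * g⁻¹ = y⁻¹ * g * y * g⁻¹ → x = y := by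
    intro x hx y hy heq
    have h1 : x⁻¹ * g * x = y⁻¹ * g * y := mul_right_cancel heq
    have h2 : g * (y * x⁻¹) = (y * x⁻¹) * g := by
      calc g * (y * x⁻¹) = y * (y⁻¹ * g * y) * x⁻¹ := by group
        _ = y * (x⁻¹ * g * x) * x⁻¹ := by rw [h1]
        _ = (y * x⁻¹) * g := by group
    have h3 := h.hfpf g hg.1 hg1 (y * x⁻¹) (M.mul_mem hy (M.inv_mem hx)) h2
    exact (mul_inv_eq_one.mp h3).symm
  have hconj : ∀ b ∈ B₀, g * b * g⁻¹ ∈ B₀ := by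
    intro b hb
    have h4 := conj_mem_cj (g := g) hb
    rw [hg.2] at h4
    exact h4
  let φ : ↥B₀ → ↥B₀ := fun b => ⟨(b : Γ)⁻¹ * g * b * g⁻¹, by
    have h5 : (b : Γ)⁻¹ * g * b * g⁻¹ = (b : Γ)⁻¹ * (g * b * g⁻¹) := by group
    rw [h5]
    exact B₀.mul_mem (B₀.inv_mem b.2) (hconj b b.2)⟩
  have hφ : Function.Injective φ := by
    intro b c hbc
    exact Subtype.ext (hinj b (h.hB b.2) c (h.hB c.2) (congrArg Subtype.val hbc))
  obtain ⟨b, hb⟩ := Finite.surjective_of_injective hφ ⟨a⁻¹ * g * a * g⁻¹, hmem⟩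
  have h6 := hinj b (h.hB b.2) a ha (congrArg Subtype.val hb)
  rw [← h6]; exact b.2

theorem card_T0 {a : Γ} (ha : a ∈ M) (haB : a ∉ B₀) :
    Nat.card ↥(S ⊓ fixS B₀)
      = Nat.card ↥((S ⊓ fixS B₀) ⊓ fixS (nstab E B₀)) ^ Nat.card ↥(nstab E B₀) := by
  have hconjM : ∀ g ∈ nstab E B₀, g * a * g⁻¹ ∈ M := fun g hg => h.hEM g hg.1 a ha
  refine frob_atomic_rel (S ⊓ fixS B₀) (nstab E B₀) a ?_ ?_ ?_ ?_
  · intro g hg t ht
    refine ⟨h.hSE g hg.1 t ht.1, ?_⟩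
    have h4 := smul_mem_fixS_cj (g := g) ht.2
    rw [hg.2] at h4
    exact h4
  · intro g hg t ht
    exact h.T0_smul (hconjM g hg) ht
  · intro g hg g' hg' t ht
    exact h.hab _ (hconjM g hg) _ (hconjM g' hg') t ht.1
  · intro g hg g' hg' hne t ht heq
    by_contra ht0
    have hx : ((g' * a * g'⁻¹)⁻¹ * (g * a * g⁻¹)) • t = t := by
      rw [mul_smul, heq, inv_smul_smul]
    have hxM : (g' * a * g'⁻¹)⁻¹ * (g * a * g⁻¹) ∈ M :=
      M.mul_mem (M.inv_mem (hconjM g' hg')) (hconjM g hg)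
    have hxB : (g' * a * g'⁻¹)⁻¹ * (g * a * g⁻¹) ∈ B₀ := by
      by_contra hnB
      exact ht0 (h.hfree _ hxM hnB t ht hx)
    have h1 : g'⁻¹ * ((g' * a * g'⁻¹)⁻¹ * (g * a * g⁻¹)) * g' ∈ B₀ := by
      have h5 : (g' * a * g'⁻¹)⁻¹ * (g * a * g⁻¹) ∈ cj g' B₀ := by rw [hg'.2]; exact hxB
      exact mem_cj.mp h5
    have h2 : g'⁻¹ * ((g' * a * g'⁻¹)⁻¹ * (g * a * g⁻¹)) * g'
        = a⁻¹ * (g'⁻¹ * g) * a * (g'⁻¹ * g)⁻¹ := by group
    rw [h2] at h1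
    have hh : g'⁻¹ * g ∈ nstab E B₀ := (nstab E B₀).mul_mem ((nstab E B₀).inv_mem hg') hg
    have hh1 : g'⁻¹ * g ≠ 1 := fun h7 => hne (by rw [inv_mul_eq_one] at h7; exact h7.symm)
    exact haB (h.lang_mem hh hh1 ha h1)

theorem card_S1_formula {a : Γ} (ha : a ∈ M) (haB : a ∉ B₀) :
    Nat.card ↥(eigS (thetaOp E B₀) (Nat.card B₀) S)
      = Nat.card ↥(eigS (thetaOp E B₀) (Nat.card B₀) S ⊓ fixS E) ^ Nat.card ↥E := by
  rw [h.card_S1, h.card_S1_fix, h.card_T0 ha haB, ← pow_mul,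
    Subgroup.card_eq_card_quotient_mul_card_subgroup ((nstab E B₀).subgroupOf E),
    Nat.card_congr (Subgroup.subgroupOfEquivOfLe (nstab_le E B₀)).toEquiv, mul_comm]

end StepCtx

theorem frob_step (M E : Subgroup Γ)
    (hEM : ∀ e ∈ E, ∀ x ∈ M, e * x * e⁻¹ ∈ M)
    (hfpf : ∀ e ∈ E, e ≠ 1 → ∀ x ∈ M, e * x = x * e → x = 1)
    (hcM : Nat.Coprime (Nat.card M) (Nat.card W)) :
    ∀ (n : ℕ) (S : AddSubgroup W), Nat.card S = n →
      (∀ x ∈ M, ∀ w ∈ S, x • w ∈ S) → (∀ e ∈ E, ∀ w ∈ S, e • w ∈ S) →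
      (∀ x ∈ M, ∀ y ∈ M, ∀ w ∈ S, x • y • w = y • x • w) →
      (∀ w ∈ S, (∀ x ∈ M, x • w = w) → w = 0) →
      Nat.card S = Nat.card ↥(S ⊓ fixS E) ^ Nat.card E := by
  intro n
  induction n using Nat.strong_induction_on with
  | _ n ih =>
    intro S hn hSM hSE hab hC
    by_cases hSb : S = ⊥
    · have h1 : S ⊓ fixS E = ⊥ := by rw [hSb]; exact bot_inf_eq _
      rw [h1, hSb]
      simp
    have hfin : ({B : Subgroup Γ | B ≤ M ∧ S ⊓ fixS B ≠ ⊥}).Finite := Set.toFinite _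
    have hbot : (⊥ : Subgroup Γ) ∈ {B : Subgroup Γ | B ≤ M ∧ S ⊓ fixS B ≠ ⊥} := by
      refine ⟨bot_le, ?_⟩
      intro h0
      apply hSb
      rw [eq_bot_iff]
      intro w hw
      have h2 : w ∈ S ⊓ fixS (⊥ : Subgroup Γ) :=
        ⟨hw, fun b hb => by rw [Subgroup.mem_bot.mp hb, one_smul]⟩
      rw [h0] at h2
      exact h2
    obtain ⟨B₀, -, hmax⟩ := hfin.exists_le_maximal hbot
    have hB₀M : B₀ ≤ M := hmax.prop.1
    have hT₀ : S ⊓ fixS B₀ ≠ ⊥ := hmax.prop.2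
    have hfree : ∀ x ∈ M, x ∉ B₀ → ∀ t ∈ S ⊓ fixS B₀, x • t = t → t = 0 := by
      intro x hx hxB t ht hxt
      by_contra ht0
      have hmem : B₀ ⊔ Subgroup.zpowers x ∈ {B : Subgroup Γ | B ≤ M ∧ S ⊓ fixS B ≠ ⊥} := by
        refine ⟨sup_le hB₀M (by rw [Subgroup.zpowers_le]; exact hx), ?_⟩
        intro h0
        have hz : t ∈ (fixS (Subgroup.zpowers x) : AddSubgroup W) := by
          intro b hb
          have hle : Subgroup.zpowers x ≤ MulAction.stabilizer Γ t := by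
            rw [Subgroup.zpowers_le]; exact MulAction.mem_stabilizer_iff.mpr hxt
          exact MulAction.mem_stabilizer_iff.mp (hle hb)
        have h3 : t ∈ S ⊓ fixS (B₀ ⊔ Subgroup.zpowers x) := ⟨ht.1, fixS_sup ht.2 hz⟩
        rw [h0] at h3
        exact ht0 (AddSubgroup.mem_bot.mp h3)
      have hle := hmax.le_of_ge hmem le_sup_left
      exact hxB (hle (Subgroup.mem_sup_right (Subgroup.mem_zpowers x)))
    have hex : ∃ a ∈ M, a ∉ B₀ := by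
      by_contra hcon
      push_neg at hcon
      apply hT₀
      rw [eq_bot_iff]
      intro w hw
      exact AddSubgroup.mem_bot.mpr (hC w hw.1 (fun x hx => hw.2 x (hcon x hx)))
    obtain ⟨a, ha, haB⟩ := hex
    have ctx : StepCtx M E S B₀ := ⟨hEM, hfpf, hcM, hSM, hSE, hab, hB₀M, hfree⟩
    refine split_formula (thetaOp E B₀) (Nat.card B₀) ctx.hm E S (fun w hw => ctx.theta_mem hw)
      (fun w hw => ctx.theta_theta hw) (fun e he w _ => ctx.theta_smul_E he w) (Nat.card E)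
      (ctx.card_S1_formula ha haB) ?_
    have hS0lt : Nat.card ↥(eigS (thetaOp E B₀) 0 S) < n := by
      have hsplit := idem_card (thetaOp E B₀) (Nat.card B₀) ctx.hm S
        (fun w hw => ctx.theta_mem hw) (fun w hw => ctx.theta_theta hw)
      have hS1 : 1 < Nat.card ↥(eigS (thetaOp E B₀) (Nat.card B₀) S) := by
        rw [Finite.one_lt_card_iff_nontrivial]
        have hext : ∃ t ∈ S ⊓ fixS B₀, t ≠ 0 := by
          by_contra hcon
          push_neg at hcon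
          apply hT₀
          rw [eq_bot_iff]
          intro w hw
          exact AddSubgroup.mem_bot.mpr (hcon w hw)
        obtain ⟨t, ht, ht0⟩ := hext
        have htm : t ∈ eigS (thetaOp E B₀) (Nat.card B₀) S :=
          ⟨ht.1, ctx.theta_of_mem E.one_mem (by rw [cj_one]; exact ht)⟩
        exact ⟨⟨⟨t, htm⟩, 0, fun h4 => ht0 (congrArg Subtype.val h4)⟩⟩
      have hpos : 0 < Nat.card ↥(eigS (thetaOp E B₀) 0 S) := Nat.card_pos
      rw [← hn, hsplit]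
      nlinarith
    refine ih _ hS0lt (eigS (thetaOp E B₀) 0 S) rfl ?_ ?_ ?_ ?_
    · intro x hx w hw
      refine ⟨hSM x hx w hw.1, ?_⟩
      rw [← ctx.theta_smul_M hx hw.1, hw.2, zero_nsmul, zero_nsmul, smul_zero]
    · intro e he w hw
      refine ⟨hSE e he w hw.1, ?_⟩
      rw [← ctx.theta_smul_E he w, hw.2, zero_nsmul, zero_nsmul, smul_zero]
    · intro x hx y hy w hw; exact hab x hx y hy w hw.1
    · intro w hw hfix; exact hC w hw.1 hfix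

end Step

end Cfsg.Agent.Helper10
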