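import Mathlib

set_option autoImplicit false
set_option linter.unusedSectionVars false
set_option linter.style.haveILetI false

namespace Cfsg.Agent.Helper10

section Vdm

variable {T : Type*} [AddCommGroup T]

/-- Vandermonde-type lemma for commuting endomorphisms with injective differences. -/
theorem vdm_fs {ι : Type*} (y : ι → AddMonoid.End T)
    (hc : ∀ a b, Commute (y a) (y b))
    (hinj : ∀ a b, a ≠ b → ∀ t, y a t = y b t → t = 0) :
    ∀ (s : Finset ι) (w : ι → T),
      (∀ i < s.card, ∑ a ∈ s, (y a ^ i) (w a) = 0) → ∀ a ∈ s, w a = 0 := by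
  classical
  intro s
  induction s using Finset.induction_on with
  | empty => intro w _ a ha; exact absurd ha (Finset.notMem_empty a)
  | insert c s hcs ih =>
    intro w heq
    rw [Finset.card_insert_of_notMem hcs] at heq
    have hw' : ∀ a ∈ s, y a (w a) - y c (w a) = 0 := by
      refine ih (fun a => y a (w a) - y c (w a)) ?_
      intro i hi
      show ∑ a ∈ s, (y a ^ i) (y a (w a) - y c (w a)) = 0
      have h1 := heq (i+1) (by omega)
      have h0 := congrArg (y c) (heq i (by omega))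
      rw [map_sum, map_zero] at h0
      rw [Finset.sum_insert hcs] at h1 h0
      have hlast : (y c ^ (i+1)) (w c) = y c ((y c ^ i) (w c)) := by rw [pow_succ']; rfl
      have hterm : ∀ a ∈ s, (y a ^ i) (y a (w a) - y c (w a))
          = (y a ^ (i+1)) (w a) - y c ((y a ^ i) (w a)) := by
        intro a _
        have hcomm : Commute (y c) (y a ^ i) := (hc c a).pow_right i
        have e1 : (y a ^ (i+1)) (w a) = (y a ^ i) (y a (w a)) := by rw [pow_succ]; rfl
        have e2 : y c ((y a ^ i) (w a)) = (y a ^ i) (y c (w a)) :=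
          congrArg (fun f : AddMonoid.End T => f (w a)) hcomm.eq
        rw [map_sub, e1, e2]
      rw [Finset.sum_congr rfl hterm, Finset.sum_sub_distrib]
      rw [hlast] at h1
      rw [eq_neg_of_add_eq_zero_right h1, eq_neg_of_add_eq_zero_right h0, sub_self]
    have hwz : ∀ a ∈ s, w a = 0 := fun a ha =>
      hinj a c (fun h => hcs (h ▸ ha)) (w a) (sub_eq_zero.mp (hw' a ha))
    intro a ha
    rcases Finset.mem_insert.mp ha with h | h
    · rw [h]
      have h0 := heq 0 (by omega)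
      rw [Finset.sum_insert hcs, Finset.sum_eq_zero (fun x hx => by rw [hwz x hx, map_zero]),
        add_zero, pow_zero] at h0
      exact h0
    · exact hwz a h

/-- Freeness from a Vandermonde system: abstract form. -/
theorem frob_atomic [Finite T] {G : Type*} [Group G] [Finite G]
    [DistribMulAction G T] (y : G → AddMonoid.End T)
    (hc : ∀ a b, Commute (y a) (y b))
    (hinj : ∀ a b, a ≠ b → ∀ t, y a t = y b t → t = 0)
    (heqv : ∀ g a t, g • (y a t) = y (g * a) (g • t)) :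
    Nat.card T = Nat.card {t : T // ∀ g : G, g • t = t} ^ Nat.card G := by
  classical
  haveI := Fintype.ofFinite G
  have hpow : ∀ (i : ℕ) (g a : G) (t : T), g • ((y a ^ i) t) = (y (g * a) ^ i) (g • t) := by
    intro i
    induction i with
    | zero => intro g a t; rw [pow_zero, pow_zero]; rfl
    | succ i ih =>
      intro g a t
      have e1 : (y a ^ (i+1)) t = (y a ^ i) (y a t) := by rw [pow_succ]; rfl
      have e2 : (y (g * a) ^ (i+1)) (g • t) = (y (g * a) ^ i) (y (g * a) (g • t)) := by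
        rw [pow_succ]; rfl
      rw [e1, e2, ih, heqv]
  -- the Vandermonde map
  let B : (G → T) → (Fin (Fintype.card G) → T) := fun w i => ∑ a, (y a ^ (i : ℕ)) (w a)
  have hBinj : Function.Injective B := by
    intro w w' hww
    have hz : ∀ a ∈ (Finset.univ : Finset G), (fun a => w a - w' a) a = 0 := by
      refine vdm_fs y hc hinj Finset.univ (fun a => w a - w' a) ?_
      intro i hi
      rw [Finset.card_univ] at hi
      have := congrFun hww ⟨i, hi⟩
      show ∑ a, (y a ^ i) (w a - w' a) = 0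
      have h2 : ∑ a, (y a ^ i) (w a) = ∑ a, (y a ^ i) (w' a) := this
      rw [Finset.sum_congr rfl (fun a _ => map_sub (y a ^ i) (w a) (w' a)),
        Finset.sum_sub_distrib, h2, sub_self]
    funext a
    exact sub_eq_zero.mp (hz a (Finset.mem_univ a))
  have hBbij : Function.Bijective B := by
    apply hBinj.bijective_of_nat_card_le
    rw [Nat.card_fun, Nat.card_fun, Nat.card_fin, Nat.card_eq_fintype_card (α := G)]
  have hfix : ∀ (x : T) (g : G), g • (∑ a : G, a • x) = ∑ a : G, a • x := by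
    intro x g
    rw [Finset.smul_sum]
    exact Fintype.sum_equiv (Equiv.mulLeft g) _ _ (fun a => (mul_smul g a x).symm)
  let Ψ : T → (Fin (Fintype.card G) → {t : T // ∀ g : G, g • t = t}) :=
    fun t i => ⟨∑ a : G, a • ((y 1 ^ (i : ℕ)) t), hfix _⟩
  have hΨB : ∀ t i, ((Ψ t i : {t : T // ∀ g : G, g • t = t}) : T) = B (fun a => a • t) i := by
    intro t i
    show ∑ a : G, a • ((y 1 ^ (i : ℕ)) t) = ∑ a, (y a ^ (i : ℕ)) (a • t)
    refine Finset.sum_congr rfl (fun a _ => ?_)
    rw [hpow, mul_one]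
  have hΨinj : Function.Injective Ψ := by
    intro t t' htt
    have h1 : B (fun a => a • t) = B (fun a => a • t') := by
      funext i
      rw [← hΨB, ← hΨB, htt]
    have h2 := congrFun (hBinj h1) 1
    simpa using h2
  have hΨsurj : Function.Surjective Ψ := by
    intro c
    obtain ⟨w, hw⟩ := hBbij.2 (fun i => ((c i : {t : T // ∀ g : G, g • t = t}) : T))
    have hweq : ∀ g : G, (fun a => g • w (g⁻¹ * a)) = w := by
      intro g
      apply hBinj
      funext i
      rw [hw]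
      show ∑ a, (y a ^ (i : ℕ)) (g • w (g⁻¹ * a)) = _
      have h1 : ∀ a : G, (y a ^ (i : ℕ)) (g • w (g⁻¹ * a))
          = g • ((y (g⁻¹ * a) ^ (i : ℕ)) (w (g⁻¹ * a))) := by
        intro a
        rw [hpow, mul_inv_cancel_left]
      rw [Finset.sum_congr rfl (fun a _ => h1 a), ← Finset.smul_sum]
      have h2 : ∑ a : G, (y (g⁻¹ * a) ^ (i : ℕ)) (w (g⁻¹ * a)) = ∑ a : G, (y a ^ (i : ℕ)) (w a) :=
        Fintype.sum_equiv (Equiv.mulLeft g⁻¹) _ _ (fun a => rfl)
      rw [h2]
      have h3 : ∑ a : G, (y a ^ (i : ℕ)) (w a) = (c i : T) := congrFun hw i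
      rw [h3]
      exact (c i).2 g
    have hw1 : ∀ g : G, w g = g • w 1 := by
      intro g
      have := congrFun (hweq g) g
      rw [inv_mul_cancel] at this
      exact this.symm
    refine ⟨w 1, ?_⟩
    funext i
    apply Subtype.ext
    rw [hΨB]
    have h4 : (fun a => a • w 1) = w := funext (fun a => (hw1 a).symm)
    rw [h4]
    exact congrFun hw i
  rw [Nat.card_congr (Equiv.ofBijective Ψ ⟨hΨinj, hΨsurj⟩), Nat.card_fun, Nat.card_fin,
    Nat.card_eq_fintype_card (α := G)]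

end Vdm

section Tors

variable {W : Type*} [AddCommGroup W] [Finite W]

theorem nsmul_inj_of_coprime {q : ℕ} (hq : Nat.Coprime q (Nat.card W)) {a b : W}
    (h : q • a = q • b) : a = b := by
  have h0 : q • (a - b) = 0 := by rw [smul_sub, h, sub_self]
  have h1 : addOrderOf (a - b) ∣ q := addOrderOf_dvd_of_nsmul_eq_zero h0
  have h2 : addOrderOf (a - b) ∣ Nat.card W := addOrderOf_dvd_natCard (a - b)
  have h3 := Nat.dvd_gcd h1 h2
  rw [Nat.Coprime.gcd_eq_one hq] at h3
  exact sub_eq_zero.mp (AddMonoid.addOrderOf_eq_one_iff.mp (Nat.dvd_one.mp h3))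

theorem nsmul_surj_of_coprime {q : ℕ} (hq : Nat.Coprime q (Nat.card W)) (S : AddSubgroup W) :
    ∀ w ∈ S, ∃ u ∈ S, q • u = w := by
  intro w hw
  have hinj : Function.Injective (fun u : S => q • u) := by
    intro a b hab
    have h1 : q • (a : W) = q • (b : W) := congrArg Subtype.val hab
    exact Subtype.ext (nsmul_inj_of_coprime hq h1)
  obtain ⟨u, hu⟩ := Finite.surjective_of_injective hinj ⟨w, hw⟩
  exact ⟨u.1, u.2, congrArg Subtype.val hu⟩

/-- the `q`-eigen-part of `θ` inside `S` -/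
def eigS (θ : W →+ W) (q : ℕ) (S : AddSubgroup W) : AddSubgroup W where
  carrier := {w | w ∈ S ∧ θ w = q • w}
  zero_mem' := ⟨S.zero_mem, by rw [map_zero, smul_zero]⟩
  add_mem' := fun {a b} ha hb => ⟨S.add_mem ha.1 hb.1, by rw [map_add, ha.2, hb.2, smul_add]⟩
  neg_mem' := fun {a} ha => ⟨S.neg_mem ha.1, by rw [map_neg, ha.2, smul_neg]⟩

theorem mem_eigS {θ : W →+ W} {q : ℕ} {S : AddSubgroup W} {w : W} :
    w ∈ eigS θ q S ↔ w ∈ S ∧ θ w = q • w := Iff.rfl

theorem eigS_le (θ : W →+ W) (q : ℕ) (S : AddSubgroup W) : eigS θ q S ≤ S := fun _ h => h.1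

theorem eigS_inf (θ : W →+ W) (q : ℕ) (S F : AddSubgroup W) :
    eigS θ q (S ⊓ F) = eigS θ q S ⊓ F := by
  ext w
  constructor
  · rintro ⟨⟨h1, h2⟩, h3⟩
    exact ⟨⟨h1, h3⟩, h2⟩
  · rintro ⟨⟨h1, h3⟩, h2⟩
    exact ⟨⟨h1, h2⟩, h3⟩

theorem idem_card (θ : W →+ W) (q : ℕ) (hq : Nat.Coprime q (Nat.card W)) (S : AddSubgroup W)
    (hS : ∀ w ∈ S, θ w ∈ S) (hθ : ∀ w ∈ S, θ (θ w) = q • θ w) :
    Nat.card S = Nat.card (eigS θ q S) * Nat.card (eigS θ 0 S) := by
  let f : ↥(eigS θ q S) × ↥(eigS θ 0 S) → ↥S := fun p => ⟨(p.1 : W) + (p.2 : W),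
    S.add_mem p.1.2.1 p.2.2.1⟩
  have hfinj : Function.Injective f := by
    rintro ⟨u, v⟩ ⟨u', v'⟩ huv
    have h1 : (u : W) + (v : W) = (u' : W) + (v' : W) := congrArg Subtype.val huv
    have h2 := congrArg θ h1
    rw [map_add, map_add, u.2.2, u'.2.2, v.2.2, v'.2.2, zero_smul, zero_smul, add_zero,
      add_zero] at h2
    have h3 : (u : W) = (u' : W) := nsmul_inj_of_coprime hq h2
    have h4 : (v : W) = (v' : W) := by rw [h3] at h1; exact add_left_cancel h1
    exact Prod.ext (Subtype.ext h3) (Subtype.ext h4)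
  have hfsurj : Function.Surjective f := by
    rintro ⟨w, hw⟩
    obtain ⟨u, huS, hu⟩ := nsmul_surj_of_coprime hq S (θ w) (hS w hw)
    have hθu : θ u = q • u := by
      apply nsmul_inj_of_coprime hq
      rw [← map_nsmul, hu, hθ w hw]
    have hv : θ (w - u) = (0 : ℕ) • (w - u) := by
      rw [map_sub, hθu, hu, sub_self, zero_smul]
    refine ⟨(⟨u, huS, hθu⟩, ⟨w - u, S.sub_mem hw huS, hv⟩), ?_⟩
    apply Subtype.ext
    show u + (w - u) = w
    abel
  rw [← Nat.card_congr (Equiv.ofBijective f ⟨hfinj, hfsurj⟩), Nat.card_prod]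

end Tors

section Act

variable {Γ : Type*} [Group Γ] {W : Type*} [AddCommGroup W] [DistribMulAction Γ W]

/-- fixed points of a subgroup -/
def fixS (B : Subgroup Γ) : AddSubgroup W where
  carrier := {w | ∀ b ∈ B, b • w = w}
  zero_mem' := fun b _ => smul_zero b
  add_mem' := fun {x y} hx hy b hb => by rw [smul_add, hx b hb, hy b hb]
  neg_mem' := fun {x} hx b hb => by rw [smul_neg, hx b hb]

theorem mem_fixS {B : Subgroup Γ} {w : W} : w ∈ (fixS B : AddSubgroup W) ↔ ∀ b ∈ B, b • w = w :=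
  Iff.rfl

theorem fixS_sup {B B' : Subgroup Γ} {w : W} (h : w ∈ (fixS B : AddSubgroup W))
    (h' : w ∈ (fixS B' : AddSubgroup W)) : w ∈ (fixS (B ⊔ B') : AddSubgroup W) := by
  have hle : B ⊔ B' ≤ MulAction.stabilizer Γ w :=
    sup_le (fun b hb => MulAction.mem_stabilizer_iff.mpr (h b hb))
      (fun b hb => MulAction.mem_stabilizer_iff.mpr (h' b hb))
  intro b hb
  exact MulAction.mem_stabilizer_iff.mp (hle hb)

/-- conjugate subgroup `g B g⁻¹` -/
def cj (g : Γ) (B : Subgroup Γ) : Subgroup Γ := B.map (MulAut.conj g).toMonoidHom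

theorem mem_cj {g : Γ} {B : Subgroup Γ} {x : Γ} : x ∈ cj g B ↔ g⁻¹ * x * g ∈ B := by
  constructor
  · rintro ⟨b, hb, rfl⟩
    have : g⁻¹ * ((MulAut.conj g).toMonoidHom b) * g = b := by
      show g⁻¹ * (g * b * g⁻¹) * g = b
      group
    rw [this]; exact hb
  · intro h
    refine ⟨g⁻¹ * x * g, h, ?_⟩
    show g * (g⁻¹ * x * g) * g⁻¹ = x
    group

theorem conj_mem_cj {g : Γ} {B : Subgroup Γ} {b : Γ} (hb : b ∈ B) : g * b * g⁻¹ ∈ cj g B :=
  ⟨b, hb, rfl⟩

theorem cj_one (B : Subgroup Γ) : cj 1 B = B := by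
  ext x; rw [mem_cj]; simp

theorem cj_mul (g h : Γ) (B : Subgroup Γ) : cj (g * h) B = cj g (cj h B) := by
  ext x; rw [mem_cj, mem_cj, mem_cj]; simp [mul_assoc]

theorem cj_le {g : Γ} {B M : Subgroup Γ} (hn : ∀ b ∈ B, g * b * g⁻¹ ∈ M) : cj g B ≤ M := by
  rintro _ ⟨b, hb, rfl⟩; exact hn b hb

theorem card_cj (g : Γ) (B : Subgroup Γ) : Nat.card ↥(cj g B) = Nat.card ↥B :=
  Subgroup.card_map_of_injective (MulAut.conj g).injective

theorem cj_eq_self [Finite Γ] {g : Γ} {B : Subgroup Γ} (hn : ∀ b ∈ B, g * b * g⁻¹ ∈ B) :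
    cj g B = B :=
  Subgroup.eq_of_le_of_card_ge (cj_le hn) (card_cj g B).ge

theorem smul_mem_fixS_cj {g : Γ} {B : Subgroup Γ} {w : W} (hw : w ∈ (fixS B : AddSubgroup W)) :
    g • w ∈ (fixS (cj g B) : AddSubgroup W) := by
  rintro _ ⟨b, hb, rfl⟩
  show (g * b * g⁻¹) • g • w = g • w
  rw [← mul_smul, inv_mul_cancel_right, mul_smul, hw b hb]

theorem inv_smul_mem_fixS {g : Γ} {B : Subgroup Γ} {w : W}
    (hw : w ∈ (fixS (cj g B) : AddSubgroup W)) : g⁻¹ • w ∈ (fixS B : AddSubgroup W) := by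
  have h := smul_mem_fixS_cj (g := g⁻¹) hw
  rw [← cj_mul, inv_mul_cancel, cj_one] at h
  exact h

variable [Finite Γ]

/-- the averaging (norm) operator of a subgroup -/
noncomputable def nu (B : Subgroup Γ) : W →+ W :=
  letI := Fintype.ofFinite ↥B
  ∑ b : ↥B, DistribSMul.toAddMonoidHom W (b : Γ)

theorem nu_apply (B : Subgroup Γ) [inst : Fintype ↥B] (w : W) :
    nu B w = ∑ b : ↥B, (b : Γ) • w := by
  have : inst = Fintype.ofFinite ↥B := Subsingleton.elim _ _
  subst this
  letI := Fintype.ofFinite ↥B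
  show (∑ b : ↥B, DistribSMul.toAddMonoidHom W (b : Γ)) w = _
  rw [AddMonoidHom.finsetSum_apply]
  rfl

theorem nu_fixed (B : Subgroup Γ) (w : W) : nu B w ∈ (fixS B : AddSubgroup W) := by
  intro b hb
  haveI := Fintype.ofFinite ↥B
  rw [nu_apply, Finset.smul_sum]
  exact Fintype.sum_equiv (Equiv.mulLeft (⟨b, hb⟩ : ↥B)) _ _
    (fun x => (mul_smul b (x : Γ) w).symm)

theorem nu_of_fixed (B : Subgroup Γ) (w : W) (h : w ∈ (fixS B : AddSubgroup W)) :
    nu B w = Nat.card B • w := by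
  haveI := Fintype.ofFinite ↥B
  rw [nu_apply, Finset.sum_congr rfl (fun (x : ↥B) _ => h (x : Γ) x.2), Finset.sum_const, Finset.card_univ,
    Nat.card_eq_fintype_card]

theorem smul_nu (g : Γ) (B : Subgroup Γ) (w : W) : g • nu B w = nu (cj g B) (g • w) := by
  haveI := Fintype.ofFinite ↥B
  haveI := Fintype.ofFinite ↥(cj g B)
  let e : ↥B ≃ ↥(cj g B) := (B.equivMapOfInjective _ (MulAut.conj g).injective).toEquiv
  have he : ∀ x : ↥B, ((e x : ↥(cj g B)) : Γ) = g * x * g⁻¹ := fun x => rfl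
  rw [nu_apply, nu_apply, Finset.smul_sum]
  refine Fintype.sum_equiv e _ _ (fun x => ?_)
  rw [he, ← mul_smul, ← mul_smul, inv_mul_cancel_right]

theorem nu_comm_smul (x : Γ) (B : Subgroup Γ) (w : W) (h : ∀ b ∈ B, x • b • w = b • x • w) :
    x • nu B w = nu B (x • w) := by
  haveI := Fintype.ofFinite ↥B
  rw [nu_apply, nu_apply, Finset.smul_sum]
  exact Finset.sum_congr rfl (fun b _ => h b b.2)

theorem nu_mem (B : Subgroup Γ) (S : AddSubgroup W) (h : ∀ b ∈ B, ∀ w ∈ S, b • w ∈ S) (w : W)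
    (hw : w ∈ S) : nu B w ∈ S := by
  haveI := Fintype.ofFinite ↥B
  rw [nu_apply]
  exact S.sum_mem (fun b _ => h b b.2 w hw)

end Act

end Cfsg.Agent.Helper10
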