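import Mathlib
import Cfsg.Agent.Helper1.Coprime2

set_option autoImplicit false

namespace Cfsg.Agent.Helper10

open Pointwise

/-- A Glauberman-type lemma for a single element: if `x` normalizes `D`, has order coprime to
`|D|`, and the coset `D x` meets the subgroup `S`, then some `D`-conjugate of `x` lies in `S`. -/
theorem exists_conj_mem_of_coprime {Γ : Type*} [Group Γ] [Finite Γ] (D S : Subgroup Γ) (x : Γ)
    (hx : ∀ d ∈ D, x * d * x⁻¹ ∈ D) (hcop : (orderOf x).Coprime (Nat.card D))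
    {c : Γ} (hc : c ∈ D) (hcS : c * x ∈ S) : ∃ d ∈ D, d * x * d⁻¹ ∈ S := by
  classical
  have hxn : x ∈ Subgroup.normalizer (D : Set Γ) := by
    rw [Subgroup.mem_normalizer_iff]
    intro h
    constructor
    · exact hx h
    · intro hh
      have hinj : Function.Injective (fun d : D => (⟨x * d * x⁻¹, hx d d.2⟩ : D)) := by
        intro a b hab
        have h1 := congrArg Subtype.val hab
        simp only [mul_left_inj, mul_right_inj] at h1
        exact Subtype.ext h1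
      obtain ⟨d, hd⟩ := (Finite.injective_iff_surjective.1 hinj) ⟨x * h * x⁻¹, hh⟩
      have h1 := congrArg Subtype.val hd
      simp only [mul_left_inj, mul_right_inj] at h1
      rw [← h1]
      exact d.2
  obtain ⟨Γ', hΓ'⟩ : ∃ Γ' : Subgroup Γ, Γ' = D ⊔ Subgroup.zpowers x := ⟨_, rfl⟩
  have hDΓ : D ≤ Γ' := by rw [hΓ']; exact le_sup_left
  have hAΓ : Subgroup.zpowers x ≤ Γ' := by rw [hΓ']; exact le_sup_right
  have hΓn : Γ' ≤ Subgroup.normalizer (D : Set Γ) := by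
    rw [hΓ']
    exact sup_le Subgroup.le_normalizer (Subgroup.zpowers_le.2 hxn)
  haveI : (D.subgroupOf Γ').Normal := (Subgroup.normal_subgroupOf_iff_le_normalizer hDΓ).2 hΓn
  have hcard1 : Nat.card ((Subgroup.zpowers x).subgroupOf Γ') = orderOf x := by
    rw [Nat.card_congr (Subgroup.subgroupOfEquivOfLe hAΓ).toEquiv, Nat.card_zpowers]
  have hcard2 : Nat.card (D.subgroupOf Γ') = Nat.card D :=
    Nat.card_congr (Subgroup.subgroupOfEquivOfLe hDΓ).toEquiv
  have hsolv : IsSolvable ((Subgroup.zpowers x).subgroupOf Γ') := by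
    apply isSolvable_of_comm
    intro a b
    obtain ⟨i, hi⟩ := Subgroup.mem_zpowers_iff.1 (Subgroup.mem_subgroupOf.1 a.2)
    obtain ⟨j, hj⟩ := Subgroup.mem_zpowers_iff.1 (Subgroup.mem_subgroupOf.1 b.2)
    apply Subtype.ext
    apply Subtype.ext
    show ((a : Γ') : Γ) * ((b : Γ') : Γ) = ((b : Γ') : Γ) * ((a : Γ') : Γ)
    rw [← hi, ← hj, ← zpow_add, ← zpow_add, add_comm]
  have hxΓ : x ∈ Γ' := hAΓ (Subgroup.mem_zpowers x)
  have hcΓ : c ∈ Γ' := hDΓ hc
  have hS : S.subgroupOf Γ' ⊔ D.subgroupOf Γ' = ⊤ := by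
    rw [eq_top_iff]
    intro γ _
    have hT : Γ' ≤ (S.subgroupOf Γ' ⊔ D.subgroupOf Γ').map Γ'.subtype := by
      refine le_trans (le_of_eq hΓ') (sup_le ?_ ?_)
      · intro d hd
        exact Subgroup.mem_map.2 ⟨⟨d, hDΓ hd⟩,
          Subgroup.mem_sup_right (Subgroup.mem_subgroupOf.2 hd), rfl⟩
      · rw [Subgroup.zpowers_le]
        refine Subgroup.mem_map.2 ⟨⟨x, hxΓ⟩, ?_, rfl⟩
        have e : (⟨x, hxΓ⟩ : Γ') = (⟨c, hcΓ⟩ : Γ')⁻¹ * ⟨c * x, Γ'.mul_mem hcΓ hxΓ⟩ := by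
          apply Subtype.ext
          simp
        rw [e]
        exact Subgroup.mul_mem _
          (Subgroup.inv_mem _ (Subgroup.mem_sup_right (Subgroup.mem_subgroupOf.2 hc)))
          (Subgroup.mem_sup_left (Subgroup.mem_subgroupOf.2 hcS))
    obtain ⟨γ', hγ', hγeq⟩ := Subgroup.mem_map.1 (hT γ.2)
    have h1 : γ' = γ := Subtype.ext hγeq
    rw [← h1]
    exact hγ'
  obtain ⟨d, hd, hconj⟩ := Helper1.exists_conj_le_of_sup_eq_top (D.subgroupOf Γ')
    ((Subgroup.zpowers x).subgroupOf Γ') (S.subgroupOf Γ')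
    (by rw [hcard1, hcard2]; exact hcop) (Or.inl hsolv) hS
  refine ⟨(d : Γ), Subgroup.mem_subgroupOf.1 hd, ?_⟩
  have hxA : (⟨x, hxΓ⟩ : Γ') ∈ (Subgroup.zpowers x).subgroupOf Γ' :=
    Subgroup.mem_subgroupOf.2 (Subgroup.mem_zpowers x)
  have h1 := hconj (Subgroup.smul_mem_pointwise_smul _ (MulAut.conj d) _ hxA)
  have h2 := Subgroup.mem_subgroupOf.1 h1
  simpa [MulAut.smul_def] using h2

end Cfsg.Agent.Helper10
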