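import Mathlib
import Cfsg.Agent.Helper10.FrobQuot
import Cfsg.Agent.Helper21.NilCoprime

set_option autoImplicit false

namespace Cfsg.Agent.Helper10

open scoped commutatorElement

section HallComm

variable {G : Type*} [Group G]

/-- `H` normalizes `⁅H, K⁆`. -/
theorem conj_mem_commutator_of_mem_left (H K : Subgroup G) {a : G} (ha : a ∈ H) {x : G}
    (hx : x ∈ ⁅H, K⁆) : a * x * a⁻¹ ∈ ⁅H, K⁆ := by
  have hle : ⁅H, K⁆ ≤ (⁅H, K⁆).comap (MulAut.conj a).toMonoidHom := by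
    rw [Subgroup.commutator_le]
    intro h hh k hk
    rw [Subgroup.mem_comap]
    have e : (MulAut.conj a).toMonoidHom ⁅h, k⁆ = ⁅a * h, k⁆ * ⁅a, k⁆⁻¹ := by
      simp only [MulEquiv.coe_toMonoidHom, MulAut.conj_apply, commutatorElement_def]
      group
    rw [e]
    exact Subgroup.mul_mem _ (Subgroup.commutator_mem_commutator (H.mul_mem ha hh) hk)
      (Subgroup.inv_mem _ (Subgroup.commutator_mem_commutator ha hk))
  have h1 := hle hx
  rw [Subgroup.mem_comap] at h1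
  simpa [MulAut.conj_apply] using h1

/-- Commutators are unchanged by multiplying the entries with central elements. -/
theorem commutator_central_mul {Q : Type*} [Group Q] (z₁ z₂ x y : Q)
    (h₁ : ∀ g : Q, z₁ * g = g * z₁) (h₂ : ∀ g : Q, z₂ * g = g * z₂) :
    ⁅z₁ * x, z₂ * y⁆ = ⁅x, y⁆ := by
  have e1 : ∀ w : Q, ⁅z₁ * x, w⁆ = ⁅x, w⁆ := by
    intro w
    rw [commutatorElement_def, commutatorElement_def]
    calc z₁ * x * w * (z₁ * x)⁻¹ * w⁻¹ = z₁ * (x * w * x⁻¹) * z₁⁻¹ * w⁻¹ := by group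
      _ = (x * w * x⁻¹) * z₁ * z₁⁻¹ * w⁻¹ := by rw [h₁ (x * w * x⁻¹)]
      _ = x * w * x⁻¹ * w⁻¹ := by group
  have e2 : ∀ w : Q, ⁅w, z₂ * y⁆ = ⁅w, y⁆ := by
    intro w
    rw [commutatorElement_def, commutatorElement_def]
    calc w * (z₂ * y) * w⁻¹ * (z₂ * y)⁻¹ = w * (z₂ * (y * w⁻¹ * y⁻¹)) * z₂⁻¹ := by group
      _ = w * ((y * w⁻¹ * y⁻¹) * z₂) * z₂⁻¹ := by rw [h₂ (y * w⁻¹ * y⁻¹)]
      _ = w * y * w⁻¹ * y⁻¹ := by group
  rw [e1, e2]

/-- If `H` is a normal subgroup with complement `K` and `H ≤ G'`, then `H ≤ [H, G]`. -/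
theorem le_commutator_top_of_complement (H K : Subgroup G) [hn : H.Normal]
    (hc : Subgroup.IsComplement' H K) (hH : H ≤ commutator G) :
    H ≤ ⁅H, (⊤ : Subgroup G)⁆ := by
  obtain ⟨M, hM⟩ : ∃ M : Subgroup G, M = ⁅H, (⊤ : Subgroup G)⁆ := ⟨_, rfl⟩
  haveI hMn : M.Normal := by rw [hM]; infer_instance
  rw [← hM]
  have hMH : M ≤ H := by
    rw [hM]; exact Subgroup.commutator_le_left H ⊤
  have hcen : ∀ a ∈ H, ∀ q : G ⧸ M,
      QuotientGroup.mk' M a * q = q * QuotientGroup.mk' M a := by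
    intro a ha q
    obtain ⟨g, rfl⟩ := QuotientGroup.mk'_surjective M q
    have h1 : ⁅a, g⁆ ∈ M := by
      rw [hM]; exact Subgroup.commutator_mem_commutator ha (Subgroup.mem_top g)
    have h2 : QuotientGroup.mk' M ⁅a, g⁆ = 1 := (QuotientGroup.eq_one_iff _).2 h1
    rw [map_commutatorElement, commutatorElement_eq_one_iff_commute] at h2
    exact h2.eq
  have hle : commutator G ≤ M ⊔ K := by
    rw [commutator_def, Subgroup.commutator_le]
    intro g₁ _ g₂ _
    obtain ⟨⟨⟨a₁, ha₁⟩, ⟨k₁, hk₁⟩⟩, h₁⟩ := hc.2 g₁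
    obtain ⟨⟨⟨a₂, ha₂⟩, ⟨k₂, hk₂⟩⟩, h₂⟩ := hc.2 g₂
    have h₁' : a₁ * k₁ = g₁ := h₁
    have h₂' : a₂ * k₂ = g₂ := h₂
    rw [← h₁', ← h₂']
    have h3 : QuotientGroup.mk' M ⁅a₁ * k₁, a₂ * k₂⁆ = QuotientGroup.mk' M ⁅k₁, k₂⁆ := by
      rw [map_commutatorElement, map_commutatorElement, map_mul, map_mul]
      exact commutator_central_mul _ _ _ _ (hcen a₁ ha₁) (hcen a₂ ha₂)
    have h4 : (⁅a₁ * k₁, a₂ * k₂⁆)⁻¹ * ⁅k₁, k₂⁆ ∈ M := QuotientGroup.eq.1 h3
    have e : ⁅a₁ * k₁, a₂ * k₂⁆ = ⁅k₁, k₂⁆ * ((⁅a₁ * k₁, a₂ * k₂⁆)⁻¹ * ⁅k₁, k₂⁆)⁻¹ := by group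
    rw [e]
    have hkk : ⁅k₁, k₂⁆ ∈ K := by
      rw [commutatorElement_def]
      exact K.mul_mem (K.mul_mem (K.mul_mem hk₁ hk₂) (K.inv_mem hk₁)) (K.inv_mem hk₂)
    exact Subgroup.mul_mem _ ((le_sup_right : K ≤ M ⊔ K) hkk)
      ((le_sup_left : M ≤ M ⊔ K) (M.inv_mem h4))
  intro x hx
  obtain ⟨m, hm, k, hk, rfl⟩ := Subgroup.mem_sup_of_normal_left.mp (hle (hH hx))
  have hkH : k ∈ H := by
    have := H.mul_mem (H.inv_mem (hMH hm)) hx
    simpa using this
  have hk1 : k = 1 := Subgroup.disjoint_def.1 hc.disjoint hkH hk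
  rw [hk1, mul_one]; exact hm

/-- If `G = H K` then `[H, G] ≤ [H, K] [H, H]`. -/
theorem commutator_top_le_of_complement (H K : Subgroup G) (hc : Subgroup.IsComplement' H K) :
    ⁅H, (⊤ : Subgroup G)⁆ ≤ ⁅H, K⁆ ⊔ ⁅H, H⁆ := by
  rw [Subgroup.commutator_le]
  intro h hh g _
  obtain ⟨⟨⟨a, ha⟩, ⟨k, hk⟩⟩, hg⟩ := hc.2 g
  have hg' : a * k = g := hg
  rw [← hg']
  have e : ⁅h, a * k⁆ = ⁅h, a⁆ * (a * ⁅h, k⁆ * a⁻¹) := by
    simp only [commutatorElement_def]; group
  rw [e]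
  exact Subgroup.mul_mem _
    ((le_sup_right : ⁅H, H⁆ ≤ ⁅H, K⁆ ⊔ ⁅H, H⁆) (Subgroup.commutator_mem_commutator hh ha))
    ((le_sup_left : ⁅H, K⁆ ≤ ⁅H, K⁆ ⊔ ⁅H, H⁆)
      (conj_mem_commutator_of_mem_left H K ha (Subgroup.commutator_mem_commutator hh hk)))

/-- A solvable subgroup `H` with `H ≤ N H'`, where `N ≤ H` is normalized by `H`, equals `N`. -/
theorem le_of_le_sup_commutator_solvable [Finite G] (H N : Subgroup G) (hNH : N ≤ H)
    (hnorm : ∀ a ∈ H, ∀ x ∈ N, a * x * a⁻¹ ∈ N) [hs : Group.IsSolvable H]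
    (h : H ≤ N ⊔ ⁅H, H⁆) : H ≤ N := by
  haveI hn : (N.subgroupOf H).Normal := by
    refine ⟨fun x hx a => ?_⟩
    rw [Subgroup.mem_subgroupOf] at hx ⊢
    exact hnorm a a.2 x hx
  have hidx : (commutator (H ⧸ N.subgroupOf H)).index = 1 := by
    rw [commutator_quot_index H N hNH, Subgroup.relIndex_eq_one, sup_comm]
    exact h
  have htop : commutator (H ⧸ N.subgroupOf H) = ⊤ := Subgroup.index_eq_one.1 hidx
  have hsub : Subsingleton (H ⧸ N.subgroupOf H) := by
    by_contra hns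
    rw [not_subsingleton_iff_nontrivial] at hns
    haveI := hns
    exact (Group.IsSolvable.commutator_lt_top_of_nontrivial (H ⧸ N.subgroupOf H)).ne htop
  have h2 : N.subgroupOf H = ⊤ := QuotientGroup.subgroup_eq_top_of_subsingleton _ hsub
  exact Subgroup.subgroupOf_eq_top.1 h2

/-- In a finite solvable group, a normal subgroup `H ≤ G'` with a complement `K` satisfies
`H = [H, K]`. -/
theorem hall_eq_commutator_complement [Finite G] [Group.IsSolvable G] (H K : Subgroup G)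
    [hn : H.Normal] (hc : Subgroup.IsComplement' H K) (hH : H ≤ commutator G) :
    H = ⁅H, K⁆ := by
  have hle : ⁅H, K⁆ ≤ H := Subgroup.commutator_le_left H K
  refine le_antisymm ?_ hle
  exact le_of_le_sup_commutator_solvable H ⁅H, K⁆ hle
    (fun a ha x hx => conj_mem_commutator_of_mem_left H K ha hx)
    ((le_commutator_top_of_complement H K hc hH).trans (commutator_top_le_of_complement H K hc))

/-- Coprime action: if `H = [H, K]` with `H` normal and `(|H|, |K|) = 1`, then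
`C_H(K) ≤ H'`. -/
theorem inf_centralizer_le_commutator [Finite G] (H K : Subgroup G) [hn : H.Normal]
    (hcop : (Nat.card H).Coprime (Nat.card K)) (hHK : H ≤ ⁅H, K⁆) :
    H ⊓ Subgroup.centralizer (K : Set G) ≤ ⁅H, H⁆ := by
  classical
  haveI : Fintype K := Fintype.ofFinite K
  obtain ⟨τ, hτ⟩ : ∃ τ : H →* Abelianization H, ∀ a : H,
      τ a = ∏ k : K, Abelianization.of (MulAut.conjNormal (k : G) a) :=
    ⟨∏ k : K, (Abelianization.of).comp (MulAut.conjNormal (k : G) : MulAut H).toMonoidHom,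
      fun a => by rw [MonoidHom.finsetProd_apply]; rfl⟩
  have hinv : ∀ (k₀ : G), k₀ ∈ K → ∀ a : H, τ (MulAut.conjNormal k₀ a) = τ a := by
    intro k₀ hk₀ a
    rw [hτ, hτ]
    refine Fintype.prod_equiv (Equiv.mulRight (⟨k₀, hk₀⟩ : K)) _ _ ?_
    intro k
    show Abelianization.of (MulAut.conjNormal (k : G) (MulAut.conjNormal k₀ a)) =
      Abelianization.of (MulAut.conjNormal ((k * ⟨k₀, hk₀⟩ : K) : G) a)
    rw [Subgroup.coe_mul, map_mul, MulAut.mul_apply]
  have hcomm : ∀ (a : H) (k : G), k ∈ K → ⁅(a : G), k⁆ ∈ (τ.ker).map H.subtype := by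
    intro a k hk
    refine Subgroup.mem_map.2 ⟨a * MulAut.conjNormal k a⁻¹, ?_, ?_⟩
    · rw [MonoidHom.mem_ker, map_mul, hinv k hk, ← map_mul, mul_inv_cancel, map_one]
    · rw [Subgroup.subtype_apply, Subgroup.coe_mul, MulAut.conjNormal_apply, Subgroup.coe_inv,
        commutatorElement_def]
      group
  have hker : ∀ a : H, τ a = 1 := by
    intro a
    have h2 : ⁅H, K⁆ ≤ (τ.ker).map H.subtype := by
      rw [Subgroup.commutator_le]
      intro x hx k hk
      exact hcomm ⟨x, hx⟩ k hk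
    obtain ⟨b, hb, hba⟩ := Subgroup.mem_map.1 (h2 (hHK a.2))
    have hba' : b = a := Subtype.ext hba
    rw [← hba']; exact MonoidHom.mem_ker.1 hb
  intro x hx
  obtain ⟨hxH, hxC⟩ := hx
  have hfix : ∀ k : K, MulAut.conjNormal (k : G) (⟨x, hxH⟩ : H) = ⟨x, hxH⟩ := by
    intro k
    apply Subtype.ext
    rw [MulAut.conjNormal_apply]
    have hkx := Subgroup.mem_centralizer_iff.1 hxC (k : G) k.2
    show (k : G) * x * (k : G)⁻¹ = x
    rw [hkx, mul_inv_cancel_right]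
  have h1 : (Abelianization.of (⟨x, hxH⟩ : H)) ^ Nat.card K = 1 := by
    have h2 := hker ⟨x, hxH⟩
    rw [hτ] at h2
    simp only [hfix] at h2
    rw [Finset.prod_const, Finset.card_univ, ← Nat.card_eq_fintype_card] at h2
    exact h2
  have h3 : (Abelianization.of (⟨x, hxH⟩ : H)) ^ Nat.card H = 1 := by
    rw [← map_pow, pow_card_eq_one', map_one]
  have h4 : Abelianization.of (⟨x, hxH⟩ : H) = 1 := by
    have hd1 := orderOf_dvd_of_pow_eq_one h1
    have hd2 := orderOf_dvd_of_pow_eq_one h3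
    have hd := Nat.dvd_gcd hd2 hd1
    have hg : Nat.gcd (Nat.card H) (Nat.card K) = 1 := hcop
    rw [hg, Nat.dvd_one] at hd
    exact orderOf_eq_one_iff.1 hd
  have h5 : (⟨x, hxH⟩ : H) ∈ commutator H := by
    rw [← Abelianization.ker_of, MonoidHom.mem_ker]; exact h4
  rw [← commutator_subgroupOf_self, Subgroup.mem_subgroupOf] at h5
  exact h5

/-- A normal nilpotent subgroup `D` has a normal (in `G`) Hall `p'`-subgroup. -/
theorem exists_normal_hall_compl_of_nilpotent [Finite G] (D : Subgroup G) [hDn : D.Normal]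
    [hnil : Group.IsNilpotent D] (p : ℕ) [hp : Fact p.Prime] :
    ∃ Q : Subgroup G, Q.Normal ∧ Q ≤ D ∧ (Nat.card Q).Coprime p ∧
      ∃ n, Q.index = p ^ n * D.index := by
  obtain ⟨P₀⟩ : Nonempty (Sylow p D) := inferInstance
  haveI hP₀n : (P₀ : Subgroup D).Normal :=
    Sylow.normal_of_normalizerCondition Group.normalizerCondition_of_isNilpotent P₀
  obtain ⟨Q₁, hQ₁⟩ := Subgroup.exists_right_complement'_of_coprime (N := (P₀ : Subgroup D))
    P₀.card_coprime_index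
  have hQ₁card : Nat.card Q₁ = (P₀ : Subgroup D).index := hQ₁.symm.index_eq_card.symm
  have hQ₁cop : (Nat.card Q₁).Coprime p := by
    rw [hQ₁card]
    exact ((Nat.Prime.coprime_iff_not_dvd hp.out).2 P₀.not_dvd_index).symm
  obtain ⟨n, hn⟩ := IsPGroup.iff_card.1 P₀.isPGroup'
  have hchar : ∀ x : D, x ∈ Q₁ ↔ (orderOf x).Coprime p := by
    intro x
    constructor
    · intro hx
      exact Nat.Coprime.coprime_dvd_left (Subgroup.orderOf_dvd_natCard Q₁ hx) hQ₁cop
    · intro hx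
      obtain ⟨⟨⟨a, ha⟩, ⟨q, hq⟩⟩, hxe⟩ := hQ₁.2 x
      have hxe' : a * q = x := hxe
      have ha1 : a ^ (p ^ n) = 1 := by
        have h0 := pow_card_eq_one' (G := (P₀ : Subgroup D)) (x := ⟨a, ha⟩)
        rw [hn] at h0
        simpa using congrArg Subtype.val h0
      have hq1 : q ^ Nat.card Q₁ = 1 :=
        orderOf_dvd_iff_pow_eq_one.1 (Subgroup.orderOf_dvd_natCard Q₁ hq)
      have hcop1 : (orderOf a).Coprime (orderOf q) := by
        have h1 : orderOf a ∣ p ^ n := orderOf_dvd_of_pow_eq_one ha1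
        have h2 : orderOf q ∣ Nat.card Q₁ := orderOf_dvd_of_pow_eq_one hq1
        exact Nat.Coprime.coprime_dvd_left h1
          (Nat.Coprime.coprime_dvd_right h2 (Nat.Coprime.pow_left n hQ₁cop.symm))
      have hcm : Commute a q := Cfsg.Agent.Helper21.commute_of_coprime_orderOf a q hcop1
      have h3 : a ^ (Nat.card Q₁ * orderOf x) = 1 := by
        have h4 : x ^ Nat.card Q₁ = a ^ Nat.card Q₁ := by
          rw [← hxe', hcm.mul_pow, hq1, mul_one]
        rw [pow_mul, ← h4, ← pow_mul, mul_comm, pow_mul, pow_orderOf_eq_one, one_pow]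
      have h5 : orderOf a ∣ Nat.gcd (Nat.card Q₁ * orderOf x) (p ^ n) :=
        Nat.dvd_gcd (orderOf_dvd_of_pow_eq_one h3) (orderOf_dvd_of_pow_eq_one ha1)
      have h6 : Nat.gcd (Nat.card Q₁ * orderOf x) (p ^ n) = 1 :=
        Nat.Coprime.pow_right n (Nat.Coprime.mul_left hQ₁cop hx)
      rw [h6, Nat.dvd_one, orderOf_eq_one_iff] at h5
      rw [← hxe', h5, one_mul]; exact hq
  refine ⟨Q₁.map D.subtype, ?_, ?_, ?_, ?_⟩
  · refine ⟨fun y hy g => ?_⟩
    obtain ⟨x, hx, rfl⟩ := Subgroup.mem_map.1 hy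
    refine Subgroup.mem_map.2 ⟨⟨g * (x : G) * g⁻¹, hDn.conj_mem _ x.2 g⟩, ?_, rfl⟩
    rw [hchar] at hx ⊢
    have e : orderOf (⟨g * (x : G) * g⁻¹, hDn.conj_mem _ x.2 g⟩ : D) = orderOf x := by
      rw [← Subgroup.orderOf_coe, ← Subgroup.orderOf_coe x]
      exact MulEquiv.orderOf_eq (MulAut.conj g) (x : G)
    rw [e]; exact hx
  · intro y hy
    obtain ⟨x, -, rfl⟩ := Subgroup.mem_map.1 hy
    exact x.2
  · rw [Subgroup.card_map_of_injective D.subtype_injective]
    exact hQ₁cop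
  · refine ⟨n, ?_⟩
    rw [Subgroup.index_map_subtype, hQ₁.index_eq_card, hn]

/-- If `G'` is nilpotent of prime index `p`, then `p` does not divide `|G'|`. -/
theorem coprime_of_commutator_nilpotent_index_prime [Finite G]
    (hnil : Group.IsNilpotent (commutator G)) (p : ℕ) (hp : p.Prime)
    (hidx : (commutator G).index = p) : (Nat.card (commutator G)).Coprime p := by
  haveI := hnil
  haveI : Fact p.Prime := ⟨hp⟩
  obtain ⟨Q, hQn, hQD, hQcop, n, hQidx⟩ :=
    exists_normal_hall_compl_of_nilpotent (commutator G) p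
  haveI := hQn
  have hpg : IsPGroup p (G ⧸ Q) := by
    apply IsPGroup.of_card (n := n + 1)
    rw [← Subgroup.index_eq_card, hQidx, hidx, pow_succ]
  have hTnil : Group.IsNilpotent (G ⧸ Q) := hpg.isNilpotent
  have hsurj := QuotientGroup.mk'_surjective Q
  have h1 : commutator (G ⧸ Q) = (commutator G).map (QuotientGroup.mk' Q) := by
    rw [commutator_def, commutator_def, Subgroup.map_commutator,
      Subgroup.map_top_of_surjective _ hsurj]
  have h2 : (commutator (G ⧸ Q)).index = p := by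
    rw [h1, Subgroup.index_map, QuotientGroup.ker_mk', MonoidHom.range_eq_top.2 hsurj,
      Subgroup.index_top, mul_one, sup_eq_left.2 hQD, hidx]
  have h3 := commutator_eq_bot_of_index_prime hTnil p hp h2
  have h4 : commutator G ≤ Q := by
    intro d hd
    have h5 : QuotientGroup.mk' Q d ∈ commutator (G ⧸ Q) := by
      rw [h1]; exact Subgroup.mem_map_of_mem _ hd
    rw [h3, Subgroup.mem_bot] at h5
    exact (QuotientGroup.eq_one_iff d).1 h5
  exact Nat.Coprime.coprime_dvd_left (Subgroup.card_dvd_of_le h4) hQcop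

end HallComm

end Cfsg.Agent.Helper10
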