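import Mathlib
import Cfsg.Prelude.Def_OddOrderLocal
import Cfsg.Agent.Helper10.FreeAct
import Cfsg.Agent.Helper16.PCore
import Cfsg.Agent.S0041
import Cfsg.Agent.S1477

set_option autoImplicit false

/-!
# Internal structure of three-step groups, helper10

Abelian `p`-subgroups of a three-step group of maximal order lie in the `p`-core.
-/

open Cfsg
open scoped commutatorElement

namespace Cfsg.Agent.Helper10

section ThreeStep

variable {M : Type*} [Group M]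

/-- elements of a `p`-subgroup are killed by a power of `p` -/
theorem ts_pow_eq_one {p : ℕ} {K : Subgroup M} (hK : IsPGroup p K) {x : M} (hx : x ∈ K) :
    ∃ n : ℕ, x ^ (p ^ n) = 1 := by
  obtain ⟨n, hn⟩ := hK ⟨x, hx⟩
  exact ⟨n, congrArg Subtype.val hn⟩

theorem ts_eq_one_of_pow {p : ℕ} {A : Subgroup M} (hA : (Nat.card A).Coprime p) {a : M}
    (ha : a ∈ A) {k : ℕ} (hk : a ^ (p ^ k) = 1) : a = 1 := by
  have h1 : orderOf a ∣ p ^ k := orderOf_dvd_of_pow_eq_one hk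
  have h2 : orderOf a ∣ Nat.card A := Subgroup.orderOf_dvd_natCard _ ha
  have h3 : (Nat.card A).Coprime (p ^ k) := Nat.Coprime.pow_right k hA
  have h4 : (orderOf a).Coprime (p ^ k) := Nat.Coprime.coprime_dvd_left h2 h3
  have h5 : orderOf a = 1 := Nat.Coprime.eq_one_of_dvd h4 h1
  exact orderOf_eq_one_iff.1 h5

/-- `p`-elements of `K ⊔ A` lie in `K`. -/
theorem ts_pelt_mem {p : ℕ} {K A : Subgroup M} [K.Normal] (hK : IsPGroup p K)
    (hA : (Nat.card A).Coprime p) {x : M} (hx : x ∈ K ⊔ A) {k : ℕ} (hk : x ^ (p ^ k) = 1) :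
    x ∈ K := by
  obtain ⟨y, hy, z, hz, rfl⟩ := Subgroup.mem_sup_of_normal_left.1 hx
  have hy1 : QuotientGroup.mk' K y = 1 := (QuotientGroup.eq_one_iff y).2 hy
  have h1 : QuotientGroup.mk' K (y * z) = QuotientGroup.mk' K z := by
    rw [map_mul, hy1, one_mul]
  have h2 : QuotientGroup.mk' K (z ^ (p ^ k)) = 1 := by
    rw [map_pow, ← h1, ← map_pow, hk, map_one]
  have h3 : z ^ (p ^ k) ∈ K := (QuotientGroup.eq_one_iff _).1 h2
  obtain ⟨n, hn⟩ := ts_pow_eq_one hK h3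
  have h4 : z ^ (p ^ (k + n)) = 1 := by rw [pow_add, pow_mul]; exact hn
  have h5 : z = 1 := ts_eq_one_of_pow hA hz h4
  rw [h5, mul_one]; exact hy

/-- commutators act trivially on the cyclic quotient `KA/K`. -/
theorem ts_comm_mem {K A : Subgroup M} [hKn : K.Normal] (hAc : IsCyclic A)
    (hN : (K ⊔ A).Normal) (x y a : M) (ha : a ∈ A) :
    ⁅x, y⁆ * a * ⁅x, y⁆⁻¹ * a⁻¹ ∈ K := by
  classical
  obtain ⟨Ab, hAb⟩ : ∃ Ab : Subgroup (M ⧸ K), Ab = A.map (QuotientGroup.mk' K) := ⟨_, rfl⟩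
  haveI hAbn : Ab.Normal := by
    have h1 : Ab = (K ⊔ A).map (QuotientGroup.mk' K) := by
      rw [hAb, Subgroup.map_sup, QuotientGroup.map_mk'_self, bot_sup_eq]
    rw [h1]
    exact Subgroup.Normal.map hN _ (QuotientGroup.mk'_surjective K)
  haveI hAbc : IsCyclic Ab := by
    rw [hAb]
    haveI := hAc
    exact isCyclic_of_surjective ((QuotientGroup.mk' K).subgroupMap A)
      (MonoidHom.subgroupMap_surjective _ _)
  have hcomm : ∀ σ τ : MulAut Ab, σ * τ = τ * σ := by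
    intro σ τ
    apply (IsCyclic.mulAutMulEquiv Ab).injective
    rw [map_mul, map_mul, mul_comm]
  have h1 : (MulAut.conjNormal (H := Ab)) (QuotientGroup.mk' K ⁅x, y⁆) = 1 := by
    rw [map_commutatorElement, map_commutatorElement]
    exact commutatorElement_eq_one_iff_mul_comm.2 (hcomm _ _)
  have hmem : QuotientGroup.mk' K a ∈ Ab := by rw [hAb]; exact Subgroup.mem_map_of_mem _ ha
  have h2 : (((MulAut.conjNormal (H := Ab)) (QuotientGroup.mk' K ⁅x, y⁆)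
      ⟨QuotientGroup.mk' K a, hmem⟩ : Ab) : M ⧸ K) = QuotientGroup.mk' K a := by
    rw [h1]; rfl
  rw [MulAut.conjNormal_apply] at h2
  have h2' : QuotientGroup.mk' K ⁅x, y⁆ * QuotientGroup.mk' K a *
      (QuotientGroup.mk' K ⁅x, y⁆)⁻¹ = QuotientGroup.mk' K a := h2
  apply (QuotientGroup.eq_one_iff _).1
  show QuotientGroup.mk' K (⁅x, y⁆ * a * ⁅x, y⁆⁻¹ * a⁻¹) = 1
  rw [map_mul, map_mul, map_mul, map_inv, map_inv]
  rw [h2', mul_inv_cancel]

theorem ts_exists_ne_one {A : Subgroup M} (hA1 : A ≠ ⊥) : ∃ a ∈ A, a ≠ 1 := by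
  by_contra hcon
  apply hA1
  rw [Subgroup.eq_bot_iff_forall]
  intro a ha
  by_contra ha1
  exact hcon ⟨a, ha, ha1⟩

/-- commutators that are `p`-elements lie in the `p`-core of a three-step group -/
theorem ts_comm_pelt {p : ℕ} (h3 : IsThreeStepGroup p M) (x y : M) {k : ℕ}
    (hk : ⁅x, y⁆ ^ (p ^ k) = 1) : ⁅x, y⁆ ∈ pCore p M := by
  obtain ⟨hK1, A, hA1, hAc, hAodd, hAp, hNn, hNtop, ⟨n, hidx⟩, hfpf, hax⟩ := h3
  haveI hKn : (pCore p M).Normal := Cfsg.Agent.Helper16.pCore_normal p M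
  have hK : IsPGroup p (pCore p M) := Cfsg.Agent.Helper16.pCore_isPGroup p M
  obtain ⟨a, ha, ha1⟩ := ts_exists_ne_one hA1
  have h1 : ⁅x, y⁆ ∈ pCore p M ⊔ A := by
    by_contra hnot
    exact hax _ hnot a ha ha1 (ts_comm_mem hAc hNn x y a ha)
  exact ts_pelt_mem hK hAp h1 hk

/-- a three-step group has a `p`-element outside its `p`-core -/
theorem ts_exists_pelt [Finite M] {p : ℕ} [hp : Fact p.Prime] (h3 : IsThreeStepGroup p M) :
    ∃ b : M, b ∉ pCore p M ∧ ∃ k : ℕ, b ^ (p ^ k) = 1 := by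
  obtain ⟨hK1, A, hA1, hAc, hAodd, hAp, hNn, hNtop, ⟨n, hidx⟩, hfpf, hax⟩ := h3
  haveI hKn : (pCore p M).Normal := Cfsg.Agent.Helper16.pCore_normal p M
  have hK : IsPGroup p (pCore p M) := Cfsg.Agent.Helper16.pCore_isPGroup p M
  have hn0 : n ≠ 0 := by
    rintro rfl
    rw [pow_zero] at hidx
    exact hNtop (Subgroup.index_eq_one.1 hidx)
  have h1 : p ∣ (pCore p M).index := by
    rw [← Subgroup.relIndex_mul_index (le_sup_left : pCore p M ≤ pCore p M ⊔ A), hidx]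
    exact Dvd.dvd.mul_left (dvd_pow_self p hn0) _
  rw [Subgroup.index_eq_card] at h1
  obtain ⟨xb, hxb⟩ := exists_prime_orderOf_dvd_card' p h1
  obtain ⟨x, rfl⟩ := QuotientGroup.mk'_surjective (pCore p M) xb
  have hx1 : QuotientGroup.mk' (pCore p M) x ≠ 1 := by
    intro h
    rw [h, orderOf_one] at hxb
    exact hp.out.one_lt.ne hxb
  have hx2 : x ^ p ∈ pCore p M := by
    apply (QuotientGroup.eq_one_iff _).1
    show QuotientGroup.mk' (pCore p M) (x ^ p) = 1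
    have h5 := pow_orderOf_eq_one (QuotientGroup.mk' (pCore p M) x)
    rw [hxb] at h5
    rw [map_pow]
    exact h5
  obtain ⟨m, hm⟩ := ts_pow_eq_one hK hx2
  refine ⟨x, fun h => hx1 ((QuotientGroup.eq_one_iff x).2 h), m + 1, ?_⟩
  rw [pow_succ', pow_mul]; exact hm

/-- `Ω₁(Z(K))` as a subgroup of the ambient group. -/
def omegaCenterSub (p : ℕ) (K : Subgroup M) : Subgroup M where
  carrier := {z | z ∈ K ∧ (∀ k ∈ K, z * k = k * z) ∧ z ^ p = 1}
  one_mem' := ⟨K.one_mem, fun k _ => by rw [one_mul, mul_one], one_pow p⟩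
  mul_mem' := by
    rintro a b ⟨ha, hac, hap⟩ ⟨hb, hbc, hbp⟩
    refine ⟨K.mul_mem ha hb, fun k hk => ?_, ?_⟩
    · rw [mul_assoc, hbc k hk, ← mul_assoc, hac k hk, mul_assoc]
    · have hab : Commute a b := hac b hb
      rw [hab.mul_pow, hap, hbp, one_mul]
  inv_mem' := by
    rintro a ⟨ha, hac, hap⟩
    refine ⟨K.inv_mem ha, fun k hk => ?_, by rw [inv_pow, hap, inv_one]⟩
    have h := hac k hk
    calc a⁻¹ * k = a⁻¹ * (k * a) * a⁻¹ := by group
      _ = a⁻¹ * (a * k) * a⁻¹ := by rw [h]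
      _ = k * a⁻¹ := by group

theorem mem_omegaCenterSub {p : ℕ} {K : Subgroup M} {z : M} :
    z ∈ omegaCenterSub p K ↔ z ∈ K ∧ (∀ k ∈ K, z * k = k * z) ∧ z ^ p = 1 := Iff.rfl

theorem omegaCenterSub_le (p : ℕ) (K : Subgroup M) : omegaCenterSub p K ≤ K :=
  fun _ hz => (mem_omegaCenterSub.1 hz).1

theorem omegaCenterSub_normal (p : ℕ) (K : Subgroup M) [hK : K.Normal] :
    (omegaCenterSub p K).Normal := by
  constructor
  intro z hz g
  obtain ⟨h1, h2, h3⟩ := mem_omegaCenterSub.1 hz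
  refine mem_omegaCenterSub.2 ⟨hK.conj_mem z h1 g, fun k hk => ?_, ?_⟩
  · have h4 : g⁻¹ * k * g ∈ K := by
      have := hK.conj_mem k hk g⁻¹
      rwa [inv_inv] at this
    have h5 := h2 _ h4
    calc g * z * g⁻¹ * k = g * (z * (g⁻¹ * k * g)) * g⁻¹ := by group
      _ = g * ((g⁻¹ * k * g) * z) * g⁻¹ := by rw [h5]
      _ = k * (g * z * g⁻¹) := by group
  · rw [conj_pow, h3, mul_one, mul_inv_cancel]

theorem omegaCenterSub_ne_bot [Finite M] {p : ℕ} [hp : Fact p.Prime] {K : Subgroup M}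
    (hK : IsPGroup p K) (hK1 : K ≠ ⊥) : omegaCenterSub p K ≠ ⊥ := by
  have hnil : Group.IsNilpotent K := hK.isNilpotent
  have hdvd : p ∣ Nat.card K := by
    obtain ⟨n, hn⟩ := IsPGroup.iff_card.1 hK
    have hn0 : n ≠ 0 := by
      rintro rfl
      rw [pow_zero] at hn
      exact hK1 (Subgroup.eq_bot_of_card_eq K hn)
    rw [hn]
    exact dvd_pow_self p hn0
  obtain ⟨y, hyK, hyo, hyc⟩ := Cfsg.Agent.S1477.exists_central_prime K hnil hp.out hdvd
  intro hbot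
  have hy : y ∈ omegaCenterSub p K :=
    mem_omegaCenterSub.2 ⟨hyK, hyc, by rw [← hyo, pow_orderOf_eq_one]⟩
  rw [hbot, Subgroup.mem_bot] at hy
  rw [hy, orderOf_one] at hyo
  exact hp.out.one_lt.ne hyo

/-- version of `frob_fixed_abstract` for a group with commutativity as a hypothesis -/
theorem frob_fixed_abstract' {M Wt : Type*} [Group M] [Group Wt] [Finite Wt]
    (hcomm : ∀ u v : Wt, u * v = v * u) (p : ℕ)
    [hp : Fact p.Prime] (hexp : ∀ w : Wt, w ^ p = 1) (φ : M →* MulAut Wt) (A : Subgroup M)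
    [Finite A]
    (hinj : ∀ a ∈ A, φ a = 1 → a = 1)
    (hfix : ∀ w : Wt, (∀ a ∈ A, φ a w = w) → w = 1)
    (b : M) (hstab : ∀ a ∈ A, ∃ a' ∈ A, φ (b * a * b⁻¹) = φ a')
    (j : ℕ) (hbj : φ (b ^ (p ^ j)) = 1)
    (hfree : ∀ i : ℕ, 0 < i → i < p ^ j → ∀ a ∈ A,
      φ (b ^ i * a * (b ^ i)⁻¹) = φ a → φ a = 1) :
    Nat.card {w : Wt // φ b w = w} ^ (p ^ j) ≤ Nat.card Wt ∧
      (Nontrivial Wt → 2 ≤ Nat.card {w : Wt // φ b w = w}) :=
  @frob_fixed_abstract M Wt _ { (inferInstance : Group Wt) with mul_comm := hcomm } _ p _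
    hexp φ A _ hinj hfix b hstab j hbj hfree

theorem ts_mul_lt_pow {n f : ℕ} (hn : 3 ≤ n) (hf : 2 ≤ f) : n * f < f ^ n := by
  induction n, hn using Nat.le_induction with
  | base =>
    have h1 : 2 * 2 ≤ f * f := Nat.mul_le_mul hf hf
    have h2 : f ^ 3 = f * f * f := by ring
    rw [h2]
    nlinarith [Nat.mul_le_mul_right f h1]
  | succ n hn ih =>
    rw [pow_succ]
    have h1 : n * f * 2 ≤ n * f * f := Nat.mul_le_mul_left _ hf
    have h2 : n * f * f < f ^ n * f := mul_lt_mul_of_pos_right ih (by omega)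
    have h3 : f ≤ n * f := Nat.le_mul_of_pos_left f (by omega)
    nlinarith

/-- the free-module count applied to `Ω₁(Z(K))` -/
theorem ts_fixed_card [Finite M] {p : ℕ} [hp : Fact p.Prime] {K A : Subgroup M} [hKn : K.Normal]
    (hK : IsPGroup p K) (hK1 : K ≠ ⊥) (hA1 : A ≠ ⊥) (hAp : (Nat.card A).Coprime p)
    (hN : (K ⊔ A).Normal)
    (hfpf : ∀ a ∈ A, a ≠ 1 → K ⊓ Subgroup.centralizer ({a} : Set M) = ⊥)
    (hax : ∀ x : M, x ∉ K ⊔ A → ∀ a ∈ A, a ≠ 1 → x * a * x⁻¹ * a⁻¹ ∉ K)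
    (b : M) (j : ℕ) (hbj : b ^ (p ^ j) ∈ K) (hbmin : ∀ i, 0 < i → i < p ^ j → b ^ i ∉ K)
    (hbp : ∃ n : ℕ, b ^ (p ^ n) = 1) :
    ∃ f : ℕ, 2 ≤ f ∧ f ^ (p ^ j) ≤ Nat.card (omegaCenterSub p K) ∧
      ∀ D : Subgroup M, D ≤ omegaCenterSub p K → (∀ d ∈ D, b * d = d * b) → Nat.card D ≤ f := by
  classical
  obtain ⟨W, hW⟩ : ∃ W : Subgroup M, W = omegaCenterSub p K := ⟨_, rfl⟩
  rw [← hW]
  haveI hWn : W.Normal := hW ▸ omegaCenterSub_normal p K
  have hW1 : W ≠ ⊥ := hW ▸ omegaCenterSub_ne_bot hK hK1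
  have hWK : W ≤ K := hW ▸ omegaCenterSub_le p K
  have hWc : ∀ w ∈ W, ∀ k ∈ K, w * k = k * w := by
    intro w hw
    rw [hW] at hw
    exact (mem_omegaCenterSub.1 hw).2.1
  have hWp : ∀ w ∈ W, w ^ p = 1 := by
    intro w hw
    rw [hW] at hw
    exact (mem_omegaCenterSub.1 hw).2.2
  have hcomm : ∀ u v : W, u * v = v * u := fun u v => Subtype.ext (hWc u.1 u.2 v.1 (hWK v.2))
  have hexp : ∀ w : W, w ^ p = 1 := fun w => Subtype.ext (hWp w.1 w.2)
  obtain ⟨φ, hφ⟩ : ∃ φ : M →* MulAut W, φ = MulAut.conjNormal := ⟨_, rfl⟩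
  have hφa : ∀ (g : M) (w : M) (hw : w ∈ W), ((φ g ⟨w, hw⟩ : W) : M) = g * w * g⁻¹ := by
    intro g w hw
    rw [hφ]
    exact MulAut.conjNormal_apply g ⟨w, hw⟩
  have hφK : ∀ k ∈ K, φ k = 1 := by
    intro k hk
    apply MulEquiv.ext
    rintro ⟨w, hw⟩
    apply Subtype.ext
    rw [hφa]
    show k * w * k⁻¹ = w
    rw [← hWc w hw k hk, mul_inv_cancel_right]
  have hcent : ∀ (g : M) (w : M) (hw : w ∈ W), φ g ⟨w, hw⟩ = ⟨w, hw⟩ → g * w = w * g := by
    intro g w hw h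
    have h1 := hφa g w hw
    rw [h] at h1
    have h2 : w = g * w * g⁻¹ := h1
    calc g * w = g * w * g⁻¹ * g := by group
      _ = w * g := by rw [← h2]
  obtain ⟨w0, hw0W, hw01⟩ := ts_exists_ne_one hW1
  obtain ⟨a0, ha0, ha01⟩ := ts_exists_ne_one hA1
  have hinj : ∀ a ∈ A, φ a = 1 → a = 1 := by
    intro a ha h1
    by_contra hne
    have h2 : w0 ∈ K ⊓ Subgroup.centralizer ({a} : Set M) := by
      refine Subgroup.mem_inf.2 ⟨hWK hw0W, Subgroup.mem_centralizer_iff.2 ?_⟩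
      intro h hh
      rw [Set.mem_singleton_iff.1 hh]
      exact hcent a w0 hw0W (by rw [h1]; rfl)
    rw [hfpf a ha hne] at h2
    exact hw01 (Subgroup.mem_bot.1 h2)
  have hfix : ∀ w : W, (∀ a ∈ A, φ a w = w) → w = 1 := by
    rintro ⟨w, hw⟩ h
    have h2 : w ∈ K ⊓ Subgroup.centralizer ({a0} : Set M) := by
      refine Subgroup.mem_inf.2 ⟨hWK hw, Subgroup.mem_centralizer_iff.2 ?_⟩
      intro h' hh
      rw [Set.mem_singleton_iff.1 hh]
      exact hcent a0 w hw (h a0 ha0)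
    rw [hfpf a0 ha0 ha01] at h2
    exact Subtype.ext (Subgroup.mem_bot.1 h2)
  have hstab : ∀ a ∈ A, ∃ a' ∈ A, φ (b * a * b⁻¹) = φ a' := by
    intro a ha
    have h1 : b * a * b⁻¹ ∈ K ⊔ A := hN.conj_mem a (Subgroup.mem_sup_right ha) b
    obtain ⟨k, hk, a', ha', hka'⟩ := Subgroup.mem_sup_of_normal_left.1 h1
    exact ⟨a', ha', by rw [← hka', map_mul, hφK k hk, one_mul]⟩
  have hbj' : φ (b ^ (p ^ j)) = 1 := hφK _ hbj
  have hfree : ∀ i : ℕ, 0 < i → i < p ^ j → ∀ a ∈ A,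
      φ (b ^ i * a * (b ^ i)⁻¹) = φ a → φ a = 1 := by
    intro i hi0 hilt a ha heq
    by_contra hne
    have ha1 : a ≠ 1 := fun h => hne (by rw [h, map_one])
    have hc : b ^ i * a * (b ^ i)⁻¹ * a⁻¹ ∈ K ⊔ A :=
      (K ⊔ A).mul_mem (hN.conj_mem a (Subgroup.mem_sup_right ha) (b ^ i))
        ((K ⊔ A).inv_mem (Subgroup.mem_sup_right ha))
    have hφc : φ (b ^ i * a * (b ^ i)⁻¹ * a⁻¹) = 1 := by
      rw [map_mul, heq, map_inv, mul_inv_cancel]
    obtain ⟨k, hk, a'', ha'', hka⟩ := Subgroup.mem_sup_of_normal_left.1 hc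
    have h1 : φ a'' = 1 := by
      have h := hφc
      rw [← hka, map_mul, hφK k hk, one_mul] at h
      exact h
    have h2 : a'' = 1 := hinj a'' ha'' h1
    have hcK : b ^ i * a * (b ^ i)⁻¹ * a⁻¹ ∈ K := by
      rw [← hka, h2, mul_one]; exact hk
    have hbi : b ^ i ∈ K ⊔ A := by
      by_contra hnot
      exact hax (b ^ i) hnot a ha ha1 hcK
    obtain ⟨n, hn⟩ := hbp
    have hbi' : (b ^ i) ^ (p ^ n) = 1 := by
      rw [← pow_mul, mul_comm, pow_mul, hn, one_pow]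
    exact hbmin i hi0 hilt (ts_pelt_mem hK hAp hbi hbi')
  obtain ⟨h1, h2⟩ := frob_fixed_abstract' hcomm p hexp φ A hinj hfix b hstab j hbj' hfree
  refine ⟨Nat.card {w : W // φ b w = w}, h2 ((Subgroup.nontrivial_iff_ne_bot W).2 hW1), h1, ?_⟩
  intro D hDW hDb
  have hfixd : ∀ d : D, φ b ⟨d.1, hDW d.2⟩ = ⟨d.1, hDW d.2⟩ := by
    intro d
    apply Subtype.ext
    rw [hφa]
    show b * d.1 * b⁻¹ = d.1
    rw [hDb _ d.2, mul_inv_cancel_right]
  have hinjD : Function.Injective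
      (fun d : D => (⟨⟨d.1, hDW d.2⟩, hfixd d⟩ : {w : W // φ b w = w})) := by
    intro d d' hdd
    have h3 := congrArg (fun t : {w : W // φ b w = w} => ((t.1 : W) : M)) hdd
    exact Subtype.ext h3
  exact Nat.card_le_card_of_injective _ hinjD

/-- **Key lemma**: in a three-step group (odd `p`), an abelian `p`-subgroup not inside the
`p`-core is strictly smaller than some abelian subgroup of the `p`-core. -/
theorem ts_abelian_le_core [Finite M] {p : ℕ} [hp : Fact p.Prime] (hp2 : p ≠ 2)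
    (h3 : IsThreeStepGroup p M) (B : Subgroup M) (hBp : IsPGroup p B)
    (hBc : ∀ x ∈ B, ∀ y ∈ B, x * y = y * x) (hBK : ¬ B ≤ pCore p M) :
    ∃ B₁ : Subgroup M, B₁ ≤ pCore p M ∧ (∀ x ∈ B₁, ∀ y ∈ B₁, x * y = y * x) ∧
      Nat.card B < Nat.card B₁ := by
  classical
  obtain ⟨hK1, A, hA1, hAc, hAodd, hAp, hNn, hNtop, ⟨n, hidx⟩, hfpf, hax⟩ := h3
  obtain ⟨K, hKdef⟩ : ∃ K : Subgroup M, K = pCore p M := ⟨_, rfl⟩
  rw [← hKdef] at hK1 hNn hNtop hidx hfpf hax hBK ⊢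
  haveI hKn : K.Normal := hKdef ▸ Cfsg.Agent.Helper16.pCore_normal p M
  have hK : IsPGroup p K := hKdef ▸ Cfsg.Agent.Helper16.pCore_isPGroup p M
  obtain ⟨π, hπ⟩ : ∃ π : M →* M ⧸ K, π = QuotientGroup.mk' K := ⟨_, rfl⟩
  have hπker : ∀ x, π x = 1 ↔ x ∈ K := by
    intro x; rw [hπ]; exact QuotientGroup.eq_one_iff x
  have hπsurj : Function.Surjective π := by rw [hπ]; exact QuotientGroup.mk'_surjective K
  obtain ⟨Bb, hBb⟩ : ∃ Bb : Subgroup (M ⧸ K), Bb = B.map π := ⟨_, rfl⟩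
  obtain ⟨Ab, hAb⟩ : ∃ Ab : Subgroup (M ⧸ K), Ab = A.map π := ⟨_, rfl⟩
  obtain ⟨a0, ha0, ha01⟩ := ts_exists_ne_one hA1
  have hAbn : Ab.Normal := by
    have h1 : Ab = (K ⊔ A).map π := by
      rw [hAb, Subgroup.map_sup, hπ, QuotientGroup.map_mk'_self, bot_sup_eq]
    rw [h1]
    exact Subgroup.Normal.map hNn _ hπsurj
  have hBbcyc : IsCyclic Bb := by
    haveI : IsMulCommutative Ab := by
      refine ⟨⟨?_⟩⟩
      rintro ⟨u, hu⟩ ⟨v, hv⟩
      rw [hAb] at hu hv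
      obtain ⟨u0, hu0, rfl⟩ := Subgroup.mem_map.1 hu
      obtain ⟨v0, hv0, rfl⟩ := Subgroup.mem_map.1 hv
      apply Subtype.ext
      show π u0 * π v0 = π v0 * π u0
      obtain ⟨g, hg⟩ := hAc.exists_generator
      obtain ⟨m1, hm1⟩ := Subgroup.mem_zpowers_iff.1 (hg ⟨u0, hu0⟩)
      obtain ⟨m2, hm2⟩ := Subgroup.mem_zpowers_iff.1 (hg ⟨v0, hv0⟩)
      have e1 : u0 = (g : M) ^ m1 := by
        have := congrArg Subtype.val hm1
        rw [Subgroup.coe_zpow] at this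
        exact this.symm
      have e2 : v0 = (g : M) ^ m2 := by
        have := congrArg Subtype.val hm2
        rw [Subgroup.coe_zpow] at this
        exact this.symm
      rw [e1, e2, ← map_mul, ← map_mul, ← zpow_add, ← zpow_add, add_comm]
    haveI : IsMulCommutative Bb := by
      refine ⟨⟨?_⟩⟩
      rintro ⟨u, hu⟩ ⟨v, hv⟩
      rw [hBb] at hu hv
      obtain ⟨u0, hu0, rfl⟩ := Subgroup.mem_map.1 hu
      obtain ⟨v0, hv0, rfl⟩ := Subgroup.mem_map.1 hv
      apply Subtype.ext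
      show π u0 * π v0 = π v0 * π u0
      rw [← map_mul, ← map_mul, hBc u0 hu0 v0 hv0]
    apply Cfsg.Agent.S0041.result Bb Ab
    · intro hbot
      have h1 : π a0 ∈ Ab := by rw [hAb]; exact Subgroup.mem_map_of_mem π ha0
      rw [hbot, Subgroup.mem_bot] at h1
      have h2 : a0 ∈ K ⊓ Subgroup.centralizer ({a0} : Set M) := by
        refine Subgroup.mem_inf.2 ⟨(hπker a0).1 h1, Subgroup.mem_centralizer_iff.2 ?_⟩
        intro h hh
        rw [Set.mem_singleton_iff.1 hh]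
      rw [hfpf a0 ha0 ha01] at h2
      exact ha01 (Subgroup.mem_bot.1 h2)
    · intro x _
      rw [Subgroup.normalizer_eq_top_iff.2 hAbn]
      exact Subgroup.mem_top x
    · intro bb hbb hbb1
      rw [hBb] at hbb
      obtain ⟨b0, hb0, rfl⟩ := Subgroup.mem_map.1 hbb
      rw [eq_bot_iff]
      rintro z ⟨hz1, hz2⟩
      rw [Subgroup.mem_bot]
      have hz1' : z ∈ Ab := hz1
      rw [hAb] at hz1'
      obtain ⟨a, ha, rfl⟩ := Subgroup.mem_map.1 hz1'
      by_contra hz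
      have ha1 : a ≠ 1 := fun h => hz (by rw [h, map_one])
      have hcz : π b0 * π a = π a * π b0 :=
        Subgroup.mem_centralizer_iff.1 hz2 (π b0) (Set.mem_singleton _)
      have h1 : b0 * a * b0⁻¹ * a⁻¹ ∈ K := by
        apply (hπker _).1
        rw [map_mul, map_mul, map_mul, map_inv, map_inv, hcz, mul_inv_cancel_right,
          mul_inv_cancel]
      have h2 : b0 ∈ K ⊔ A := by
        by_contra hnot
        exact hax b0 hnot a ha ha1 h1
      obtain ⟨m, hm⟩ := ts_pow_eq_one hBp hb0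
      exact hbb1 ((hπker b0).2 (ts_pelt_mem hK hAp h2 hm))
    · exact Or.inl inferInstance
  obtain ⟨g, hg⟩ := hBbcyc.exists_generator
  have hmemB : ∀ z ∈ Bb, ∃ b ∈ B, π b = z := by
    intro z hz
    rw [hBb] at hz
    exact Subgroup.mem_map.1 hz
  obtain ⟨b, hbB, hbg⟩ := hmemB g.1 g.2
  have hord : orderOf (π b) = Nat.card Bb := by
    rw [hbg, Subgroup.orderOf_coe]
    exact orderOf_eq_card_of_forall_mem_zpowers hg
  have hBbp : IsPGroup p Bb := hBb ▸ hBp.map π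
  obtain ⟨j, hj⟩ := IsPGroup.iff_card.1 hBbp
  have hj0 : j ≠ 0 := by
    rintro rfl
    apply hBK
    intro x hx
    have h1 : π x ∈ Bb := by rw [hBb]; exact Subgroup.mem_map_of_mem π hx
    have h2 : Bb = ⊥ := Subgroup.eq_bot_of_card_eq Bb (by rw [hj, pow_zero])
    rw [h2] at h1
    exact (hπker x).1 (Subgroup.mem_bot.1 h1)
  have hbj : b ^ (p ^ j) ∈ K := by
    apply (hπker _).1
    rw [map_pow, ← hj, ← hord, pow_orderOf_eq_one]
  have hbmin : ∀ i, 0 < i → i < p ^ j → b ^ i ∉ K := by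
    intro i hi0 hilt hmem
    have h1 : (π b) ^ i = 1 := by rw [← map_pow]; exact (hπker _).2 hmem
    have h2 := Nat.le_of_dvd hi0 (orderOf_dvd_of_pow_eq_one h1)
    rw [hord, hj] at h2
    omega
  have hbp : ∃ n : ℕ, b ^ (p ^ n) = 1 := ts_pow_eq_one hBp hbB
  obtain ⟨f, hf2, hfW, hfD⟩ := ts_fixed_card hK hK1 hA1 hAp hNn hfpf hax b j hbj hbmin hbp
  obtain ⟨W, hW⟩ : ∃ W : Subgroup M, W = omegaCenterSub p K := ⟨_, rfl⟩
  rw [← hW] at hfW hfD
  haveI hWn : W.Normal := hW ▸ omegaCenterSub_normal p K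
  have hWK : W ≤ K := hW ▸ omegaCenterSub_le p K
  have hWc : ∀ w ∈ W, ∀ k ∈ K, w * k = k * w := by
    intro w hw
    rw [hW] at hw
    exact (mem_omegaCenterSub.1 hw).2.1
  refine ⟨(B ⊓ K) ⊔ W, sup_le inf_le_right hWK, ?_, ?_⟩
  · have h1 : B ⊓ K ⊔ W ≤ Subgroup.centralizer ((B ⊓ K ⊔ W : Subgroup M) : Set M) := by
      apply sup_le
      · rw [Subgroup.le_centralizer_iff]
        apply sup_le
        · intro x hx
          rw [Subgroup.mem_centralizer_iff]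
          intro y hy
          have hy' : y ∈ B ⊓ K := hy
          exact hBc y hy'.1 x hx.1
        · intro w hw
          rw [Subgroup.mem_centralizer_iff]
          intro y hy
          have hy' : y ∈ B ⊓ K := hy
          exact (hWc w hw y hy'.2).symm
      · intro w hw
        rw [Subgroup.mem_centralizer_iff]
        intro y hy
        have hy' : y ∈ B ⊓ K ⊔ W := hy
        exact (hWc w hw y (sup_le inf_le_right hWK hy')).symm
    intro x hx y hy
    exact Subgroup.mem_centralizer_iff.1 (h1 hy) x hx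
  · have hc1 : Nat.card B = Nat.card (B ⊓ K : Subgroup M) * p ^ j := by
      have h1 : K.relIndex B = Nat.card Bb := by
        have h := Subgroup.relIndex_ker (K := B) π
        rw [hπ, QuotientGroup.ker_mk', ← hπ, ← hBb] at h
        exact h
      have h2 := Subgroup.relIndex_mul_relIndex ⊥ (B ⊓ K) B bot_le inf_le_left
      rw [Subgroup.relIndex_bot_left, Subgroup.relIndex_bot_left, Subgroup.inf_relIndex_left, h1,
        hj] at h2
      exact h2.symm
    have hc2 : Nat.card (B ⊓ K ⊔ W : Subgroup M) * Nat.card (W ⊓ (B ⊓ K) : Subgroup M) =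
        Nat.card W * Nat.card (B ⊓ K : Subgroup M) := by
      have h1 := Subgroup.relIndex_mul_relIndex ⊥ W (B ⊓ K ⊔ W) bot_le le_sup_right
      rw [Subgroup.relIndex_bot_left, Subgroup.relIndex_bot_left, Subgroup.relIndex_sup_right]
        at h1
      have h2 := Subgroup.relIndex_mul_relIndex ⊥ (W ⊓ (B ⊓ K)) (B ⊓ K) bot_le inf_le_right
      rw [Subgroup.relIndex_bot_left, Subgroup.relIndex_bot_left, Subgroup.inf_relIndex_right]
        at h2
      rw [← h1, ← h2]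
      ring
    have hc3 : Nat.card (W ⊓ (B ⊓ K) : Subgroup M) ≤ f :=
      hfD _ inf_le_left (fun d hd => hBc b hbB d hd.2.1)
    have hp3 : 3 ≤ p := by
      have := hp.out.two_le
      omega
    have hn3 : 3 ≤ p ^ j := le_trans hp3 (Nat.le_self_pow hj0 p)
    have hkey : p ^ j * f < f ^ (p ^ j) := ts_mul_lt_pow hn3 hf2
    have hpos1 : 0 < Nat.card (B ⊓ K : Subgroup M) := Nat.card_pos
    by_contra hnot
    have hnot' : Nat.card (B ⊓ K ⊔ W : Subgroup M) ≤ Nat.card (B ⊓ K : Subgroup M) * p ^ j := by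
      rw [← hc1]; exact not_lt.1 hnot
    have hfin : p ^ j * f * Nat.card (B ⊓ K : Subgroup M) <
        p ^ j * f * Nat.card (B ⊓ K : Subgroup M) :=
      calc p ^ j * f * Nat.card (B ⊓ K : Subgroup M)
          < f ^ (p ^ j) * Nat.card (B ⊓ K : Subgroup M) := mul_lt_mul_of_pos_right hkey hpos1
        _ ≤ Nat.card W * Nat.card (B ⊓ K : Subgroup M) := Nat.mul_le_mul_right _ hfW
        _ = Nat.card (B ⊓ K ⊔ W : Subgroup M) * Nat.card (W ⊓ (B ⊓ K) : Subgroup M) := hc2.symm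
        _ ≤ Nat.card (B ⊓ K ⊔ W : Subgroup M) * f := Nat.mul_le_mul_left _ hc3
        _ ≤ Nat.card (B ⊓ K : Subgroup M) * p ^ j * f := Nat.mul_le_mul_right _ hnot'
        _ = p ^ j * f * Nat.card (B ⊓ K : Subgroup M) := by ring
    exact lt_irrefl _ hfin

end ThreeStep

end Cfsg.Agent.Helper10
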