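import Mathlib
import Cfsg.Prelude.Def_LieExceptional
import Cfsg.Prelude.Def_OddOrderLocal
import Cfsg.Agent.Helper10.ThreeStep
import Cfsg.Agent.Helper10.CNSolv
import Cfsg.Agent.Helper1.Coprime2
import Cfsg.Agent.Helper12.Syl
import Cfsg.Agent.Helper21.NilCoprime

set_option autoImplicit false

/-!
# A minimal simple CN-group of odd order has no three-step subgroups, helper10
-/

open Cfsg
open scoped commutatorElement

namespace Cfsg.Agent.Helper10

section NoThreeStep

variable {G : Type*} [Group G]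

theorem cn_subgroup (hCN : IsCNGroup G) (H : Subgroup G) : IsCNGroup ↥H := by
  intro g hg
  have hg' : (g : G) ≠ 1 := fun h => hg (Subtype.ext h)
  have h1 : Group.IsNilpotent (Subgroup.centralizer ({(g : G)} : Set G)) := hCN _ hg'
  have h2 : (Subgroup.centralizer ({g} : Set H)).map H.subtype ≤
      Subgroup.centralizer ({(g : G)} : Set G) := by
    rintro _ ⟨x, hx, rfl⟩
    refine Subgroup.mem_centralizer_iff.2 ?_
    intro h hh
    rw [Set.mem_singleton_iff.1 hh]
    have h3 := Subgroup.mem_centralizer_iff.1 hx g (Set.mem_singleton g)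
    exact congrArg Subtype.val h3
  have h3 : Group.IsNilpotent ((Subgroup.centralizer ({g} : Set H)).map H.subtype) :=
    Cfsg.Agent.S1474.nil_of_le h2 h1
  haveI := h3
  exact Group.nilpotent_of_mulEquiv
    ((Subgroup.centralizer ({g} : Set H)).equivMapOfInjective H.subtype
      H.subtype_injective).symm

/-- the `p`-core of a subgroup, as a subgroup of the ambient group -/
def tsK (p : ℕ) (H : Subgroup G) : Subgroup G := (pCore p ↥H).map H.subtype

theorem tsK_le (p : ℕ) (H : Subgroup G) : tsK p H ≤ H := Subgroup.map_subtype_le _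

theorem tsK_isPGroup (p : ℕ) (H : Subgroup G) : IsPGroup p (tsK p H) :=
  (Cfsg.Agent.Helper16.pCore_isPGroup p ↥H).map H.subtype

theorem tsK_normalizer (p : ℕ) (H : Subgroup G) :
    H ≤ Subgroup.normalizer ((tsK p H : Subgroup G) : Set G) := by
  intro h hh
  haveI := Cfsg.Agent.Helper16.pCore_normal p ↥H
  have h1 : (⟨h, hh⟩ : H) ∈ Subgroup.normalizer ((pCore p ↥H : Subgroup H) : Set H) := by
    rw [Subgroup.normalizer_eq_top]
    exact Subgroup.mem_top _
  exact Cfsg.Agent.Helper1.map_subtype_mem_normalizer H (pCore p ↥H) ⟨h, hh⟩ h1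

theorem tsK_ne_bot {p : ℕ} {H : Subgroup G} (h : pCore p ↥H ≠ ⊥) : tsK p H ≠ ⊥ := by
  intro h1
  exact h ((Subgroup.map_eq_bot_iff_of_injective _ H.subtype_injective).1 h1)

theorem le_tsK {p : ℕ} {H X : Subgroup G} (hXH : X ≤ H) (hX : IsPGroup p X)
    (hn : H ≤ Subgroup.normalizer (X : Set G)) : X ≤ tsK p H := by
  have h1 : (X.subgroupOf H).Normal := (Subgroup.normal_subgroupOf_iff_le_normalizer hXH).2 hn
  have h2 : X.subgroupOf H ≤ pCore p ↥H :=
    Cfsg.Agent.Helper16.le_pCore h1 hX.comap_subtype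
  have h3 := Subgroup.map_mono (f := H.subtype) h2
  rw [Subgroup.map_subgroupOf_eq_of_le hXH] at h3
  exact h3

theorem tsK_abelian [Finite G] {p : ℕ} [hp : Fact p.Prime] (hp2 : p ≠ 2) {H : Subgroup G}
    (h3 : IsThreeStepGroup p ↥H) (B : Subgroup G) (hBH : B ≤ H) (hBp : IsPGroup p B)
    (hBc : ∀ x ∈ B, ∀ y ∈ B, x * y = y * x) (hBK : ¬ B ≤ tsK p H) :
    ∃ B₁ : Subgroup G, B₁ ≤ tsK p H ∧ (∀ x ∈ B₁, ∀ y ∈ B₁, x * y = y * x) ∧
      Nat.card B < Nat.card B₁ := by
  have h1 : ¬ B.subgroupOf H ≤ pCore p ↥H := by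
    intro h
    apply hBK
    have h2 := Subgroup.map_mono (f := H.subtype) h
    rw [Subgroup.map_subgroupOf_eq_of_le hBH] at h2
    exact h2
  obtain ⟨B₁, hB₁K, hB₁c, hcard⟩ := ts_abelian_le_core hp2 h3 (B.subgroupOf H)
    hBp.comap_subtype
    (fun x hx y hy => Subtype.ext (hBc x.1 (Subgroup.mem_subgroupOf.1 hx) y.1
      (Subgroup.mem_subgroupOf.1 hy))) h1
  refine ⟨B₁.map H.subtype, Subgroup.map_mono hB₁K, ?_, ?_⟩
  · rintro _ ⟨x, hx, rfl⟩ _ ⟨y, hy, rfl⟩
    rw [← map_mul, ← map_mul, hB₁c x hx y hy]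
  · rw [Subgroup.card_map_of_injective H.subtype_injective]
    have h2 : Nat.card (B.subgroupOf H) = Nat.card B :=
      Nat.card_congr (Subgroup.subgroupOfEquivOfLe hBH).toEquiv
    rw [← h2]
    exact hcard

theorem tsK_comm {p : ℕ} {H : Subgroup G} (h3 : IsThreeStepGroup p ↥H) (x u : G) (hx : x ∈ H)
    (hu : u ∈ H) {k : ℕ} (hk : ⁅x, u⁆ ^ (p ^ k) = 1) : ⁅x, u⁆ ∈ tsK p H := by
  have h1 : ⁅(⟨x, hx⟩ : H), (⟨u, hu⟩ : H)⁆ ^ (p ^ k) = 1 := Subtype.ext hk
  have h2 := ts_comm_pelt h3 ⟨x, hx⟩ ⟨u, hu⟩ h1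
  exact ⟨_, h2, rfl⟩

theorem tsK_exists_pelt [Finite G] {p : ℕ} [hp : Fact p.Prime] {H : Subgroup G}
    (h3 : IsThreeStepGroup p ↥H) : ∃ b ∈ H, b ∉ tsK p H ∧ ∃ k : ℕ, b ^ (p ^ k) = 1 := by
  obtain ⟨b, hb, k, hk⟩ := ts_exists_pelt h3
  refine ⟨b.1, b.2, ?_, k, congrArg Subtype.val hk⟩
  rintro ⟨y, hy, hyb⟩
  have h1 : y = b := Subtype.ext hyb
  exact hb (h1 ▸ hy)

/-! ### The Thompson subgroup -/

/-- abelian subgroups of `Q` of maximal order -/
def abMax (Q : Subgroup G) : Set (Subgroup G) :=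
  {B | B ≤ Q ∧ (∀ x ∈ B, ∀ y ∈ B, x * y = y * x) ∧
    ∀ C : Subgroup G, C ≤ Q → (∀ x ∈ C, ∀ y ∈ C, x * y = y * x) → Nat.card C ≤ Nat.card B}

/-- the Thompson subgroup `J(Q)` -/
def thJ (Q : Subgroup G) : Subgroup G := sSup (abMax Q)

theorem abMax_nonempty [Finite G] (Q : Subgroup G) : (abMax Q).Nonempty := by
  classical
  haveI : Nonempty {B : Subgroup G // B ≤ Q ∧ (∀ x ∈ B, ∀ y ∈ B, x * y = y * x)} :=
    ⟨⟨⊥, bot_le, fun x hx y hy => by
      rw [Subgroup.mem_bot.1 hx, Subgroup.mem_bot.1 hy]⟩⟩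
  obtain ⟨B, hB⟩ := Finite.exists_max
    (fun B : {B : Subgroup G // B ≤ Q ∧ (∀ x ∈ B, ∀ y ∈ B, x * y = y * x)} => Nat.card B.1)
  exact ⟨B.1, B.2.1, B.2.2, fun C hC hCc => hB ⟨C, hC, hCc⟩⟩

theorem thJ_le (Q : Subgroup G) : thJ Q ≤ Q := sSup_le (fun _ hB => hB.1)

theorem thJ_ne_bot [Finite G] {Q : Subgroup G} (hQ : Q ≠ ⊥) : thJ Q ≠ ⊥ := by
  obtain ⟨B, hB⟩ := abMax_nonempty Q
  obtain ⟨x, hxQ, hx1⟩ := ts_exists_ne_one hQ
  have h1 : Nat.card (Subgroup.zpowers x) ≤ Nat.card B := by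
    apply hB.2.2 _ (Subgroup.zpowers_le.2 hxQ)
    intro a ha b hb
    obtain ⟨m, rfl⟩ := Subgroup.mem_zpowers_iff.1 ha
    obtain ⟨n, rfl⟩ := Subgroup.mem_zpowers_iff.1 hb
    rw [← zpow_add, ← zpow_add, add_comm]
  intro hJ
  have h2 : B ≤ thJ Q := le_sSup hB
  rw [hJ, le_bot_iff] at h2
  rw [h2, Subgroup.card_bot] at h1
  exact hx1 (Subgroup.zpowers_eq_bot.1 (Subgroup.eq_bot_of_card_le _ h1))

theorem thJ_eq_of_le [Finite G] {Q₁ Q₂ : Subgroup G} (h12 : Q₁ ≤ Q₂)
    (h : ∀ B ∈ abMax Q₂, B ≤ Q₁) : thJ Q₂ = thJ Q₁ := by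
  have heq : abMax Q₂ = abMax Q₁ := by
    ext B
    constructor
    · intro hB
      exact ⟨h B hB, hB.2.1, fun C hC hCc => hB.2.2 C (hC.trans h12) hCc⟩
    · intro hB
      obtain ⟨B₀, hB₀⟩ := abMax_nonempty Q₂
      refine ⟨hB.1.trans h12, hB.2.1, fun C hC hCc => ?_⟩
      exact (hB₀.2.2 C hC hCc).trans (hB.2.2 B₀ (h B₀ hB₀) hB₀.2.1)
  unfold thJ
  rw [heq]

theorem thJ_map_le (e : G ≃* G) (Q : Subgroup G) :
    (thJ Q).map e.toMonoidHom ≤ thJ (Q.map e.toMonoidHom) := by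
  rw [Subgroup.map_le_iff_le_comap]
  apply sSup_le
  intro B hB
  rw [← Subgroup.map_le_iff_le_comap]
  apply le_sSup
  refine ⟨Subgroup.map_mono hB.1, ?_, ?_⟩
  · rintro _ ⟨x, hx, rfl⟩ _ ⟨y, hy, rfl⟩
    rw [← map_mul, ← map_mul, hB.2.1 x hx y hy]
  · intro C hC hCc
    have hinj : Function.Injective e.toMonoidHom := e.injective
    have hsurj : Function.Surjective e.toMonoidHom := e.surjective
    have h1 : C.comap e.toMonoidHom ≤ Q := by
      intro x hx
      obtain ⟨q, hq, hqx⟩ := hC (Subgroup.mem_comap.1 hx)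
      rw [← hinj hqx]
      exact hq
    have h2 : ∀ x ∈ C.comap e.toMonoidHom, ∀ y ∈ C.comap e.toMonoidHom, x * y = y * x := by
      intro x hx y hy
      apply hinj
      rw [map_mul, map_mul]
      exact hCc _ (Subgroup.mem_comap.1 hx) _ (Subgroup.mem_comap.1 hy)
    have h3 := hB.2.2 _ h1 h2
    have h4 : Nat.card C = Nat.card (C.comap e.toMonoidHom) := by
      conv_lhs => rw [← Subgroup.map_comap_eq_self_of_surjective hsurj C]
      exact Subgroup.card_map_of_injective hinj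
    rw [h4, Subgroup.card_map_of_injective hinj]
    exact h3

theorem map_conj_of_mem_normalizer {Q : Subgroup G} {g : G}
    (hg : g ∈ Subgroup.normalizer (Q : Set G)) : Q.map (MulAut.conj g).toMonoidHom = Q := by
  ext x
  constructor
  · rintro ⟨q, hq, rfl⟩
    exact (Subgroup.mem_normalizer_iff.1 hg q).1 hq
  · intro hx
    refine ⟨g⁻¹ * x * g, ?_, ?_⟩
    · apply (Subgroup.mem_normalizer_iff.1 hg (g⁻¹ * x * g)).2
      have h1 : g * (g⁻¹ * x * g) * g⁻¹ = x := by group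
      rw [h1]
      exact hx
    · show g * (g⁻¹ * x * g) * g⁻¹ = x
      group

theorem map_conj_inv_map_conj (Q : Subgroup G) (u : G) :
    (Q.map (MulAut.conj u).toMonoidHom).map (MulAut.conj u⁻¹).toMonoidHom = Q := by
  ext x
  constructor
  · rintro ⟨_, ⟨q, hq, rfl⟩, rfl⟩
    have h1 : (MulAut.conj u⁻¹).toMonoidHom ((MulAut.conj u).toMonoidHom q) = q := by
      show u⁻¹ * (u * q * u⁻¹) * u⁻¹⁻¹ = q
      group
    rw [h1]
    exact hq
  · intro hx
    refine ⟨u * x * u⁻¹, ⟨x, hx, rfl⟩, ?_⟩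
    show u⁻¹ * (u * x * u⁻¹) * u⁻¹⁻¹ = x
    group

theorem thJ_normalizer (Q : Subgroup G) :
    Subgroup.normalizer (Q : Set G) ≤ Subgroup.normalizer ((thJ Q : Subgroup G) : Set G) := by
  have key : ∀ g ∈ Subgroup.normalizer (Q : Set G), ∀ h ∈ thJ Q, g * h * g⁻¹ ∈ thJ Q := by
    intro g hg h hh
    have h1 := thJ_map_le (MulAut.conj g) Q (Subgroup.mem_map_of_mem _ hh)
    rw [map_conj_of_mem_normalizer hg] at h1
    exact h1
  intro g hg
  rw [Subgroup.mem_normalizer_iff]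
  intro h
  constructor
  · exact key g hg h
  · intro hh
    have h1 := key g⁻¹ (inv_mem hg) _ hh
    have h2 : g⁻¹ * (g * h * g⁻¹) * g⁻¹⁻¹ = h := by group
    rw [h2] at h1
    exact h1

/-- normalizers grow in `p`-groups -/
theorem exists_normalizer_of_lt [Finite G] {p : ℕ} [hp : Fact p.Prime] {D R : Subgroup G}
    (hR : IsPGroup p R) (hDR : D < R) :
    ∃ r ∈ R, r ∉ D ∧ r ∈ Subgroup.normalizer (D : Set G) := by
  haveI : Group.IsNilpotent R := hR.isNilpotent
  have hnc : NormalizerCondition R := Group.normalizerCondition_of_isNilpotent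
  have h1 : D.subgroupOf R < ⊤ := by
    rw [lt_top_iff_ne_top]
    intro h
    exact (not_le_of_gt hDR) (Subgroup.subgroupOf_eq_top.1 h)
  obtain ⟨r, hr1, hr2⟩ := SetLike.exists_of_lt (hnc _ h1)
  refine ⟨r.1, r.2, fun h => hr2 (Subgroup.mem_subgroupOf.2 h), ?_⟩
  have h2 := Cfsg.Agent.Helper1.map_subtype_mem_normalizer R (D.subgroupOf R) r hr1
  rw [Subgroup.map_subgroupOf_eq_of_le hDR.le] at h2
  exact h2

theorem dvd_card_of_isPGroup [Finite G] {p : ℕ} [hp : Fact p.Prime] {K : Subgroup G} (hK : IsPGroup p K)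
    (hK1 : K ≠ ⊥) : p ∣ Nat.card K := by
  obtain ⟨n, hn⟩ := IsPGroup.iff_card.1 hK
  have hn0 : n ≠ 0 := by
    rintro rfl
    rw [pow_zero] at hn
    exact hK1 (Subgroup.eq_bot_of_card_eq K hn)
  rw [hn]
  exact dvd_pow_self p hn0

/-- the normal Sylow subgroup of a normal nilpotent subgroup -/
theorem nil_normal_sylow [Finite G] (F : Subgroup G) [hFn : F.Normal] (hF : Group.IsNilpotent F)
    (r : ℕ) [hr : Fact r.Prime] :
    ∃ R : Subgroup G, R.Normal ∧ R ≤ F ∧ IsPGroup r R ∧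
      (∀ x ∈ F, (∃ k : ℕ, x ^ (r ^ k) = 1) → x ∈ R) ∧ (r ∣ Nat.card F → R ≠ ⊥) := by
  classical
  haveI := hF
  obtain ⟨P⟩ : Nonempty (Sylow r F) := inferInstance
  haveI hPn : (P : Subgroup F).Normal :=
    Sylow.normal_of_normalizerCondition Group.normalizerCondition_of_isNilpotent P
  haveI hPc : (P : Subgroup F).Characteristic := P.characteristic_of_normal hPn
  refine ⟨(P : Subgroup F).map F.subtype, inferInstance, Subgroup.map_subtype_le _,
    P.2.map _, ?_, ?_⟩
  · rintro x hx ⟨k, hk⟩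
    have h1 : (⟨x, hx⟩ : F) ^ (r ^ k) = 1 := Subtype.ext hk
    have h2 : IsPGroup r (Subgroup.zpowers (⟨x, hx⟩ : F)) :=
      Cfsg.Agent.Helper12.isPGroup_zpowers_of_pow_eq_one h1
    obtain ⟨Q, hQ⟩ := h2.exists_le_sylow
    obtain ⟨g, hg⟩ := MulAction.exists_smul_eq F P Q
    rw [Sylow.smul_eq_of_normal] at hg
    rw [← hg] at hQ
    exact ⟨⟨x, hx⟩, hQ (Subgroup.mem_zpowers _), rfl⟩
  · intro hdvd h
    have h1 : (P : Subgroup F) = ⊥ :=
      (Subgroup.map_eq_bot_iff_of_injective _ F.subtype_injective).1 h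
    exact P.ne_bot_of_dvd_card hdvd h1

theorem pelt_mem_of_hall [Finite G] (F : Subgroup G) [hFn : F.Normal]
    (hcop : (Nat.card F).Coprime F.index) {p : ℕ} [hp : Fact p.Prime] (hdvd : p ∣ Nat.card F)
    {x : G} {k : ℕ} (hx : x ^ (p ^ k) = 1) : x ∈ F := by
  have hnd : ¬ p ∣ F.index := by
    intro h
    have h1 : p ∣ Nat.gcd (Nat.card F) F.index := Nat.dvd_gcd hdvd h
    rw [hcop] at h1
    exact hp.out.one_lt.ne' (Nat.dvd_one.1 h1)
  have h1 : orderOf (QuotientGroup.mk' F x) ∣ p ^ k := by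
    apply orderOf_dvd_of_pow_eq_one
    rw [← map_pow, hx, map_one]
  have h2 : orderOf (QuotientGroup.mk' F x) ∣ F.index := by
    rw [Subgroup.index_eq_card]
    exact orderOf_dvd_natCard _
  have h3 : (p ^ k).Coprime F.index :=
    Nat.Coprime.pow_left k ((Nat.Prime.coprime_iff_not_dvd hp.out).2 hnd)
  have h4 : orderOf (QuotientGroup.mk' F x) = 1 :=
    Nat.eq_one_of_dvd_coprimes h3 h1 h2
  exact (QuotientGroup.eq_one_iff x).1 (orderOf_eq_one_iff.1 h4)

/-- local structure: a solvable subgroup of a CN-group with nontrivial `p`-core is three-step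
or `p`-closed -/
theorem ts_local [Finite G] (hCN : IsCNGroup G) {p : ℕ} [hp : Fact p.Prime] (N : Subgroup G)
    [hsolv : Group.IsSolvable ↥N] (hK0 : pCore p ↥N ≠ ⊥) :
    IsThreeStepGroup p ↥N ∨ ∃ R : Subgroup G, R ≤ N ∧ N ≤ Subgroup.normalizer (R : Set G) ∧
      IsPGroup p R ∧ ∀ x ∈ N, ∀ k : ℕ, x ^ (p ^ k) = 1 → x ∈ R := by
  classical
  have hCN' : IsCNGroup ↥N := cn_subgroup hCN N
  have hmain : ∀ F : Subgroup ↥N, F.Normal → Group.IsNilpotent F →
      (Nat.card F).Coprime F.index → p ∣ Nat.card F →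
      ∃ R : Subgroup G, R ≤ N ∧ N ≤ Subgroup.normalizer (R : Set G) ∧
        IsPGroup p R ∧ ∀ x ∈ N, ∀ k : ℕ, x ^ (p ^ k) = 1 → x ∈ R := by
    intro F hFn hFnil hcop hdvd
    haveI := hFn
    obtain ⟨R', hR'n, hR'F, hR'p, hR'all, -⟩ := nil_normal_sylow F hFnil p
    refine ⟨R'.map N.subtype, Subgroup.map_subtype_le _, ?_, hR'p.map _, ?_⟩
    · intro g hg
      have h1 : (⟨g, hg⟩ : N) ∈ Subgroup.normalizer ((R' : Subgroup N) : Set N) := by
        rw [Subgroup.normalizer_eq_top_iff.2 hR'n]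
        exact Subgroup.mem_top _
      exact Cfsg.Agent.Helper1.map_subtype_mem_normalizer N R' ⟨g, hg⟩ h1
    · intro x hx k hk
      have h1 : (⟨x, hx⟩ : N) ^ (p ^ k) = 1 := Subtype.ext hk
      have h2 : (⟨x, hx⟩ : N) ∈ F := pelt_mem_of_hall F hcop hdvd h1
      exact ⟨⟨x, hx⟩, hR'all _ h2 ⟨k, h1⟩, rfl⟩
  have hKp : IsPGroup p (pCore p ↥N) := Cfsg.Agent.Helper16.pCore_isPGroup p ↥N
  haveI hKn : (pCore p ↥N).Normal := Cfsg.Agent.Helper16.pCore_normal p ↥N
  have hpK : p ∣ Nat.card (pCore p ↥N) := dvd_card_of_isPGroup hKp hK0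
  by_cases hnil : Group.IsNilpotent ↥N
  · right
    haveI := hnil
    refine hmain ⊤ inferInstance (Group.nilpotent_of_mulEquiv Subgroup.topEquiv.symm) ?_ ?_
    · rw [Subgroup.index_top]; exact Nat.coprime_one_right _
    · rw [Subgroup.card_top]
      exact hpK.trans (Subgroup.card_subgroup_dvd_card _)
  · by_cases hF : fittingHall ↥N = ⊥
    · left
      exact cn_three_step_aux hCN' hF hK0
    · right
      obtain ⟨hFnil, hFcop⟩ := Cfsg.Agent.Helper9.fittingHall_nilpotent_coprime ↥N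
      haveI hFn : (fittingHall ↥N).Normal := fittingHall_normal ↥N
      refine hmain (fittingHall ↥N) hFn hFnil hFcop ?_
      by_contra hnd
      obtain ⟨E, hcompl, hfrobE, hfpf, hEnil⟩ := cn_frob_of_fittingHall hCN' hnil hF
      have hcopF : (Nat.card (fittingHall ↥N)).Coprime p :=
        ((Nat.Prime.coprime_iff_not_dvd hp.out).2 hnd).symm
      obtain ⟨k, hkK, hk1⟩ := ts_exists_ne_one hK0
      have hKF : ∀ x ∈ pCore p ↥N, x ∈ fittingHall ↥N → x = 1 := by
        intro x hxK hxF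
        obtain ⟨n, hn⟩ := ts_pow_eq_one hKp hxK
        exact ts_eq_one_of_pow hcopF hxF hn
      have hkF : k ∉ fittingHall ↥N := fun h => hk1 (hKF k hkK h)
      have hkc : ∀ f ∈ fittingHall ↥N, k * f = f * k := by
        intro f hf
        have h1 : k * f * k⁻¹ * f⁻¹ = 1 := by
          apply hKF
          · have h2 : f * k⁻¹ * f⁻¹ ∈ pCore p ↥N := hKn.conj_mem _ (inv_mem hkK) f
            have h3 : k * f * k⁻¹ * f⁻¹ = k * (f * k⁻¹ * f⁻¹) := by group
            rw [h3]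
            exact mul_mem hkK h2
          · exact mul_mem (hFn.conj_mem f hf k) (inv_mem hf)
        calc k * f = k * f * k⁻¹ * f⁻¹ * (f * k) := by group
          _ = f * k := by rw [h1, one_mul]
      obtain ⟨⟨⟨f0, hf0⟩, ⟨e0, he0⟩⟩, hg⟩ := hcompl.2 k
      have hg' : f0 * e0 = k := hg
      have he01 : e0 ≠ 1 := by
        intro h
        rw [h, mul_one] at hg'
        exact hkF (hg' ▸ hf0)
      have hFtop : (⊤ : Subgroup (fittingHall ↥N)) ≠ ⊥ := by
        intro h
        obtain ⟨f, hfF, hf1⟩ := ts_exists_ne_one hF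
        have h1 : (⟨f, hfF⟩ : fittingHall ↥N) ∈ (⊤ : Subgroup (fittingHall ↥N)) :=
          Subgroup.mem_top _
        rw [h, Subgroup.mem_bot] at h1
        exact hf1 (congrArg Subtype.val h1)
      haveI := hFnil
      obtain ⟨z, -, hz1, hzc⟩ :=
        Cfsg.Agent.S1477.exists_center_of_normal (⊤ : Subgroup (fittingHall ↥N)) hFtop
      have hz1' : (z : N) ≠ 1 := fun h => hz1 (Subtype.ext h)
      have hzc' : ∀ f ∈ fittingHall ↥N, f * (z : N) = (z : N) * f := by
        intro f hf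
        exact congrArg Subtype.val (hzc ⟨f, hf⟩)
      have hez : e0 * (z : N) = (z : N) * e0 := by
        have h1 : e0 = f0⁻¹ * k := by rw [← hg']; group
        have h2 := hkc z z.2
        have h3 := hzc' f0⁻¹ (inv_mem hf0)
        rw [h1]
        calc f0⁻¹ * k * (z : N) = f0⁻¹ * (k * z) := by group
          _ = f0⁻¹ * (z * k) := by rw [h2]
          _ = f0⁻¹ * z * k := by group
          _ = z * f0⁻¹ * k := by rw [h3]
          _ = z * (f0⁻¹ * k) := by group
      have h4 : (z : N) ∈ fittingHall ↥N ⊓ Subgroup.centralizer ({e0} : Set N) := by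
        refine Subgroup.mem_inf.2 ⟨z.2, Subgroup.mem_centralizer_iff.2 ?_⟩
        intro h hh
        rw [Set.mem_singleton_iff.1 hh]
        exact hez
      rw [hfpf e0 he0 he01] at h4
      exact hz1' (Subgroup.mem_bot.1 h4)

/-- maximal three-step subgroups -/
def IsMaxTS (p : ℕ) (L : Subgroup G) : Prop :=
  IsThreeStepGroup p ↥L ∧ ∀ L' : Subgroup G, IsThreeStepGroup p ↥L' → L ≤ L' → L' = L

theorem exists_max_ts [Finite G] {p : ℕ} {N : Subgroup G} (h3 : IsThreeStepGroup p ↥N) :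
    ∃ Ns : Subgroup G, N ≤ Ns ∧ IsMaxTS p Ns := by
  obtain ⟨Ns, hle, hmax⟩ :=
    (Set.toFinite {L : Subgroup G | IsThreeStepGroup p ↥L}).exists_le_maximal h3
  exact ⟨Ns, hle, hmax.prop, fun L' hL' hle' => le_antisymm (hmax.le_of_ge hL' hle') hle'⟩

theorem normalizer_ne_top_of_minsimple [Finite G] (hG : IsMinSimpleOddOrder G) {p : ℕ}
    [hp : Fact p.Prime] {X : Subgroup G} (hXp : IsPGroup p X) (hX1 : X ≠ ⊥) :
    Subgroup.normalizer (X : Set G) ≠ ⊤ := by
  intro h
  haveI := hG.2.1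
  have hXn : X.Normal := Subgroup.normalizer_eq_top_iff.1 h
  have hXtop : X = ⊤ := (hXn.eq_bot_or_eq_top).resolve_left hX1
  have hGp : IsPGroup p G := by
    intro g
    obtain ⟨k, hk⟩ := ts_pow_eq_one hXp (show g ∈ X by rw [hXtop]; exact Subgroup.mem_top g)
    exact ⟨k, hk⟩
  haveI : Group.IsNilpotent G := hGp.isNilpotent
  have hsolv : Group.IsSolvable G := inferInstance
  exact hG.2.2.1 ⟨⟨IsSimpleGroup.comm_iff_isSolvable.2 hsolv⟩⟩

theorem ts_local_normalizer [Finite G] (hG : IsMinSimpleOddOrder G) (hCN : IsCNGroup G) {p : ℕ}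
    [hp : Fact p.Prime] {X : Subgroup G} (hXp : IsPGroup p X) (hX1 : X ≠ ⊥) :
    IsThreeStepGroup p ↥(Subgroup.normalizer (X : Set G)) ∨
      ∃ R : Subgroup G, R ≤ Subgroup.normalizer (X : Set G) ∧
        Subgroup.normalizer (X : Set G) ≤ Subgroup.normalizer (R : Set G) ∧
        IsPGroup p R ∧
        ∀ x ∈ Subgroup.normalizer (X : Set G), ∀ k : ℕ, x ^ (p ^ k) = 1 → x ∈ R := by
  haveI hsolv : Group.IsSolvable ↥(Subgroup.normalizer (X : Set G)) :=
    hG.2.2.2 _ (normalizer_ne_top_of_minsimple hG hXp hX1)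
  apply ts_local hCN
  intro h0
  have h1 : X ≤ tsK p (Subgroup.normalizer (X : Set G)) :=
    le_tsK Subgroup.le_normalizer hXp le_rfl
  unfold tsK at h1
  rw [h0, Subgroup.map_bot, le_bot_iff] at h1
  exact hX1 h1

theorem max_ts_normalizer [Finite G] (hG : IsMinSimpleOddOrder G) (hCN : IsCNGroup G) {p : ℕ}
    [hp : Fact p.Prime] {M : Subgroup G} (hM : IsMaxTS p M) {X : Subgroup G}
    (hXp : IsPGroup p X) (hX1 : X ≠ ⊥) (hMX : M ≤ Subgroup.normalizer (X : Set G)) :
    Subgroup.normalizer (X : Set G) = M := by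
  rcases ts_local_normalizer hG hCN hXp hX1 with h3 | ⟨R, hRN, hNR, hRp, hRall⟩
  · exact hM.2 _ h3 hMX
  · exfalso
    obtain ⟨b, hbM, hbK, k, hbk⟩ := tsK_exists_pelt hM.1
    have hbR : b ∈ R := hRall b (hMX hbM) k hbk
    have h1 : R ⊓ M ≤ tsK p M := by
      apply le_tsK inf_le_right (hRp.to_le inf_le_left)
      intro m hm
      have hmR := hNR (hMX hm)
      rw [Subgroup.mem_normalizer_iff] at hmR ⊢
      intro h
      constructor
      · intro hh
        obtain ⟨h1, h2⟩ := Subgroup.mem_inf.1 hh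
        exact Subgroup.mem_inf.2 ⟨(hmR h).1 h1, mul_mem (mul_mem hm h2) (inv_mem hm)⟩
      · intro hh
        obtain ⟨h1, h2⟩ := Subgroup.mem_inf.1 hh
        refine Subgroup.mem_inf.2 ⟨(hmR h).2 h1, ?_⟩
        have h3 : h = m⁻¹ * (m * h * m⁻¹) * m := by group
        rw [h3]
        exact mul_mem (mul_mem (inv_mem hm) h2) hm
    exact hbK (h1 (Subgroup.mem_inf.2 ⟨hbR, hbM⟩))

theorem p_ne_two_of_ts [Finite G] (hG : IsMinSimpleOddOrder G) {p : ℕ} [hp : Fact p.Prime]
    {M : Subgroup G} (h3 : IsThreeStepGroup p ↥M) : p ≠ 2 := by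
  intro hp2
  have h1 : p ∣ Nat.card (tsK p M) := dvd_card_of_isPGroup (tsK_isPGroup p M) (tsK_ne_bot h3.1)
  have h2 : p ∣ Nat.card G := h1.trans (Subgroup.card_subgroup_dvd_card _)
  rw [hp2] at h2
  exact (Nat.not_even_iff_odd.2 hG.1) (even_iff_two_dvd.2 h2)

theorem max_ts_thJ_eq [Finite G] (hG : IsMinSimpleOddOrder G) {p : ℕ} [hp : Fact p.Prime]
    {M : Subgroup G} (h3 : IsThreeStepGroup p ↥M) {Q : Subgroup G} (hQp : IsPGroup p Q)
    (hKQ : tsK p M ≤ Q) (hQM : Q ≤ M) : thJ Q = thJ (tsK p M) := by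
  apply thJ_eq_of_le hKQ
  intro B hB
  by_contra hBK
  obtain ⟨B₁, hB₁K, hB₁c, hcard⟩ := tsK_abelian (p_ne_two_of_ts hG h3) h3 B (hB.1.trans hQM)
    (hQp.to_le hB.1) hB.2.1 hBK
  exact (not_le_of_gt hcard) (hB.2.2 B₁ (hB₁K.trans hKQ) hB₁c)

theorem max_ts_normalizer_thJ [Finite G] (hG : IsMinSimpleOddOrder G) (hCN : IsCNGroup G)
    {p : ℕ} [hp : Fact p.Prime] {M : Subgroup G} (hM : IsMaxTS p M) :
    Subgroup.normalizer ((thJ (tsK p M) : Subgroup G) : Set G) = M := by
  apply max_ts_normalizer hG hCN hM ((tsK_isPGroup p M).to_le (thJ_le _))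
    (thJ_ne_bot (tsK_ne_bot hM.1.1))
  exact (tsK_normalizer p M).trans (thJ_normalizer _)

theorem max_ts_normalizer_le [Finite G] (hG : IsMinSimpleOddOrder G) (hCN : IsCNGroup G)
    {p : ℕ} [hp : Fact p.Prime] {M : Subgroup G} (hM : IsMaxTS p M) {Q : Subgroup G}
    (hQp : IsPGroup p Q) (hKQ : tsK p M ≤ Q) (hQM : Q ≤ M) :
    Subgroup.normalizer (Q : Set G) ≤ M := by
  have h1 := thJ_normalizer Q
  rw [max_ts_thJ_eq hG hM.1 hQp hKQ hQM, max_ts_normalizer_thJ hG hCN hM] at h1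
  exact h1

theorem max_ts_sylow [Finite G] (hG : IsMinSimpleOddOrder G) (hCN : IsCNGroup G)
    {p : ℕ} [hp : Fact p.Prime] {M : Subgroup G} (hM : IsMaxTS p M) {T : Subgroup G}
    (hTp : IsPGroup p T) (hTM : T ≤ M) :
    ∃ S : Sylow p G, T ≤ S ∧ (S : Subgroup G) ≤ M ∧ tsK p M ≤ S := by
  have h0 : T ⊔ tsK p M ∈ {Q : Subgroup G | IsPGroup p Q ∧ Q ≤ M} :=
    ⟨IsPGroup.to_sup_of_normal_right' hTp (tsK_isPGroup p M)
      (hTM.trans (tsK_normalizer p M)), sup_le hTM (tsK_le p M)⟩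
  obtain ⟨Q₀, hle, hmax⟩ :=
    (Set.toFinite {Q : Subgroup G | IsPGroup p Q ∧ Q ≤ M}).exists_le_maximal h0
  obtain ⟨hQ₀p, hQ₀M⟩ := hmax.prop
  obtain ⟨P, hP⟩ := hQ₀p.exists_le_sylow
  have hKQ₀ : tsK p M ≤ Q₀ := le_sup_right.trans hle
  have heq : Q₀ = (P : Subgroup G) := by
    by_contra hne
    have hlt : Q₀ < (P : Subgroup G) := lt_of_le_of_ne hP hne
    obtain ⟨r, hrP, hrQ, hrN⟩ := exists_normalizer_of_lt P.2 hlt
    have hrM : r ∈ M := max_ts_normalizer_le hG hCN hM hQ₀p hKQ₀ hQ₀M hrN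
    have h1 : Q₀ ⊔ Subgroup.zpowers r ∈ {Q : Subgroup G | IsPGroup p Q ∧ Q ≤ M} :=
      ⟨P.2.to_le (sup_le hP (Subgroup.zpowers_le.2 hrP)),
        sup_le hQ₀M (Subgroup.zpowers_le.2 hrM)⟩
    have h2 := hmax.le_of_ge h1 le_sup_left
    exact hrQ (h2 (Subgroup.mem_sup_right (Subgroup.mem_zpowers r)))
  refine ⟨P, ?_, ?_, ?_⟩
  · rw [← heq]; exact le_sup_left.trans hle
  · rw [← heq]; exact hQ₀M
  · rw [← heq]; exact hKQ₀

theorem max_ts_unique [Finite G] (hG : IsMinSimpleOddOrder G) (hCN : IsCNGroup G)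
    {p : ℕ} [hp : Fact p.Prime] {M₁ M₂ : Subgroup G} (h1 : IsMaxTS p M₁) (h2 : IsMaxTS p M₂)
    {Q : Subgroup G} (hQp : IsPGroup p Q) (hK1 : tsK p M₁ ≤ Q) (hQ1 : Q ≤ M₁)
    (hK2 : tsK p M₂ ≤ Q) (hQ2 : Q ≤ M₂) : M₁ = M₂ :=
  calc M₁ = Subgroup.normalizer ((thJ (tsK p M₁) : Subgroup G) : Set G) :=
        (max_ts_normalizer_thJ hG hCN h1).symm
    _ = Subgroup.normalizer ((thJ Q : Subgroup G) : Set G) := by
        rw [max_ts_thJ_eq hG h1.1 hQp hK1 hQ1]
    _ = Subgroup.normalizer ((thJ (tsK p M₂) : Subgroup G) : Set G) := by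
        rw [max_ts_thJ_eq hG h2.1 hQp hK2 hQ2]
    _ = M₂ := max_ts_normalizer_thJ hG hCN h2

/-- a maximal three-step subgroup is strongly `p`-embedded -/
theorem max_ts_strong [Finite G] (hG : IsMinSimpleOddOrder G) (hCN : IsCNGroup G)
    {p : ℕ} [hp : Fact p.Prime] {L : Subgroup G} (hL : IsMaxTS p L) :
    ∀ D : Subgroup G, IsPGroup p D → D ≠ ⊥ → D ≤ L →
      Subgroup.normalizer (D : Set G) ≤ L := by
  have key : ∀ n : ℕ, ∀ D : Subgroup G, IsPGroup p D → D ≠ ⊥ → D ≤ L →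
      Nat.card G - Nat.card D = n → Subgroup.normalizer (D : Set G) ≤ L := by
    intro n
    induction n using Nat.strong_induction_on with
    | _ n ih =>
      intro D hDp hD1 hDL hn
      have hcardpos : ∀ X : Subgroup G, 0 < Nat.card X := fun X => Nat.card_pos
      have IH' : ∀ D' : Subgroup G, IsPGroup p D' → D' ≤ L → Nat.card D < Nat.card D' →
          Subgroup.normalizer (D' : Set G) ≤ L := by
        intro D' hD'p hD'L hlt
        have hD'1 : D' ≠ ⊥ := by
          rintro rfl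
          rw [Subgroup.card_bot] at hlt
          have := hcardpos D
          omega
        have hle : Nat.card D' ≤ Nat.card G := Subgroup.card_le_card_group D'
        exact ih (Nat.card G - Nat.card D') (by omega) D' hD'p hD'1 hD'L rfl
      have absorb : ∀ R : Subgroup G, IsPGroup p R →
          Nat.card D < Nat.card (R ⊓ L : Subgroup G) → R ≤ L := by
        intro R hRp hlt
        by_contra hRL
        have hlt' : R ⊓ L < R :=
          lt_of_le_of_ne inf_le_left (fun h => hRL (by rw [← h]; exact inf_le_right))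
        obtain ⟨r, hrR, hrn, hrN⟩ := exists_normalizer_of_lt hRp hlt'
        have hrL := IH' (R ⊓ L) (hRp.to_le inf_le_left) inf_le_right hlt hrN
        exact hrn (Subgroup.mem_inf.2 ⟨hrR, hrL⟩)
      by_cases hKD : tsK p L ≤ D
      · exact max_ts_normalizer_le hG hCN hL hDp hKD hDL
      · have hD1p : IsPGroup p (D ⊔ tsK p L : Subgroup G) :=
          IsPGroup.to_sup_of_normal_right' hDp (tsK_isPGroup p L)
            (hDL.trans (tsK_normalizer p L))
        have hlt : D < D ⊔ tsK p L :=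
          lt_of_le_of_ne le_sup_left (fun h => hKD (by rw [h]; exact le_sup_right))
        obtain ⟨t, htD1, htD, htN⟩ := exists_normalizer_of_lt hD1p hlt
        have htL : t ∈ L := (sup_le hDL (tsK_le p L)) htD1
        obtain ⟨T, hT⟩ : ∃ T : Subgroup G, T = D ⊔ Subgroup.zpowers t := ⟨_, rfl⟩
        have hDT : D ≤ T := by rw [hT]; exact le_sup_left
        have htT : t ∈ T := by
          rw [hT]; exact Subgroup.mem_sup_right (Subgroup.mem_zpowers t)
        have hTp : IsPGroup p T := by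
          rw [hT]
          exact hD1p.to_le (sup_le le_sup_left (Subgroup.zpowers_le.2 htD1))
        have hTL : T ≤ L := by rw [hT]; exact sup_le hDL (Subgroup.zpowers_le.2 htL)
        have hTN : T ≤ Subgroup.normalizer (D : Set G) := by
          rw [hT]; exact sup_le Subgroup.le_normalizer (Subgroup.zpowers_le.2 htN)
        have hcDT : Nat.card D < Nat.card T := by
          by_contra hnot
          have h1 : D = T := Subgroup.eq_of_le_of_card_ge hDT (not_lt.1 hnot)
          exact htD (h1 ▸ htT)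
        rcases ts_local_normalizer hG hCN hDp hD1 with h3 | ⟨R, hRN, hNR, hRp, hRall⟩
        · obtain ⟨Ns, hNle, hNs⟩ := exists_max_ts h3
          obtain ⟨S, hTS, hSNs, hKS⟩ := max_ts_sylow hG hCN hNs hTp (hTN.trans hNle)
          have hSL : (S : Subgroup G) ≤ L :=
            absorb S S.2 (lt_of_lt_of_le hcDT (Subgroup.card_le_of_le (le_inf hTS hTL)))
          have hKLS : tsK p L ≤ S := by
            have h1 : IsPGroup p ((S : Subgroup G) ⊔ tsK p L : Subgroup G) :=
              IsPGroup.to_sup_of_normal_right' S.2 (tsK_isPGroup p L)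
                (hSL.trans (tsK_normalizer p L))
            have h2 := S.is_maximal' h1 le_sup_left
            have h3 : tsK p L ≤ (S : Subgroup G) ⊔ tsK p L := le_sup_right
            rw [h2] at h3
            exact h3
          have hLN : L = Ns := max_ts_unique hG hCN hL hNs S.2 hKLS hSL hKS hSNs
          rw [hLN]
          exact hNle
        · have hTR : T ≤ R := by
            intro x hx
            obtain ⟨k, hk⟩ := ts_pow_eq_one hTp hx
            exact hRall x (hTN hx) k hk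
          have hRL : R ≤ L :=
            absorb R hRp (lt_of_lt_of_le hcDT (Subgroup.card_le_of_le (le_inf hTR hTL)))
          have h1 : Subgroup.normalizer (R : Set G) ≤ L :=
            IH' R hRp hRL (lt_of_lt_of_le hcDT (Subgroup.card_le_of_le hTR))
          exact hNR.trans h1
  intro D hDp hD1 hDL
  exact key _ D hDp hD1 hDL rfl

theorem max_ts_absorb [Finite G] (hG : IsMinSimpleOddOrder G) (hCN : IsCNGroup G)
    {p : ℕ} [hp : Fact p.Prime] {L : Subgroup G} (hL : IsMaxTS p L) {R : Subgroup G}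
    (hRp : IsPGroup p R) (hRL : R ⊓ L ≠ ⊥) : R ≤ L := by
  by_contra hnot
  have hlt' : R ⊓ L < R :=
    lt_of_le_of_ne inf_le_left (fun h => hnot (by rw [← h]; exact inf_le_right))
  obtain ⟨r, hrR, hrn, hrN⟩ := exists_normalizer_of_lt hRp hlt'
  have hrL := max_ts_strong hG hCN hL (R ⊓ L) (hRp.to_le inf_le_left) hRL inf_le_right hrN
  exact hrn (Subgroup.mem_inf.2 ⟨hrR, hrL⟩)

/-- **No three-step subgroups** (prime case). -/
theorem no_three_step_prime [Finite G] (hG : IsMinSimpleOddOrder G) (hCN : IsCNGroup G) {p : ℕ}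
    [hp : Fact p.Prime] (H : Subgroup G) : ¬ IsThreeStepGroup p ↥H := by
  intro h3
  obtain ⟨L, -, hL⟩ := exists_max_ts h3
  obtain ⟨b, hbL, hbK, k, hbk⟩ := tsK_exists_pelt hL.1
  obtain ⟨Q, hbQ, hQL, hKQ⟩ := max_ts_sylow hG hCN hL
    (Cfsg.Agent.Helper12.isPGroup_zpowers_of_pow_eq_one hbk) (Subgroup.zpowers_le.2 hbL)
  haveI := hG.2.1
  have hcomm : _root_.commutator G = ⊤ := by
    have hn : (_root_.commutator G).Normal := inferInstance
    rcases hn.eq_bot_or_eq_top with h | h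
    · exfalso
      apply hG.2.2.1
      refine ⟨⟨fun a b => ?_⟩⟩
      have h1 : ⁅a, b⁆ ∈ _root_.commutator G :=
        Subgroup.commutator_mem_commutator (Subgroup.mem_top a) (Subgroup.mem_top b)
      rw [h, Subgroup.mem_bot] at h1
      exact commutatorElement_eq_one_iff_mul_comm.1 h1
    · exact h
  have hfocal := Subgroup.commutator_inf_eq_focalSubgroup Q
  rw [hcomm, top_inf_eq] at hfocal
  have hJQ : thJ (Q : Subgroup G) = thJ (tsK p L) := max_ts_thJ_eq hG hL.1 Q.2 hKQ hQL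
  have hle : (Q : Subgroup G) ≤ tsK p L := by
    rw [hfocal, Subgroup.focalSubgroup_def, Subgroup.closure_le]
    rintro g ⟨hgQ, x, hxQ, u, rfl⟩
    by_cases hx1 : x = 1
    · rw [hx1, commutatorElement_one_left]
      exact one_mem _
    · have hgQ' : ⁅x, u⁆ ∈ (Q : Subgroup G) := hgQ
      have hxQ' : x ∈ (Q : Subgroup G) := hxQ
      have huxQ : u * x * u⁻¹ ∈ (Q : Subgroup G) := by
        have h1 : u * x * u⁻¹ = (x⁻¹ * ⁅x, u⁆)⁻¹ := by
          rw [commutatorElement_def]; group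
        rw [h1]
        exact inv_mem (mul_mem (inv_mem hxQ') hgQ')
      obtain ⟨Q', hQ'⟩ : ∃ Q' : Subgroup G,
          Q' = (Q : Subgroup G).map (MulAut.conj u).toMonoidHom := ⟨_, rfl⟩
      have hQ'p : IsPGroup p Q' := by rw [hQ']; exact Q.2.map _
      have hQ'S : Q' = ((u • Q : Sylow p G) : Subgroup G) := by
        rw [hQ', Sylow.coe_subgroup_smul, Cfsg.Agent.Helper1.conj_smul_eq_map]
      have hne : Q' ⊓ L ≠ ⊥ := by
        intro h
        have h1 : u * x * u⁻¹ ∈ Q' ⊓ L := by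
          refine Subgroup.mem_inf.2 ⟨?_, hQL huxQ⟩
          rw [hQ']
          exact ⟨x, hxQ', rfl⟩
        rw [h, Subgroup.mem_bot] at h1
        apply hx1
        have h2 : x = u⁻¹ * (u * x * u⁻¹) * u := by group
        rw [h2, h1]; group
      have hQ'L : Q' ≤ L := max_ts_absorb hG hCN hL hQ'p hne
      have hKQ' : tsK p L ≤ Q' := by
        have h1 : IsPGroup p (Q' ⊔ tsK p L : Subgroup G) :=
          IsPGroup.to_sup_of_normal_right' hQ'p (tsK_isPGroup p L)
            (hQ'L.trans (tsK_normalizer p L))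
        have h2 : Q' ≤ Q' ⊔ tsK p L := le_sup_left
        have h4 : tsK p L ≤ Q' ⊔ tsK p L := le_sup_right
        rw [hQ'S] at h1 h2 h4 ⊢
        have h3 := (u • Q : Sylow p G).is_maximal' h1 h2
        rw [h3] at h4
        exact h4
      have hJQ' : thJ Q' = thJ (tsK p L) := max_ts_thJ_eq hG hL.1 hQ'p hKQ' hQ'L
      have huL : u ∈ L := by
        rw [← max_ts_normalizer_thJ hG hCN hL, Subgroup.mem_normalizer_iff]
        intro h
        constructor
        · intro hh
          rw [← hJQ] at hh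
          have h1 := thJ_map_le (MulAut.conj u) (Q : Subgroup G) (Subgroup.mem_map_of_mem _ hh)
          rw [← hQ', hJQ'] at h1
          exact h1
        · intro hh
          rw [← hJQ'] at hh
          have h1 := thJ_map_le (MulAut.conj u⁻¹) Q' (Subgroup.mem_map_of_mem _ hh)
          rw [hQ', map_conj_inv_map_conj, hJQ] at h1
          have h2 : (MulAut.conj u⁻¹).toMonoidHom (u * h * u⁻¹) = h := by
            show u⁻¹ * (u * h * u⁻¹) * u⁻¹⁻¹ = h
            group
          rw [h2] at h1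
          exact h1
      obtain ⟨m, hm⟩ := ts_pow_eq_one Q.2 hgQ'
      exact tsK_comm hL.1 x u (hQL hxQ') huL hm
  exact hbK (hle (hbQ (Subgroup.mem_zpowers b)))

/-! ### The degenerate case: `p` not a prime -/

theorem ts_nilpotent_of_comm {M : Type*} [Group M] (h : ∀ a b : M, a * b = b * a) :
    Group.IsNilpotent M := by
  let _ : CommGroup M := { (inferInstance : Group M) with mul_comm := h }
  infer_instance

theorem dvd_pow_self_of_primes (p : ℕ) : ∀ m : ℕ, 0 < m →
    (∀ r : ℕ, r.Prime → r ∣ m → r ∣ p) → m ∣ p ^ m := by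
  intro m
  induction m using Nat.strong_induction_on with
  | _ m ih =>
    intro hm h
    by_cases h1 : m = 1
    · rw [h1]; exact one_dvd _
    · have hr := Nat.minFac_prime h1
      obtain ⟨m', hm'⟩ := Nat.minFac_dvd m
      have hm'pos : 0 < m' := by
        rcases Nat.eq_zero_or_pos m' with h0 | h0
        · rw [h0, mul_zero] at hm'; omega
        · exact h0
      have hm'lt : m' < m := by
        have h2 := hr.two_le
        calc m' < 2 * m' := by omega
          _ ≤ m.minFac * m' := Nat.mul_le_mul_right m' h2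
          _ = m := hm'.symm
      have h2 : m' ∣ p ^ m' := ih m' hm'lt hm'pos
        (fun r hr' hdvd => h r hr' (hdvd.trans (Dvd.intro_left _ hm'.symm)))
      have h3 : m.minFac ∣ p := h _ hr (Nat.minFac_dvd m)
      have h4 : m.minFac * m' ∣ p * p ^ m' := Nat.mul_dvd_mul h3 h2
      rw [← hm', ← pow_succ'] at h4
      exact h4.trans (pow_dvd_pow p (by omega))

theorem exists_prime_not_dvd_of_not_pow {M : Type*} [Group M] [Finite M] {p : ℕ} {f : M}
    (hf : ¬ ∃ k : ℕ, f ^ (p ^ k) = 1) : ∃ r : ℕ, r.Prime ∧ r ∣ orderOf f ∧ ¬ r ∣ p := by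
  by_contra hcon
  have hcon' : ∀ r : ℕ, r.Prime → r ∣ orderOf f → r ∣ p := by
    intro r hr hd
    by_contra hnd
    exact hcon ⟨r, hr, hd, hnd⟩
  apply hf
  exact ⟨orderOf f, orderOf_dvd_iff_pow_eq_one.1
    (dvd_pow_self_of_primes p _ (orderOf_pos f) hcon')⟩

theorem exists_prime_pCore_ne_bot {M : Type*} [Group M] [Finite M] [hs : Group.IsSolvable M]
    [Nontrivial M] : ∃ q : ℕ, q.Prime ∧ pCore q M ≠ ⊥ := by
  classical
  have hex : ∃ n, derivedSeries M n = ⊥ := hs.solvable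
  have h0 : Nat.find hex ≠ 0 := by
    intro h
    have h1 := Nat.find_spec hex
    rw [h, derivedSeries_zero] at h1
    exact top_ne_bot h1
  obtain ⟨m, hm⟩ := Nat.exists_eq_succ_of_ne_zero h0
  have hD1 : derivedSeries M m ≠ ⊥ := Nat.find_min hex (by omega)
  have hD2 : derivedSeries M (m + 1) = ⊥ := by
    have h1 := Nat.find_spec hex
    rw [hm] at h1
    exact h1
  obtain ⟨D, hD⟩ : ∃ D : Subgroup M, D = derivedSeries M m := ⟨_, rfl⟩
  rw [derivedSeries_succ, ← hD] at hD2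
  rw [← hD] at hD1
  haveI hDn : D.Normal := by rw [hD]; exact derivedSeries_normal M m
  have hDc : ∀ a b : D, a * b = b * a := by
    intro a b
    have h1 : ⁅(a : M), (b : M)⁆ ∈ ⁅D, D⁆ := Subgroup.commutator_mem_commutator a.2 b.2
    rw [hD2, Subgroup.mem_bot] at h1
    exact Subtype.ext (commutatorElement_eq_one_iff_mul_comm.1 h1)
  have hDnil : Group.IsNilpotent D := ts_nilpotent_of_comm hDc
  have hcard : Nat.card D ≠ 1 := fun h => hD1 (Subgroup.eq_bot_of_card_eq D h)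
  obtain ⟨q, hq, hqd⟩ := Nat.exists_prime_and_dvd hcard
  haveI : Fact q.Prime := ⟨hq⟩
  obtain ⟨R, hRn, -, hRp, -, hR1⟩ := nil_normal_sylow D hDnil q
  refine ⟨q, hq, fun h => hR1 hqd ?_⟩
  have h1 := Cfsg.Agent.Helper16.le_pCore hRn hRp
  rw [h, le_bot_iff] at h1
  exact h1

/-- **No three-step subgroups** in a minimal simple CN-group of odd order. -/
theorem no_three_step [Finite G] (hG : IsMinSimpleOddOrder G) (hCN : IsCNGroup G)
    (H : Subgroup G) (p : ℕ) : ¬ IsThreeStepGroup p ↥H := by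
  classical
  by_cases hp : p.Prime
  · haveI : Fact p.Prime := ⟨hp⟩
    exact no_three_step_prime hG hCN H
  intro h3
  obtain ⟨hK1, A, hA1, hAc, hAodd, hAp, hNn, hNtop, ⟨n, hidx⟩, hfpf, hax⟩ := h3
  obtain ⟨K, hKdef⟩ : ∃ K : Subgroup H, K = pCore p ↥H := ⟨_, rfl⟩
  rw [← hKdef] at hK1 hNn hNtop hidx hfpf hax
  haveI hKn : K.Normal := by rw [hKdef]; exact Cfsg.Agent.Helper16.pCore_normal p ↥H
  have hK : IsPGroup p K := by rw [hKdef]; exact Cfsg.Agent.Helper16.pCore_isPGroup p ↥H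
  haveI hsimp := hG.2.1
  have hHtop : H ≠ ⊤ := by
    rintro rfl
    haveI : Nontrivial (⊤ : Subgroup G) := Subgroup.topEquiv.toEquiv.nontrivial
    haveI : IsSimpleGroup (⊤ : Subgroup G) :=
      IsSimpleGroup.isSimpleGroup_of_surjective (Subgroup.topEquiv (G := G)).symm.toMonoidHom
        (Subgroup.topEquiv (G := G)).symm.surjective
    have h1 : K = ⊤ := (hKn.eq_bot_or_eq_top).resolve_left hK1
    apply hNtop
    rw [h1, top_sup_eq]
  haveI hsolv : Group.IsSolvable ↥H := hG.2.2.2 H hHtop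
  have hCN' : IsCNGroup ↥H := cn_subgroup hCN H
  obtain ⟨a0, ha0, ha01⟩ := ts_exists_ne_one hA1
  obtain ⟨k0, hk0, hk01⟩ := ts_exists_ne_one hK1
  by_cases hnil : Group.IsNilpotent ↥H
  · haveI := hnil
    obtain ⟨m, hm⟩ := ts_pow_eq_one hK hk0
    have h1 : (orderOf a0).Coprime (orderOf k0) := by
      have h2 : orderOf k0 ∣ p ^ m := orderOf_dvd_of_pow_eq_one hm
      have h3 : orderOf a0 ∣ Nat.card A := Subgroup.orderOf_dvd_natCard _ ha0
      exact Nat.Coprime.coprime_dvd_left h3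
        (Nat.Coprime.coprime_dvd_right h2 (Nat.Coprime.pow_right m hAp))
    have h2 : Commute a0 k0 :=
      Cfsg.Agent.Helper21.commute_of_coprime_orderOf a0 k0 h1
    have h3 : k0 ∈ K ⊓ Subgroup.centralizer ({a0} : Set H) := by
      refine Subgroup.mem_inf.2 ⟨hk0, Subgroup.mem_centralizer_iff.2 ?_⟩
      intro h hh
      rw [Set.mem_singleton_iff.1 hh]
      exact h2
    rw [hfpf a0 ha0 ha01] at h3
    exact hk01 (Subgroup.mem_bot.1 h3)
  · by_cases hF : fittingHall ↥H = ⊥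
    · haveI : Nontrivial ↥H := ⟨⟨k0, 1, hk01⟩⟩
      obtain ⟨q, hq, hq0⟩ := exists_prime_pCore_ne_bot (M := ↥H)
      haveI : Fact q.Prime := ⟨hq⟩
      exact no_three_step_prime hG hCN H (cn_three_step_aux hCN' hF hq0)
    · obtain ⟨hFnil, hFcop⟩ := Cfsg.Agent.Helper9.fittingHall_nilpotent_coprime ↥H
      haveI hFn : (fittingHall ↥H).Normal := fittingHall_normal ↥H
      obtain ⟨E, hcompl, hfrobE, hfpfE, hEnil⟩ := cn_frob_of_fittingHall hCN' hnil hF
      have hFK : fittingHall ↥H ≤ K := by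
        rw [hKdef]
        apply Cfsg.Agent.Helper16.le_pCore hFn
        rintro ⟨f, hf⟩
        by_contra hcon
        have hcon' : ¬ ∃ k : ℕ, f ^ (p ^ k) = 1 := by
          rintro ⟨k, hk⟩
          exact hcon ⟨k, Subtype.ext hk⟩
        obtain ⟨r, hr, hrf, hrp⟩ := exists_prime_not_dvd_of_not_pow hcon'
        haveI : Fact r.Prime := ⟨hr⟩
        have hrF : r ∣ Nat.card (fittingHall ↥H) :=
          hrf.trans (Subgroup.orderOf_dvd_natCard _ hf)
        obtain ⟨R, hRn, hRF, hRp, -, hR1⟩ := nil_normal_sylow (fittingHall ↥H) hFnil r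
        obtain ⟨y, hyR, hy1⟩ := ts_exists_ne_one (hR1 hrF)
        obtain ⟨m, hm⟩ := ts_pow_eq_one hRp hyR
        have hcop : Nat.Coprime r p := (Nat.Prime.coprime_iff_not_dvd hr).2 hrp
        have hRK : ∀ x ∈ R, x ∈ K → x = 1 := by
          intro x hxR hxK
          obtain ⟨m1, hm1⟩ := ts_pow_eq_one hRp hxR
          obtain ⟨m2, hm2⟩ := ts_pow_eq_one hK hxK
          have h1 : orderOf x ∣ r ^ m1 := orderOf_dvd_of_pow_eq_one hm1
          have h2 : orderOf x ∣ p ^ m2 := orderOf_dvd_of_pow_eq_one hm2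
          have h3 : (r ^ m1).Coprime (p ^ m2) := Nat.Coprime.pow _ _ hcop
          exact orderOf_eq_one_iff.1 (Nat.eq_one_of_dvd_coprimes h3 h1 h2)
        have hyN : y ∈ K ⊔ A := by
          haveI := hNn
          have h1 : orderOf (QuotientGroup.mk' (K ⊔ A) y) ∣ r ^ m := by
            apply orderOf_dvd_of_pow_eq_one
            rw [← map_pow, hm, map_one]
          have h2 : orderOf (QuotientGroup.mk' (K ⊔ A) y) ∣ p ^ n := by
            rw [← hidx, Subgroup.index_eq_card]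
            exact orderOf_dvd_natCard _
          have h3 : (r ^ m).Coprime (p ^ n) := Nat.Coprime.pow _ _ hcop
          exact (QuotientGroup.eq_one_iff y).1
            (orderOf_eq_one_iff.1 (Nat.eq_one_of_dvd_coprimes h3 h1 h2))
        obtain ⟨k1, hk1, a, ha, hka⟩ := Subgroup.mem_sup_of_normal_left.1 hyN
        have ha1 : a ≠ 1 := by
          intro h
          rw [h, mul_one] at hka
          exact hy1 (hRK y hyR (hka ▸ hk1))
        have hRc : ∀ x ∈ R, ∀ k ∈ K, x * k = k * x := by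
          intro x hx k hk
          have h1 : x * k * x⁻¹ * k⁻¹ = 1 := by
            apply hRK
            · have h2 : k * x⁻¹ * k⁻¹ ∈ R := hRn.conj_mem _ (inv_mem hx) k
              have h3 : x * k * x⁻¹ * k⁻¹ = x * (k * x⁻¹ * k⁻¹) := by group
              rw [h3]; exact mul_mem hx h2
            · exact mul_mem (hKn.conj_mem k hk x) (inv_mem hk)
          calc x * k = x * k * x⁻¹ * k⁻¹ * (k * x) := by group
            _ = k * x := by rw [h1, one_mul]
        have hmemK : ∀ x : K, (x : H) * a * (x : H)⁻¹ * a⁻¹ ∈ K := by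
          intro x
          have h2 : a * (x : H)⁻¹ * a⁻¹ ∈ K := hKn.conj_mem _ (inv_mem x.2) a
          have h3 : (x : H) * a * (x : H)⁻¹ * a⁻¹ = (x : H) * (a * (x : H)⁻¹ * a⁻¹) := by
            group
          rw [h3]; exact mul_mem x.2 h2
        have hinj : Function.Injective
            (fun x : K => (⟨(x : H) * a * (x : H)⁻¹ * a⁻¹, hmemK x⟩ : K)) := by
          intro x x' hxx
          have h1 : (x : H) * a * (x : H)⁻¹ * a⁻¹ = (x' : H) * a * (x' : H)⁻¹ * a⁻¹ :=
            congrArg Subtype.val hxx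
          have h4 : (x : H) * a * (x : H)⁻¹ = (x' : H) * a * (x' : H)⁻¹ :=
            calc (x : H) * a * (x : H)⁻¹ = ((x : H) * a * (x : H)⁻¹ * a⁻¹) * a := by group
              _ = ((x' : H) * a * (x' : H)⁻¹ * a⁻¹) * a := by rw [h1]
              _ = (x' : H) * a * (x' : H)⁻¹ := by group
          have h2 : (x' : H)⁻¹ * (x : H) ∈ K ⊓ Subgroup.centralizer ({a} : Set H) := by
            refine Subgroup.mem_inf.2
              ⟨mul_mem (inv_mem x'.2) x.2, Subgroup.mem_centralizer_iff.2 ?_⟩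
            intro h hh
            rw [Set.mem_singleton_iff.1 hh]
            calc a * ((x' : H)⁻¹ * (x : H))
                = (x' : H)⁻¹ * ((x' : H) * a * (x' : H)⁻¹) * (x : H) := by group
              _ = (x' : H)⁻¹ * ((x : H) * a * (x : H)⁻¹) * (x : H) := by rw [h4]
              _ = (x' : H)⁻¹ * (x : H) * a := by group
          rw [hfpf a ha ha1] at h2
          have h5 : (x' : H)⁻¹ * (x : H) = 1 := Subgroup.mem_bot.1 h2
          apply Subtype.ext
          calc (x : H) = (x' : H) * ((x' : H)⁻¹ * (x : H)) := by group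
            _ = (x' : H) := by rw [h5, mul_one]
        obtain ⟨x, hx⟩ := (Finite.injective_iff_surjective.1 hinj) ⟨k1, hk1⟩
        have hx' : (x : H) * a * (x : H)⁻¹ * a⁻¹ = k1 := congrArg Subtype.val hx
        have hxy : (x : H) * a * (x : H)⁻¹ = y := by
          rw [← hka, ← hx']; group
        have haR : a ∈ R := by
          have h1 : a = (x : H)⁻¹ * y * ((x : H)⁻¹)⁻¹ := by rw [← hxy]; group
          rw [h1]
          exact hRn.conj_mem y hyR _
        have h3 : k0 ∈ K ⊓ Subgroup.centralizer ({a} : Set H) := by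
          refine Subgroup.mem_inf.2 ⟨hk0, Subgroup.mem_centralizer_iff.2 ?_⟩
          intro h hh
          rw [Set.mem_singleton_iff.1 hh]
          exact hRc a haR k0 hk0
        rw [hfpf a ha ha1] at h3
        exact hk01 (Subgroup.mem_bot.1 h3)
      haveI := hEnil
      have hsurj : Function.Surjective ((QuotientGroup.mk' K).comp E.subtype) := by
        intro q
        obtain ⟨h, rfl⟩ := QuotientGroup.mk'_surjective K q
        obtain ⟨⟨⟨f, hf⟩, ⟨e, he⟩⟩, hg⟩ := hcompl.2 h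
        have hg' : f * e = h := hg
        refine ⟨⟨e, he⟩, ?_⟩
        show QuotientGroup.mk' K e = QuotientGroup.mk' K h
        have hf1 : QuotientGroup.mk' K f = 1 := (QuotientGroup.eq_one_iff f).2 (hFK hf)
        rw [← hg', map_mul, hf1, one_mul]
      haveI hQnil : Group.IsNilpotent (↥H ⧸ K) := Group.nilpotent_of_surjective _ hsurj
      obtain ⟨Ab, hAb⟩ : ∃ Ab : Subgroup (↥H ⧸ K), Ab = A.map (QuotientGroup.mk' K) :=
        ⟨_, rfl⟩
      haveI hAbn : Ab.Normal := by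
        have h1 : Ab = (K ⊔ A).map (QuotientGroup.mk' K) := by
          rw [hAb, Subgroup.map_sup, QuotientGroup.map_mk'_self, bot_sup_eq]
        rw [h1]
        exact Subgroup.Normal.map hNn _ (QuotientGroup.mk'_surjective K)
      have hAb1 : Ab ≠ ⊥ := by
        intro hbot
        have h1 : QuotientGroup.mk' K a0 ∈ Ab := by
          rw [hAb]; exact Subgroup.mem_map_of_mem _ ha0
        rw [hbot, Subgroup.mem_bot] at h1
        have h2 : a0 ∈ K ⊓ Subgroup.centralizer ({a0} : Set H) := by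
          refine Subgroup.mem_inf.2
            ⟨(QuotientGroup.eq_one_iff a0).1 h1, Subgroup.mem_centralizer_iff.2 ?_⟩
          intro h hh
          rw [Set.mem_singleton_iff.1 hh]
        rw [hfpf a0 ha0 ha01] at h2
        exact ha01 (Subgroup.mem_bot.1 h2)
      obtain ⟨z, hzA, hz1, hzc⟩ := Cfsg.Agent.S1477.exists_center_of_normal Ab hAb1
      rw [hAb] at hzA
      obtain ⟨a, ha, rfl⟩ := Subgroup.mem_map.1 hzA
      have ha1 : a ≠ 1 := fun h => hz1 (by rw [h, map_one])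
      obtain ⟨x, hx⟩ : ∃ x : H, x ∉ K ⊔ A := by
        by_contra hcon
        apply hNtop
        rw [eq_top_iff]
        intro x _
        by_contra hx
        exact hcon ⟨x, hx⟩
      apply hax x hx a ha ha1
      apply (QuotientGroup.eq_one_iff _).1
      show QuotientGroup.mk' K (x * a * x⁻¹ * a⁻¹) = 1
      rw [map_mul, map_mul, map_mul, map_inv, map_inv, hzc (QuotientGroup.mk' K x),
        mul_inv_cancel_right, mul_inv_cancel]

end NoThreeStep

end Cfsg.Agent.Helper10
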