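import Mathlib
import Cfsg.Agent.Helper10.ActPStab
import Cfsg.Agent.Helper12.SL2Free
import Cfsg.Agent.Helper19.DerLen
import Cfsg.Agent.Helper20.PSolvHall

/-!
`p`-solvable groups do not involve `SL₂(p)` for `p ≥ 5`; consequences for `p`-stability.
-/

set_option autoImplicit false

universe u

namespace Cfsg.Agent.Helper10

open scoped commutatorElement

/-- If two coprime powers of `x` lie in a subgroup, so does `x`. -/
theorem mem_of_pow_mem_coprime {G : Type*} [Group G] (N : Subgroup G) (x : G) (a b : ℕ)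
    (ha : x ^ a ∈ N) (hb : x ^ b ∈ N) (hab : Nat.Coprime a b) : x ∈ N := by
  have h1 := Nat.gcd_eq_gcd_ab a b
  rw [show Nat.gcd a b = 1 from hab] at h1
  have h2 : x = (x ^ a) ^ (Nat.gcdA a b) * (x ^ b) ^ (Nat.gcdB a b) := by
    rw [← zpow_natCast x a, ← zpow_natCast x b, ← zpow_mul, ← zpow_mul, ← zpow_add, ← h1]
    simp
  rw [h2]
  exact N.mul_mem (N.zpow_mem ha _) (N.zpow_mem hb _)

/-- An element of `M` killed by a power prime to the index of the normal subgroup `N` in `M`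
lies in `N`. -/
theorem mem_of_coprime_relIndex {G : Type*} [Group G] (N M : Subgroup G) [N.Normal] (x : G)
    (hx : x ∈ M) (a : ℕ) (hxa : x ^ a = 1) (hcop : Nat.Coprime a (N.relIndex M)) : x ∈ N := by
  have h1 : orderOf (QuotientGroup.mk (⟨x, hx⟩ : M) : M ⧸ N.subgroupOf M) ∣ a := by
    apply orderOf_dvd_of_pow_eq_one
    rw [← QuotientGroup.mk_pow]
    have h2 : (⟨x, hx⟩ : M) ^ a = 1 := Subtype.ext (by simpa using hxa)
    rw [h2, QuotientGroup.mk_one]
  have h2 : orderOf (QuotientGroup.mk (⟨x, hx⟩ : M) : M ⧸ N.subgroupOf M) ∣ N.relIndex M :=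
    orderOf_dvd_natCard _
  have h3 : orderOf (QuotientGroup.mk (⟨x, hx⟩ : M) : M ⧸ N.subgroupOf M) = 1 :=
    Nat.eq_one_of_dvd_one (hcop ▸ Nat.dvd_gcd h1 h2)
  have h4 := (QuotientGroup.eq_one_iff _).1 (orderOf_eq_one_iff.1 h3)
  exact Subgroup.mem_subgroupOf.1 h4

/-- A group containing elements satisfying the relations of the standard generators of
`SL₂(p)` (`p ≥ 5`) is not `p`-solvable. -/
theorem not_psolvable_of_sl2_rel {Q : Type*} [Group Q] (p : ℕ) [Fact p.Prime] (hp : 5 ≤ p)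
    (u l w : Q) (hup : u ^ p = 1) (hw4 : w ^ 4 = 1) (hw : w = u * l * u)
    (hwu : w * u * w⁻¹ = l) (hu1 : u ≠ 1) : ¬ Cfsg.IsPSolvable p Q := by
  rintro ⟨n, H, h0, hlast, hmono, hnorm, hstep⟩
  have hpp : p.Prime := Fact.out
  have key : ∀ i : Fin (n + 1), u ∈ H i := by
    intro i
    induction i using Fin.reverseInduction with
    | last => rw [hlast]; trivial
    | cast i ih =>
      haveI := hnorm i.castSucc
      haveI := hnorm i.succ
      rcases hstep i with ⟨m, hm⟩ | hcop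
      · have hlM : l ∈ H i.succ := by
          rw [← hwu]; exact (hnorm _).conj_mem u ih w
        have hwM : w ∈ H i.succ := by
          rw [hw]; exact (H i.succ).mul_mem ((H i.succ).mul_mem ih hlM) ih
        have h4p : Nat.Coprime 4 p := by
          have h2p : Nat.Coprime 2 p := (Nat.coprime_primes Nat.prime_two hpp).2 (by omega)
          exact Nat.Coprime.pow_left 2 h2p
        have hwN : w ∈ H i.castSucc :=
          mem_of_coprime_relIndex (H i.castSucc) (H i.succ) w hwM 4 hw4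
            (by rw [hm]; exact Nat.Coprime.pow_right m h4p)
        have h1 : l * u⁻¹ ∈ H i.castSucc := by
          have e1 : l * u⁻¹ = w * (u * w⁻¹ * u⁻¹) := by rw [← hwu]; group
          rw [e1]
          exact (H i.castSucc).mul_mem hwN
            ((hnorm _).conj_mem _ ((H i.castSucc).inv_mem hwN) u)
        have h3 : u ^ 3 ∈ H i.castSucc := by
          have e1 : u ^ 3 = (u * (l * u⁻¹)⁻¹ * u⁻¹) * w := by
            rw [hw, pow_succ, pow_two]; group
          rw [e1]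
          exact (H i.castSucc).mul_mem
            ((hnorm _).conj_mem _ ((H i.castSucc).inv_mem h1) u) hwN
        exact mem_of_pow_mem_coprime (H i.castSucc) u 3 p h3
          (by rw [hup]; exact (H i.castSucc).one_mem)
          ((Nat.coprime_primes Nat.prime_three hpp).2 (by omega))
      · exact mem_of_coprime_relIndex (H i.castSucc) (H i.succ) u ih p hup hcop.symm
  have h1 := key 0
  rw [h0] at h1
  exact hu1 (Subgroup.mem_bot.1 h1)

/-- A group isomorphic to `SL₂(p)`, `p ≥ 5`, is not `p`-solvable. -/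
theorem not_psolvable_sl2 (p : ℕ) [Fact p.Prime] (hp : 5 ≤ p) {Q : Type*} [Group Q]
    (e : Q ≃* Matrix.SpecialLinearGroup (Fin 2) (ZMod p)) : ¬ Cfsg.IsPSolvable p Q := by
  have hpp : p.Prime := Fact.out
  obtain ⟨Um, hUm⟩ : ∃ Um : Matrix (Fin 2) (Fin 2) (ZMod p), Um = !![1, 1; 0, 1] := ⟨_, rfl⟩
  obtain ⟨Lm, hLm⟩ : ∃ Lm : Matrix (Fin 2) (Fin 2) (ZMod p), Lm = !![1, 0; -1, 1] := ⟨_, rfl⟩
  obtain ⟨Wm, hWm⟩ : ∃ Wm : Matrix (Fin 2) (Fin 2) (ZMod p), Wm = !![0, 1; -1, 0] := ⟨_, rfl⟩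
  obtain ⟨Vm, hVm⟩ : ∃ Vm : Matrix (Fin 2) (Fin 2) (ZMod p), Vm = !![0, -1; 1, 0] := ⟨_, rfl⟩
  have hUd : Um.det = 1 := by rw [hUm, Matrix.det_fin_two_of]; ring
  have hLd : Lm.det = 1 := by rw [hLm, Matrix.det_fin_two_of]; ring
  have hWd : Wm.det = 1 := by rw [hWm, Matrix.det_fin_two_of]; ring
  have hVd : Vm.det = 1 := by rw [hVm, Matrix.det_fin_two_of]; ring
  have m1 : Um ^ p = 1 := by
    apply Cfsg.Agent.Helper12.upper_pow_char p Um !![0, 1; 0, 0]
    · rw [hUm, Matrix.one_fin_two, Matrix.of_add_of]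
      congr 1
      simp
    · rw [Matrix.mul_fin_two]
      simp
      ext i j
      fin_cases i <;> fin_cases j <;> rfl
  have m2 : Wm * Wm * (Wm * Wm) = 1 := by
    rw [hWm, Matrix.mul_fin_two, Matrix.mul_fin_two, Matrix.one_fin_two]
    simp
  have m3 : Wm = Um * Lm * Um := by
    rw [hWm, hUm, hLm, Matrix.mul_fin_two, Matrix.mul_fin_two]
    simp
  have m4 : Wm * Um * Vm = Lm := by
    rw [hWm, hUm, hLm, hVm, Matrix.mul_fin_two, Matrix.mul_fin_two]
    simp
  have m5 : Wm * Vm = 1 := by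
    rw [hWm, hVm, Matrix.mul_fin_two, Matrix.one_fin_two]
    simp
  obtain ⟨U, hU⟩ : ∃ U : Matrix.SpecialLinearGroup (Fin 2) (ZMod p),
      (U : Matrix (Fin 2) (Fin 2) (ZMod p)) = Um := ⟨⟨Um, hUd⟩, rfl⟩
  obtain ⟨L, hL⟩ : ∃ L : Matrix.SpecialLinearGroup (Fin 2) (ZMod p),
      (L : Matrix (Fin 2) (Fin 2) (ZMod p)) = Lm := ⟨⟨Lm, hLd⟩, rfl⟩
  obtain ⟨W, hW⟩ : ∃ W : Matrix.SpecialLinearGroup (Fin 2) (ZMod p),
      (W : Matrix (Fin 2) (Fin 2) (ZMod p)) = Wm := ⟨⟨Wm, hWd⟩, rfl⟩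
  obtain ⟨V, hV⟩ : ∃ V : Matrix.SpecialLinearGroup (Fin 2) (ZMod p),
      (V : Matrix (Fin 2) (Fin 2) (ZMod p)) = Vm := ⟨⟨Vm, hVd⟩, rfl⟩
  have s1 : U ^ p = 1 := by
    apply Subtype.ext
    rw [Matrix.SpecialLinearGroup.coe_pow, hU, m1]; rfl
  have s2 : W ^ 4 = 1 := by
    have e1 : W ^ 4 = W * W * (W * W) := by
      rw [pow_succ, pow_succ, pow_two]; group
    rw [e1]
    apply Subtype.ext
    rw [Matrix.SpecialLinearGroup.coe_mul, Matrix.SpecialLinearGroup.coe_mul, hW, m2]; rfl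
  have s3 : W = U * L * U := by
    apply Subtype.ext
    rw [Matrix.SpecialLinearGroup.coe_mul, Matrix.SpecialLinearGroup.coe_mul, hU, hL, hW, m3]
  have s5 : V = W⁻¹ := by
    apply eq_inv_of_mul_eq_one_right
    apply Subtype.ext
    rw [Matrix.SpecialLinearGroup.coe_mul, hW, hV, m5]; rfl
  have s4 : W * U * W⁻¹ = L := by
    rw [← s5]
    apply Subtype.ext
    rw [Matrix.SpecialLinearGroup.coe_mul, Matrix.SpecialLinearGroup.coe_mul, hU, hL, hW, hV, m4]
  have s6 : U ≠ 1 := by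
    intro h
    have h1 : (U : Matrix (Fin 2) (Fin 2) (ZMod p)) 0 1 = (1 : Matrix (Fin 2) (Fin 2) (ZMod p)) 0 1 := by
      rw [h]; rfl
    rw [hU, hUm] at h1
    simp at h1
  refine not_psolvable_of_sl2_rel p hp (e.symm U) (e.symm L) (e.symm W) ?_ ?_ ?_ ?_ ?_
  · rw [← map_pow, s1, map_one]
  · rw [← map_pow, s2, map_one]
  · rw [← map_mul, ← map_mul, ← s3]
  · rw [← map_inv, ← map_mul, ← map_mul, s4]
  · intro h
    exact s6 ((MulEquiv.map_eq_one_iff e.symm).1 h)

/-- `p`-solvable groups do not involve `SL₂(p)` when `p ≥ 5`. -/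
theorem sl2_free_of_psolvable {G : Type u} [Group G] [Finite G] (p : ℕ) [Fact p.Prime]
    (hp : 5 ≤ p) (hG : Cfsg.IsPSolvable p G) :
    ¬ Cfsg.Involves (Matrix.SpecialLinearGroup (Fin 2) (ZMod p)) G := by
  rintro ⟨K, R, hR, ⟨e⟩⟩
  haveI := hR
  exact not_psolvable_sl2 p hp e (Cfsg.Agent.Helper20.isPSolvable_quotient p
    (Cfsg.Agent.Helper19.dl_isPSolvable_subgroup p hG K) (R.subgroupOf K))

theorem gl2CoreP_subgroups_of_psolvable {G : Type u} [Group G] [Finite G] (p : ℕ)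
    [Fact p.Prime] (hp : 5 ≤ p) (hG : Cfsg.IsPSolvable p G) :
    ∀ H : Subgroup G, Cfsg.Agent.Helper12.GL2CoreP p H := fun H =>
  Cfsg.Agent.Helper12.gl2CoreP_of_not_involves (by omega)
    (sl2_free_of_psolvable p hp (Cfsg.Agent.Helper19.dl_isPSolvable_subgroup p hG H))

/-- `p`-stability of the action on a normal `p`-subgroup (characteristic `p` obstruction). -/
theorem isPStableOn_of_coreP {N : Type u} [Group N] [Finite N] (p : ℕ) [Fact p.Prime]
    (hcore : ∀ H : Subgroup N, Cfsg.Agent.Helper12.GL2CoreP p H) (hp : p ≠ 2)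
    (V : Subgroup N) [V.Normal] (hV : IsPGroup p V) : Cfsg.IsPStableOn p V := by
  intro a hq
  exact Cfsg.Agent.Helper12.pstab_gen_normalP p hcore hp V hV (Subgroup.centralizer (V : Set N))
    (fun g hg => by
      rw [Subgroup.mem_centralizer_iff]
      intro u hu
      exact (mul_inv_eq_iff_eq_mul.1 (hg u hu)).symm) a
    (quad_of_commutator V (Subgroup.zpowers a) hq a (Subgroup.mem_zpowers a))

/-- `p`-stability of the action on a normal section `K / N` with `K` a `p`-group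
(characteristic `p` obstruction). -/
theorem isPStableOnSection_of_coreP {G : Type u} [Group G] [Finite G] (p : ℕ) [Fact p.Prime]
    (hp : p ≠ 2) (K N : Subgroup G) [hKn : K.Normal] [N.Normal] (hK : IsPGroup p K)
    (hcore : ∀ H : Subgroup (G ⧸ N), Cfsg.Agent.Helper12.GL2CoreP p H) :
    Cfsg.IsPStableOnSection p K N := by
  intro a hq
  obtain ⟨Kb, hKb⟩ : ∃ Kb : Subgroup (G ⧸ N), Kb = K.map (QuotientGroup.mk' N) := ⟨_, rfl⟩
  have hKbn : Kb.Normal := by
    rw [hKb]; exact hKn.map _ (QuotientGroup.mk'_surjective N)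
  have hKbp : IsPGroup p Kb := by rw [hKb]; exact hK.map _
  obtain ⟨C, hC⟩ : ∃ C : Subgroup (G ⧸ N), C = Subgroup.centralizer (Kb : Set (G ⧸ N)) :=
    ⟨_, rfl⟩
  have hCn : C.Normal := by rw [hC]; infer_instance
  have hmem := Cfsg.Agent.Helper12.pstab_gen_normalP p hcore hp Kb hKbp C (fun g hg => by
      rw [hC, Subgroup.mem_centralizer_iff]
      intro u hu
      exact (mul_inv_eq_iff_eq_mul.1 (hg u hu)).symm) (QuotientGroup.mk' N a) (by
      intro u hu
      rw [hKb] at hu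
      obtain ⟨v, hv, rfl⟩ := hu
      have h1 : ⁅⁅v, a⁆, a⁆ ∈ N :=
        hq (Subgroup.commutator_mem_commutator
          (Subgroup.commutator_mem_commutator hv (Subgroup.mem_zpowers a))
          (Subgroup.mem_zpowers a))
      have h2 : (QuotientGroup.mk' N) ⁅⁅v, a⁆, a⁆ = 1 := (QuotientGroup.eq_one_iff _).2 h1
      rw [map_commutatorElement, map_commutatorElement,
        commutatorElement_eq_one_iff_commute] at h2
      have e : QuotientGroup.mk' N a * QuotientGroup.mk' N v * (QuotientGroup.mk' N a)⁻¹ *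
          (QuotientGroup.mk' N v)⁻¹ = ⁅QuotientGroup.mk' N v, QuotientGroup.mk' N a⁆⁻¹ := by
        rw [commutatorElement_def]; group
      rw [e, mul_inv_eq_iff_eq_mul]
      exact (h2.inv_left.eq).symm)
  obtain ⟨ψ, hψ⟩ : ∃ ψ : G →* (G ⧸ N) ⧸ C,
      ψ = (QuotientGroup.mk' C).comp (QuotientGroup.mk' N) := ⟨_, rfl⟩
  have hψs : Function.Surjective ψ := by
    rw [hψ]
    exact (QuotientGroup.mk'_surjective C).comp (QuotientGroup.mk'_surjective N)
  have hker : Cfsg.sectionKernel K N = ψ.ker := by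
    rw [hψ, ← MonoidHom.comap_ker, QuotientGroup.ker_mk', hC, hKb]
    rfl
  refine ⟨(Cfsg.pCore p ((G ⧸ N) ⧸ C)).comap ψ, ?_, ?_, ?_, ?_⟩
  · exact (Cfsg.pCore_normal p _).comap ψ
  · rw [hker]
    intro x hx
    rw [Subgroup.mem_comap, (MonoidHom.mem_ker).1 hx]
    exact Subgroup.one_mem _
  · rw [hker]
    have h1 : ψ.ker = (⊥ : Subgroup ((G ⧸ N) ⧸ C)).comap ψ := (MonoidHom.comap_bot ψ).symm
    rw [h1, Subgroup.relIndex_comap, Subgroup.map_comap_eq_self_of_surjective hψs,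
      Subgroup.relIndex_bot_left]
    exact (Cfsg.Agent.Helper27.pCore_isPGroup p _).exists_card_eq
  · rw [Subgroup.mem_comap, hψ]
    exact hmem

end Cfsg.Agent.Helper10
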