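import Mathlib
import Cfsg.Prelude.Def_OddOrderLocal
import Cfsg.Agent.S1465
import Cfsg.Agent.Helper9.Layer
import Cfsg.Agent.Helper1.ThTrans

set_option autoImplicit false

namespace Cfsg.Agent.Helper10

/-- `puigStep` is antitone. -/
theorem puigStep_anti {G : Type*} [Group G] {X Y : Subgroup G} (h : X ≤ Y) :
    Cfsg.puigStep Y ≤ Cfsg.puigStep X := by
  unfold Cfsg.puigStep
  apply sSup_le_sSup
  rintro A ⟨hA, hY⟩
  exact ⟨hA, h.trans hY⟩

theorem puigSeq_one (G : Type*) [Group G] : Cfsg.puigSeq G 1 = ⊤ := by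
  rw [eq_top_iff]
  intro g _
  have h : Subgroup.zpowers g ≤ Cfsg.puigSeq G 1 := by
    show Subgroup.zpowers g ≤ Cfsg.puigStep (Cfsg.puigSeq G 0)
    unfold Cfsg.puigStep
    apply le_sSup
    refine ⟨inferInstance, ?_⟩
    show (⊥ : Subgroup G) ≤ _
    exact bot_le
  exact h (Subgroup.mem_zpowers g)

theorem puig_even_le_odd (G : Type*) [Group G] :
    ∀ n m : ℕ, Cfsg.puigSeq G (2 * n) ≤ Cfsg.puigSeq G (2 * m + 1) := by
  intro n
  induction n with
  | zero =>
    intro m
    show (⊥ : Subgroup G) ≤ _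
    exact bot_le
  | succ n ih =>
    intro m
    cases m with
    | zero =>
      show _ ≤ Cfsg.puigSeq G 1
      rw [puigSeq_one]
      exact le_top
    | succ m =>
      show Cfsg.puigStep (Cfsg.puigStep (Cfsg.puigSeq G (2 * n))) ≤
        Cfsg.puigStep (Cfsg.puigStep (Cfsg.puigSeq G (2 * m + 1)))
      exact puigStep_anti (puigStep_anti (ih m))

theorem puigLower_le_puigSubgroup (G : Type*) [Group G] :
    Cfsg.puigLower G ≤ Cfsg.puigSubgroup G := by
  unfold Cfsg.puigLower Cfsg.puigSubgroup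
  exact iSup_le fun n => le_iInf fun m => puig_even_le_odd G n m

theorem puigStep_char {N : Type*} [Group N] (X : Subgroup N) (hX : X.Characteristic) :
    (Cfsg.puigStep X).Characteristic := by
  unfold Cfsg.puigStep
  apply Helper9.sSup_characteristic
  rintro e A ⟨hA, hXA⟩
  haveI := hA
  refine ⟨inferInstance, ?_⟩
  have h1 : X.map e.toMonoidHom ≤ (Subgroup.normalizer (A : Set N)).map e.toMonoidHom :=
    Subgroup.map_mono hXA
  have h2 := Subgroup.le_normalizer_map (H := A) e.toMonoidHom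
  have h3 : X.map e.toMonoidHom = X := Subgroup.characteristic_iff_map_eq.mp hX e
  rw [h3] at h1
  exact h1.trans h2

instance puigSeq_char (N : Type*) [Group N] (n : ℕ) : (Cfsg.puigSeq N n).Characteristic := by
  induction n with
  | zero =>
    show (⊥ : Subgroup N).Characteristic
    infer_instance
  | succ n ih =>
    show (Cfsg.puigStep (Cfsg.puigSeq N n)).Characteristic
    exact puigStep_char _ ih

theorem puig_odd_cent (X : Type*) [Group X] (n : ℕ) :
    Subgroup.centralizer (Cfsg.puigSeq X (2 * n + 1) : Set X) ≤ Cfsg.puigSeq X (2 * n + 1) := by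
  intro c hc
  have h : Subgroup.zpowers c ≤ Cfsg.puigSeq X (2 * n + 1) := by
    show Subgroup.zpowers c ≤ Cfsg.puigStep (Cfsg.puigSeq X (2 * n))
    unfold Cfsg.puigStep
    apply le_sSup
    refine ⟨inferInstance, ?_⟩
    intro x hx
    have hx1 : x ∈ Cfsg.puigSeq X (2 * n + 1) := puig_even_le_odd X n n hx
    rw [Subgroup.mem_centralizer_iff] at hc
    have hcx : Commute x c := hc x hx1
    apply Subgroup.centralizer_le_normalizer
    rw [Subgroup.mem_centralizer_iff]
    intro y hy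
    obtain ⟨k, rfl⟩ := Subgroup.mem_zpowers_iff.mp hy
    exact ((Commute.zpow_right hcx k).eq).symm
  exact h (Subgroup.mem_zpowers c)

theorem puigStep_map_le {G : Type*} [Group G] (H₁ : Subgroup G) (X₁ : Subgroup ↥H₁)
    (K : Subgroup G)
    (h : ∀ A : Subgroup ↥H₁, IsMulCommutative A → X₁ ≤ Subgroup.normalizer (A : Set ↥H₁) →
      A.map H₁.subtype ≤ K) :
    (Cfsg.puigStep X₁).map H₁.subtype ≤ K := by
  rw [Subgroup.map_le_iff_le_comap]
  unfold Cfsg.puigStep
  apply sSup_le
  rintro A ⟨hA, hXA⟩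
  rw [← Subgroup.map_le_iff_le_comap]
  exact h A hA hXA

theorem puigStep_transfer {G : Type*} [Group G] (H₁ H₂ : Subgroup G) (X₁ : Subgroup ↥H₁)
    (X₂ : Subgroup ↥H₂) (A : Subgroup ↥H₁) (hA : IsMulCommutative A)
    (hXA : X₁ ≤ Subgroup.normalizer (A : Set ↥H₁))
    (hAH : A.map H₁.subtype ≤ H₂) (hX : X₂.map H₂.subtype ≤ X₁.map H₁.subtype) :
    A.map H₁.subtype ≤ (Cfsg.puigStep X₂).map H₂.subtype := by
  haveI := hA
  obtain ⟨A₂, hA₂⟩ : ∃ A₂ : Subgroup ↥H₂, A₂ = (A.map H₁.subtype).subgroupOf H₂ := ⟨_, rfl⟩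
  have hmap : A₂.map H₂.subtype = A.map H₁.subtype := by
    rw [hA₂]; exact Subgroup.map_subgroupOf_eq_of_le hAH
  rw [← hmap]
  apply Subgroup.map_mono
  unfold Cfsg.puigStep
  apply le_sSup
  have hmem : ∀ w : ↥H₂, w ∈ A₂ ↔ (w : G) ∈ A.map H₁.subtype := by
    intro w; rw [hA₂]; exact Subgroup.mem_subgroupOf
  refine ⟨?_, ?_⟩
  · rw [hA₂]; infer_instance
  · intro x hx
    have hx1 : (x : G) ∈ X₂.map H₂.subtype := ⟨x, hx, rfl⟩
    obtain ⟨y, hy, hyx⟩ := hX hx1
    have hyx' : (y : G) = (x : G) := hyx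
    have hyN := hXA hy
    rw [Subgroup.mem_normalizer_iff] at hyN
    rw [Subgroup.mem_normalizer_iff]
    intro z
    rw [hmem, hmem]
    constructor
    · rintro ⟨a, ha, haz⟩
      have haz' : (a : G) = (z : G) := haz
      refine ⟨y * a * y⁻¹, (hyN a).mp ha, ?_⟩
      show (y : G) * (a : G) * (y : G)⁻¹ = (x : G) * (z : G) * (x : G)⁻¹
      rw [haz', hyx']
    · rintro ⟨a, ha, haz⟩
      have haz' : (a : G) = (x : G) * (z : G) * (x : G)⁻¹ := haz
      refine ⟨y⁻¹ * a * y, ?_, ?_⟩
      · apply (hyN (y⁻¹ * a * y)).mpr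
        have : y * (y⁻¹ * a * y) * y⁻¹ = a := by group
        rw [this]; exact ha
      · show (y : G)⁻¹ * (a : G) * (y : G) = (z : G)
        rw [haz', hyx']; group

/-- The Puig comparison (Bender–Glauberman B.1-type): the even terms of the Puig series of a
Sylow subgroup lie in those of `O_p(G)`, the odd terms the other way round. -/
theorem puig_compare {G : Type*} [Group G] [Finite G] [Group.IsSolvable G]
    (hodd : Odd (Nat.card G)) (p : ℕ) [Fact p.Prime] (hp : p ≠ 2)
    (hO : Cfsg.pPrimeCore p G = ⊥) (S : Sylow p G) (n : ℕ) :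
    (Cfsg.puigSeq ↥(S : Subgroup G) (2 * n)).map (S : Subgroup G).subtype ≤
        (Cfsg.puigSeq ↥(Cfsg.pCore p G) (2 * n)).map (Cfsg.pCore p G).subtype ∧
      (Cfsg.puigSeq ↥(Cfsg.pCore p G) (2 * n + 1)).map (Cfsg.pCore p G).subtype ≤
        (Cfsg.puigSeq ↥(S : Subgroup G) (2 * n + 1)).map (S : Subgroup G).subtype := by
  have hTS : Cfsg.pCore p G ≤ (S : Subgroup G) :=
    Helper1.normal_pgroup_le_sylow (Cfsg.pCore p G) (Helper9.pCore_isPGroup p) S
  induction n with
  | zero =>
    refine ⟨?_, ?_⟩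
    · show (⊥ : Subgroup ↥(S : Subgroup G)).map _ ≤ _
      rw [Subgroup.map_bot]
      exact bot_le
    · show (Cfsg.puigSeq ↥(Cfsg.pCore p G) 1).map _ ≤ (Cfsg.puigSeq ↥(S : Subgroup G) 1).map _
      rw [puigSeq_one, puigSeq_one, ← MonoidHom.range_eq_map, ← MonoidHom.range_eq_map,
        Subgroup.range_subtype, Subgroup.range_subtype]
      exact hTS
  | succ n ih =>
    obtain ⟨ih1, ih2⟩ := ih
    have hA : (Cfsg.puigSeq ↥(S : Subgroup G) (2 * n + 2)).map (S : Subgroup G).subtype ≤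
        (Cfsg.puigSeq ↥(Cfsg.pCore p G) (2 * n + 2)).map (Cfsg.pCore p G).subtype := by
      show (Cfsg.puigStep (Cfsg.puigSeq ↥(S : Subgroup G) (2 * n + 1))).map _ ≤
        (Cfsg.puigStep (Cfsg.puigSeq ↥(Cfsg.pCore p G) (2 * n + 1))).map _
      apply puigStep_map_le
      intro A hAc hAn
      haveI := hAc
      apply puigStep_transfer _ _ _ _ A hAc hAn _ ih2
      -- A ≤ O_p(G) via S1465
      obtain ⟨P, hPdef⟩ : ∃ P : Subgroup G, P =
        (Cfsg.puigSeq ↥(Cfsg.pCore p G) (2 * n + 1)).map (Cfsg.pCore p G).subtype := ⟨_, rfl⟩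
      haveI hPn : P.Normal := by
        rw [hPdef]
        exact Helper9.char_map_normal (Cfsg.pCore p G) _
      have hPp : IsPGroup p P := by
        rw [hPdef]
        exact (Helper9.pCore_isPGroup p).to_le (Subgroup.map_subtype_le _)
      have hPle : P ≤ Subgroup.normalizer ((A.map (S : Subgroup G).subtype : Subgroup G) : Set G) := by
        rw [hPdef]
        exact (ih2.trans (Subgroup.map_mono hAn)).trans (Subgroup.le_normalizer_map _)
      have hfam : ∀ B ∈ ({A.map (S : Subgroup G).subtype} : Set (Subgroup G)),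
          IsMulCommutative B ∧ IsPGroup p B ∧ P ≤ Subgroup.normalizer (B : Set G) := by
        intro B hB
        rw [Set.mem_singleton_iff] at hB
        subst hB
        exact ⟨inferInstance, S.isPGroup'.to_le (Subgroup.map_subtype_le _), hPle⟩
      have hcent : Cfsg.pCore p G ⊓ Subgroup.centralizer (P : Set G) ≤ P := by
        intro c hc
        obtain ⟨hc1, hc2⟩ := hc
        have hc2' : c ∈ Subgroup.centralizer (P : Set G) := hc2
        rw [Subgroup.mem_centralizer_iff] at hc2'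
        have hc3 : (⟨c, hc1⟩ : ↥(Cfsg.pCore p G)) ∈
            Subgroup.centralizer (Cfsg.puigSeq ↥(Cfsg.pCore p G) (2 * n + 1) : Set ↥(Cfsg.pCore p G)) := by
          rw [Subgroup.mem_centralizer_iff]
          intro h hh
          apply Subtype.ext
          show (h : G) * c = c * (h : G)
          apply hc2'
          rw [hPdef]
          exact ⟨h, hh, rfl⟩
        have hc4 := puig_odd_cent _ n hc3
        rw [hPdef]
        exact ⟨⟨c, hc1⟩, hc4, rfl⟩
      have hres := (Cfsg.Agent.S1465.result hodd p hp P hPp _ hfam).2 hO hcent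
      rw [sSup_singleton] at hres
      exact hres
    refine ⟨hA, ?_⟩
    show (Cfsg.puigStep (Cfsg.puigSeq ↥(Cfsg.pCore p G) (2 * n + 2))).map _ ≤
        (Cfsg.puigStep (Cfsg.puigSeq ↥(S : Subgroup G) (2 * n + 2))).map _
    apply puigStep_map_le
    intro A hAc hAn
    exact puigStep_transfer _ _ _ _ A hAc hAn ((Subgroup.map_subtype_le _).trans hTS) hA

end Cfsg.Agent.Helper10
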