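import Mathlib
import Cfsg.Prelude.Def_OddOrderLocal
import Cfsg.Agent.Helper10.Puig
import Cfsg.Agent.S1468
import Cfsg.Agent.Helper9.PComp
import Cfsg.Agent.Helper27.SylowLemmas

set_option autoImplicit false

namespace Cfsg.Agent.Helper10

open scoped Pointwise

/-- The centre of a subgroup `L` of `G`, as a subgroup of `G`. -/
def zOf {G : Type*} [Group G] (L : Subgroup G) : Subgroup G :=
  L ⊓ Subgroup.centralizer (L : Set G)

theorem mem_zOf {G : Type*} [Group G] (L : Subgroup G) (x : G) :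
    x ∈ zOf L ↔ x ∈ L ∧ ∀ h ∈ L, h * x = x * h := by
  unfold zOf
  rw [Subgroup.mem_inf, Subgroup.mem_centralizer_iff]
  rfl

theorem center_map_eq {G : Type*} [Group G] (H : Subgroup G) (L' : Subgroup ↥H) :
    ((Subgroup.center ↥L').map L'.subtype).map H.subtype = zOf (L'.map H.subtype) := by
  ext x
  rw [mem_zOf]
  constructor
  · rintro ⟨y, ⟨z, hz, rfl⟩, rfl⟩
    refine ⟨⟨(z : ↥H), z.2, rfl⟩, ?_⟩
    rintro _ ⟨l, hl, rfl⟩
    have h1 := Subgroup.mem_center_iff.mp hz ⟨l, hl⟩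
    exact congrArg (fun t : ↥L' => ((t : ↥H) : G)) h1
  · rintro ⟨⟨l, hl, rfl⟩, hc⟩
    refine ⟨l, ⟨⟨l, hl⟩, ?_, rfl⟩, rfl⟩
    show (⟨l, hl⟩ : ↥L') ∈ Subgroup.center ↥L'
    rw [Subgroup.mem_center_iff]
    intro m
    apply Subtype.ext
    apply Subtype.ext
    show ((m : ↥H) : G) * (l : G) = (l : G) * ((m : ↥H) : G)
    exact hc _ ⟨(m : ↥H), m.2, rfl⟩

theorem zOf_comm {G : Type*} [Group G] (L : Subgroup G) : IsMulCommutative (zOf L) :=
  ⟨⟨fun a b => Subtype.ext (((mem_zOf L b).mp b.2).2 a ((mem_zOf L a).mp a.2).1)⟩⟩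

theorem normalizer_le_zOf {G : Type*} [Group G] (L : Subgroup G) :
    Subgroup.normalizer (L : Set G) ≤ Subgroup.normalizer ((zOf L : Subgroup G) : Set G) := by
  intro g hg
  have hg' := Subgroup.mem_normalizer_iff.mp hg
  rw [Subgroup.mem_normalizer_iff]
  intro x
  rw [mem_zOf, mem_zOf]
  constructor
  · rintro ⟨hx, hc⟩
    refine ⟨(hg' x).mp hx, ?_⟩
    intro h hh
    have h1 : g⁻¹ * h * g ∈ L := by
      apply (hg' _).mpr
      have : g * (g⁻¹ * h * g) * g⁻¹ = h := by group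
      rw [this]; exact hh
    have h2 := hc _ h1
    calc h * (g * x * g⁻¹) = g * (g⁻¹ * h * g * x) * g⁻¹ := by group
      _ = g * (x * (g⁻¹ * h * g)) * g⁻¹ := by rw [h2]
      _ = g * x * g⁻¹ * h := by group
  · rintro ⟨hx, hc⟩
    refine ⟨(hg' x).mpr hx, ?_⟩
    intro h hh
    have h1 : g * h * g⁻¹ ∈ L := (hg' h).mp hh
    have h2 := hc _ h1
    calc h * x = g⁻¹ * (g * h * g⁻¹ * (g * x * g⁻¹)) * g := by group
      _ = g⁻¹ * (g * x * g⁻¹ * (g * h * g⁻¹)) * g := by rw [h2]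
      _ = x * h := by group

theorem zOf_normal {G : Type*} [Group G] (L : Subgroup G) [L.Normal] : (zOf L).Normal := by
  rw [← Subgroup.normalizer_eq_top_iff, eq_top_iff]
  refine le_trans ?_ (normalizer_le_zOf L)
  rw [Subgroup.normalizer_eq_top]

theorem puig_odd_anti (X : Type*) [Group X] :
    ∀ n m : ℕ, n ≤ m → Cfsg.puigSeq X (2 * m + 1) ≤ Cfsg.puigSeq X (2 * n + 1) := by
  have hstep : ∀ n : ℕ, Cfsg.puigSeq X (2 * (n + 1) + 1) ≤ Cfsg.puigSeq X (2 * n + 1) := by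
    intro n
    induction n with
    | zero =>
      show _ ≤ Cfsg.puigSeq X 1
      rw [puigSeq_one]; exact le_top
    | succ n ih =>
      show Cfsg.puigStep (Cfsg.puigStep (Cfsg.puigSeq X (2 * (n + 1) + 1))) ≤
        Cfsg.puigStep (Cfsg.puigStep (Cfsg.puigSeq X (2 * n + 1)))
      exact puigStep_anti (puigStep_anti ih)
  intro n m hnm
  obtain ⟨k, rfl⟩ := Nat.exists_eq_add_of_le hnm
  clear hnm
  induction k with
  | zero => exact le_rfl
  | succ k ih => exact (hstep (n + k)).trans ih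

theorem puig_stab (X : Type*) [Group X] [Finite X] :
    ∃ N : ℕ, Cfsg.puigSubgroup X = Cfsg.puigSeq X (2 * N + 1) := by
  obtain ⟨N, -, hN⟩ := (InvImage.wf (fun n : ℕ => Nat.card ↥(Cfsg.puigSeq X (2 * n + 1)))
    Nat.lt_wfRel.wf).has_min Set.univ ⟨0, trivial⟩
  refine ⟨N, ?_⟩
  unfold Cfsg.puigSubgroup
  refine le_antisymm (iInf_le _ N) (le_iInf fun m => ?_)
  rcases le_total m N with h | h
  · exact puig_odd_anti X m N h
  · have h1 := puig_odd_anti X N m h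
    have h2 : ¬ Nat.card ↥(Cfsg.puigSeq X (2 * m + 1)) < Nat.card ↥(Cfsg.puigSeq X (2 * N + 1)) :=
      hN m trivial
    have h3 := Subgroup.eq_of_le_of_card_ge h1 (not_lt.mp h2)
    rw [h3]

theorem puig_cent (X : Type*) [Group X] :
    Subgroup.centralizer (Cfsg.puigSubgroup X : Set X) ≤ Cfsg.puigSubgroup X := by
  intro c hc
  rw [Subgroup.mem_centralizer_iff] at hc
  unfold Cfsg.puigSubgroup
  rw [Subgroup.mem_iInf]
  intro m
  have h : Subgroup.zpowers c ≤ Cfsg.puigSeq X (2 * m + 1) := by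
    show Subgroup.zpowers c ≤ Cfsg.puigStep (Cfsg.puigSeq X (2 * m))
    unfold Cfsg.puigStep
    apply le_sSup
    refine ⟨inferInstance, ?_⟩
    intro x hx
    have hx1 : x ∈ Cfsg.puigSubgroup X := by
      unfold Cfsg.puigSubgroup
      rw [Subgroup.mem_iInf]
      intro k
      exact puig_even_le_odd X m k hx
    have hcx : Commute x c := hc x hx1
    apply Subgroup.centralizer_le_normalizer
    rw [Subgroup.mem_centralizer_iff]
    intro y hy
    obtain ⟨k, rfl⟩ := Subgroup.mem_zpowers_iff.mp hy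
    exact ((Commute.zpow_right hcx k).eq).symm
  exact h (Subgroup.mem_zpowers c)

instance puigSubgroup_char (N : Type*) [Group N] : (Cfsg.puigSubgroup N).Characteristic := by
  rw [Subgroup.characteristic_iff_comap_eq]
  intro φ
  unfold Cfsg.puigSubgroup
  rw [Subgroup.comap_iInf]
  congr 1
  funext n
  exact (puigSeq_char N (2 * n + 1)).fixed φ

theorem puigSubgroup_map_eq {G : Type*} [Group G] (H : Subgroup G) :
    (Cfsg.puigSubgroup ↥H).map H.subtype =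
      ⨅ n : ℕ, (Cfsg.puigSeq ↥H (2 * n + 1)).map H.subtype := by
  unfold Cfsg.puigSubgroup
  exact Subgroup.map_iInf _ (Subgroup.subtype_injective _) _

theorem puig_sub_compare {G : Type*} [Group G] (H₁ H₂ : Subgroup G) (h21 : H₂ ≤ H₁)
    (hL : ∀ n, (Cfsg.puigSeq ↥H₁ (2 * n)).map H₁.subtype ≤ H₂) (n : ℕ) :
    (Cfsg.puigSeq ↥H₁ (2 * n)).map H₁.subtype ≤ (Cfsg.puigSeq ↥H₂ (2 * n)).map H₂.subtype ∧
    (Cfsg.puigSeq ↥H₂ (2 * n + 1)).map H₂.subtype ≤
      (Cfsg.puigSeq ↥H₁ (2 * n + 1)).map H₁.subtype := by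
  induction n with
  | zero =>
    refine ⟨?_, ?_⟩
    · show (⊥ : Subgroup ↥H₁).map _ ≤ _
      rw [Subgroup.map_bot]; exact bot_le
    · show (Cfsg.puigSeq ↥H₂ 1).map _ ≤ (Cfsg.puigSeq ↥H₁ 1).map _
      rw [puigSeq_one, puigSeq_one, ← MonoidHom.range_eq_map, ← MonoidHom.range_eq_map,
        Subgroup.range_subtype, Subgroup.range_subtype]
      exact h21
  | succ n ih =>
    obtain ⟨ih1, ih2⟩ := ih
    have hA : (Cfsg.puigSeq ↥H₁ (2 * n + 2)).map H₁.subtype ≤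
        (Cfsg.puigSeq ↥H₂ (2 * n + 2)).map H₂.subtype := by
      show (Cfsg.puigStep (Cfsg.puigSeq ↥H₁ (2 * n + 1))).map _ ≤
        (Cfsg.puigStep (Cfsg.puigSeq ↥H₂ (2 * n + 1))).map _
      apply puigStep_map_le
      intro A hAc hAn
      apply puigStep_transfer _ _ _ _ A hAc hAn _ ih2
      have hA2 : A ≤ Cfsg.puigSeq ↥H₁ (2 * (n + 1)) := by
        show A ≤ Cfsg.puigStep (Cfsg.puigSeq ↥H₁ (2 * n + 1))
        unfold Cfsg.puigStep
        exact le_sSup ⟨hAc, hAn⟩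
      exact (Subgroup.map_mono hA2).trans (hL (n + 1))
    refine ⟨hA, ?_⟩
    show (Cfsg.puigStep (Cfsg.puigSeq ↥H₂ (2 * n + 2))).map _ ≤
      (Cfsg.puigStep (Cfsg.puigSeq ↥H₁ (2 * n + 2))).map _
    apply puigStep_map_le
    intro A hAc hAn
    exact puigStep_transfer _ _ _ _ A hAc hAn ((Subgroup.map_subtype_le _).trans h21) hA

theorem puig_sub_compare2 {G : Type*} [Group G] (H₁ H₂ : Subgroup G) [Finite ↥H₁]
    (h21 : H₂ ≤ H₁) (hL : (Cfsg.puigSubgroup ↥H₁).map H₁.subtype ≤ H₂) :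
    ∃ N : ℕ, ∀ n : ℕ,
      (Cfsg.puigSeq ↥H₂ (2 * n)).map H₂.subtype ≤
          (Cfsg.puigSeq ↥H₁ (2 * N + 2)).map H₁.subtype ∧
        (Cfsg.puigSubgroup ↥H₁).map H₁.subtype ≤
          (Cfsg.puigSeq ↥H₂ (2 * n + 1)).map H₂.subtype := by
  obtain ⟨N, hN⟩ := puig_stab ↥H₁
  have hN3 : Cfsg.puigSubgroup ↥H₁ = Cfsg.puigSeq ↥H₁ (2 * N + 3) := by
    apply le_antisymm
    · unfold Cfsg.puigSubgroup; exact iInf_le _ (N + 1)
    · rw [hN]; exact puig_odd_anti _ N (N + 1) (Nat.le_succ N)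
  refine ⟨N, fun n => ?_⟩
  induction n with
  | zero =>
    refine ⟨?_, ?_⟩
    · show (⊥ : Subgroup ↥H₂).map _ ≤ _
      rw [Subgroup.map_bot]; exact bot_le
    · show _ ≤ (Cfsg.puigSeq ↥H₂ 1).map _
      rw [puigSeq_one, ← MonoidHom.range_eq_map, Subgroup.range_subtype]
      exact hL
  | succ n ih =>
    obtain ⟨ih1, ih2⟩ := ih
    have hA : (Cfsg.puigSeq ↥H₂ (2 * n + 2)).map H₂.subtype ≤
        (Cfsg.puigSeq ↥H₁ (2 * N + 2)).map H₁.subtype := by
      show (Cfsg.puigStep (Cfsg.puigSeq ↥H₂ (2 * n + 1))).map _ ≤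
        (Cfsg.puigStep (Cfsg.puigSeq ↥H₁ (2 * N + 1))).map _
      apply puigStep_map_le
      intro A hAc hAn
      apply puigStep_transfer _ _ _ _ A hAc hAn ((Subgroup.map_subtype_le _).trans h21)
      rw [← hN]; exact ih2
    refine ⟨hA, ?_⟩
    rw [hN3]
    show (Cfsg.puigStep (Cfsg.puigSeq ↥H₁ (2 * N + 2))).map _ ≤
      (Cfsg.puigStep (Cfsg.puigSeq ↥H₂ (2 * n + 2))).map _
    apply puigStep_map_le
    intro A hAc hAn
    apply puigStep_transfer _ _ _ _ A hAc hAn _ hA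
    have hA2 : A ≤ Cfsg.puigSubgroup ↥H₁ := by
      rw [hN3]
      show A ≤ Cfsg.puigStep (Cfsg.puigSeq ↥H₁ (2 * N + 2))
      unfold Cfsg.puigStep
      exact le_sSup ⟨hAc, hAn⟩
    exact (Subgroup.map_mono hA2).trans hL

/-- If `L(H₁) ≤ H₂ ≤ H₁` then `L(H₂) = L(H₁)` (as subgroups of the ambient group). -/
theorem puig_sub_eq {G : Type*} [Group G] (H₁ H₂ : Subgroup G) [Finite ↥H₁] (h21 : H₂ ≤ H₁)
    (hL : (Cfsg.puigSubgroup ↥H₁).map H₁.subtype ≤ H₂) :
    (Cfsg.puigSubgroup ↥H₂).map H₂.subtype = (Cfsg.puigSubgroup ↥H₁).map H₁.subtype := by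
  apply le_antisymm
  · have hev : ∀ n, (Cfsg.puigSeq ↥H₁ (2 * n)).map H₁.subtype ≤ H₂ := by
      intro n
      refine le_trans (Subgroup.map_mono ?_) hL
      unfold Cfsg.puigSubgroup
      exact le_iInf fun m => puig_even_le_odd _ n m
    have h1 := fun n => (puig_sub_compare H₁ H₂ h21 hev n).2
    rw [puigSubgroup_map_eq H₂, puigSubgroup_map_eq H₁]
    exact iInf_mono h1
  · obtain ⟨N, hN⟩ := puig_sub_compare2 H₁ H₂ h21 hL
    have h2 := fun n => (hN n).2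
    rw [puigSubgroup_map_eq H₂]
    exact le_iInf h2

theorem conj_into_sylow {G : Type*} [Group G] [Finite G] {p : ℕ} [Fact p.Prime]
    (N : Subgroup G) [N.Normal] (S : Sylow p G) (B : Subgroup G) (hB : IsPGroup p B)
    (hBM : B ≤ N ⊔ (S : Subgroup G)) :
    ∃ c ∈ N, ∀ b ∈ B, c⁻¹ * b * c ∈ (S : Subgroup G) := by
  obtain ⟨M, hM⟩ : ∃ M : Subgroup G, M = N ⊔ (S : Subgroup G) := ⟨_, rfl⟩
  have hSM : (S : Subgroup G) ≤ M := by rw [hM]; exact le_sup_right
  rw [← hM] at hBM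
  obtain ⟨Q, hQ⟩ : ∃ Q : Sylow p ↥M, (Q : Subgroup ↥M) = (S : Subgroup G).subgroupOf M :=
    ⟨S.subtype hSM, Sylow.coe_subtype _ _⟩
  have hB' : IsPGroup p ↥(B.subgroupOf M) := hB.comap_subtype
  obtain ⟨P', hP'⟩ := hB'.exists_le_sylow
  obtain ⟨x, hx⟩ := MulAction.exists_smul_eq ↥M Q P'
  have hxM : (x : G) ∈ N ⊔ (S : Subgroup G) := by rw [← hM]; exact x.2
  have hx2 : (x : G) ∈ (N : Set G) * ((S : Subgroup G) : Set G) := by
    rw [← Subgroup.normal_mul]; exact hxM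
  obtain ⟨c, hc, s, hs, hcs⟩ := Set.mem_mul.mp hx2
  refine ⟨c, hc, fun b hb => ?_⟩
  have hb1 : (⟨b, hBM hb⟩ : ↥M) ∈ P' := hP' (Subgroup.mem_subgroupOf.mpr hb)
  rw [← hx, Helper27.mem_sylow_smul_iff] at hb1
  have hb2 : (x⁻¹ * (⟨b, hBM hb⟩ : ↥M) * x : ↥M) ∈ (S : Subgroup G).subgroupOf M := by
    rw [← hQ]; exact hb1
  have hb3 : (x : G)⁻¹ * b * (x : G) ∈ (S : Subgroup G) := Subgroup.mem_subgroupOf.mp hb2
  rw [← hcs] at hb3
  have hb4 : c⁻¹ * b * c = s * ((c * s)⁻¹ * b * (c * s)) * s⁻¹ := by group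
  rw [hb4]
  exact (S : Subgroup G).mul_mem ((S : Subgroup G).mul_mem hs hb3) ((S : Subgroup G).inv_mem hs)

theorem puig_mem_normalizer_of_conj_le {G : Type*} [Group G] (U : Subgroup G) [Finite ↥U]
    (w : G) (hw : ∀ v ∈ U, w * v * w⁻¹ ∈ U) : w ∈ Subgroup.normalizer (U : Set G) := by
  rw [Subgroup.mem_normalizer_iff]
  intro h
  constructor
  · exact hw h
  · intro hh
    obtain ⟨f, hf⟩ : ∃ f : ↥U → ↥U, ∀ v : ↥U, ((f v : ↥U) : G) = w * (v : G) * w⁻¹ :=
      ⟨fun v => ⟨w * v * w⁻¹, hw v v.2⟩, fun v => rfl⟩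
    have hinj : Function.Injective f := by
      intro a b hab
      have h1 : w * (a : G) * w⁻¹ = w * (b : G) * w⁻¹ := by
        rw [← hf a, ← hf b, hab]
      exact Subtype.ext (mul_left_cancel (mul_right_cancel h1))
    obtain ⟨v, hv⟩ := (Finite.injective_iff_surjective.mp hinj) ⟨w * h * w⁻¹, hh⟩
    have h1 : w * (v : G) * w⁻¹ = w * h * w⁻¹ := by
      rw [← hf v, hv]
    have h2 : (v : G) = h := mul_left_cancel (mul_right_cancel h1)
    rw [← h2]; exact v.2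

/-- Puig's theorem, core case: if `O_{p'}(G) = 1` (G solvable of odd order) then the centre of
the Puig subgroup of a Sylow `p`-subgroup is normal in `G`. -/
theorem puig_center_normal {G : Type*} [Group G] [Finite G] [Group.IsSolvable G]
    (hodd : Odd (Nat.card G)) (p : ℕ) [Fact p.Prime] (hp : p ≠ 2)
    (hO : Cfsg.pPrimeCore p G = ⊥) (S : Sylow p G) :
    (zOf ((Cfsg.puigSubgroup ↥(S : Subgroup G)).map (S : Subgroup G).subtype)).Normal := by
  obtain ⟨LS, hLS⟩ : ∃ LS : Subgroup G,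
    LS = (Cfsg.puigSubgroup ↥(S : Subgroup G)).map (S : Subgroup G).subtype := ⟨_, rfl⟩
  obtain ⟨LT, hLT⟩ : ∃ LT : Subgroup G,
    LT = (Cfsg.puigSubgroup ↥(Cfsg.pCore p G)).map (Cfsg.pCore p G).subtype := ⟨_, rfl⟩
  rw [← hLS]
  have hTS : Cfsg.pCore p G ≤ (S : Subgroup G) :=
    Helper1.normal_pgroup_le_sylow (Cfsg.pCore p G) (Helper9.pCore_isPGroup p) S
  have hLTS : LT ≤ LS := by
    rw [hLT, hLS]; exact (Cfsg.Agent.S1468.result hodd p hp hO S).2.2
  have hLSS : LS ≤ (S : Subgroup G) := by rw [hLS]; exact Subgroup.map_subtype_le _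
  have hLTT : LT ≤ Cfsg.pCore p G := by rw [hLT]; exact Subgroup.map_subtype_le _
  haveI hLTn : LT.Normal := by
    rw [hLT]; exact Helper9.char_map_normal (Cfsg.pCore p G) _
  have hLTp : IsPGroup p LT := (Helper9.pCore_isPGroup p).to_le hLTT
  have hcent : Cfsg.pCore p G ⊓ Subgroup.centralizer (LT : Set G) ≤ LT := by
    intro c hc
    obtain ⟨hc1, hc2⟩ := hc
    have hc2' : c ∈ Subgroup.centralizer (LT : Set G) := hc2
    rw [Subgroup.mem_centralizer_iff] at hc2'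
    have hc3 : (⟨c, hc1⟩ : ↥(Cfsg.pCore p G)) ∈
        Subgroup.centralizer
          (Cfsg.puigSubgroup ↥(Cfsg.pCore p G) : Set ↥(Cfsg.pCore p G)) := by
      rw [Subgroup.mem_centralizer_iff]
      intro h hh
      apply Subtype.ext
      show (h : G) * c = c * (h : G)
      apply hc2'
      rw [hLT]
      exact ⟨h, hh, rfl⟩
    have hc4 := puig_cent _ hc3
    rw [hLT]
    exact ⟨⟨c, hc1⟩, hc4, rfl⟩
  obtain ⟨Y, hY⟩ : ∃ Y : Subgroup G, Y = zOf LT := ⟨_, rfl⟩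
  obtain ⟨Z, hZ⟩ : ∃ Z : Subgroup G, Z = zOf LS := ⟨_, rfl⟩
  rw [← hZ]
  haveI hYn : Y.Normal := by rw [hY]; exact zOf_normal LT
  haveI hYc : IsMulCommutative Y := by rw [hY]; exact zOf_comm LT
  have hYLT : Y ≤ LT := by
    intro y hy
    rw [hY] at hy
    exact ((mem_zOf LT y).mp hy).1
  have hYT : Y ≤ Cfsg.pCore p G := hYLT.trans hLTT
  have hYp : IsPGroup p Y := (Helper9.pCore_isPGroup p).to_le hYT
  have hZLS : Z ≤ LS := by
    intro z hz
    rw [hZ] at hz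
    exact ((mem_zOf LS z).mp hz).1
  have hZc : IsMulCommutative Z := by rw [hZ]; exact zOf_comm LS
  -- (1) Z ≤ Y
  have hZY : Z ≤ Y := by
    have hfam : ∀ B ∈ ({Z} : Set (Subgroup G)),
        IsMulCommutative B ∧ IsPGroup p B ∧ LT ≤ Subgroup.normalizer (B : Set G) := by
      intro B hB
      rw [Set.mem_singleton_iff] at hB
      rw [hB]
      refine ⟨hZc, S.isPGroup'.to_le (hZLS.trans hLSS), ?_⟩
      intro l hl
      apply Subgroup.centralizer_le_normalizer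
      rw [Subgroup.mem_centralizer_iff]
      intro z hz
      have hz' : z ∈ zOf LS := by rw [← hZ]; exact hz
      exact (((mem_zOf LS z).mp hz').2 l (hLTS hl)).symm
    have hres := (Cfsg.Agent.S1465.result hodd p hp LT hLTp _ hfam).2 hO hcent
    rw [sSup_singleton] at hres
    intro z hz
    have hz' : z ∈ zOf LS := by rw [← hZ]; exact hz
    have hzT : z ∈ Cfsg.pCore p G := hres hz
    have hzc : z ∈ Subgroup.centralizer (LT : Set G) := by
      rw [Subgroup.mem_centralizer_iff]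
      intro l hl
      exact ((mem_zOf LS z).mp hz').2 l (hLTS hl)
    have hzLT : z ∈ LT := hcent ⟨hzT, hzc⟩
    rw [hY, mem_zOf]
    exact ⟨hzLT, Subgroup.mem_centralizer_iff.mp hzc⟩
  -- (2) LS ≤ D
  obtain ⟨D, hD⟩ : ∃ D : Subgroup G,
    D = (Cfsg.pCore p (G ⧸ Subgroup.centralizer (Y : Set G))).comap
      (QuotientGroup.mk' (Subgroup.centralizer (Y : Set G))) := ⟨_, rfl⟩
  haveI hDn : D.Normal := by rw [hD]; exact Subgroup.Normal.comap inferInstance _
  obtain ⟨F, hF⟩ : ∃ F : Set (Subgroup G), F = {B | ∃ A : Subgroup ↥(S : Subgroup G),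
      IsMulCommutative A ∧
      Cfsg.puigSeq ↥(S : Subgroup G) 2 ≤ Subgroup.normalizer (A : Set ↥(S : Subgroup G)) ∧
      B = A.map (S : Subgroup G).subtype} := ⟨_, rfl⟩
  have hY2 : Y ≤ (Cfsg.puigSeq ↥(S : Subgroup G) 2).map (S : Subgroup G).subtype := by
    have h1 : (Y.subgroupOf (S : Subgroup G)).map (S : Subgroup G).subtype = Y :=
      Subgroup.map_subgroupOf_eq_of_le (hYT.trans hTS)
    rw [← h1]
    apply Subgroup.map_mono
    show _ ≤ Cfsg.puigStep (Cfsg.puigSeq ↥(S : Subgroup G) 1)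
    unfold Cfsg.puigStep
    apply le_sSup
    refine ⟨inferInstance, ?_⟩
    rw [Subgroup.normalizer_eq_top]
    exact le_top
  have hfamF : ∀ B ∈ F,
      IsMulCommutative B ∧ IsPGroup p B ∧ Y ≤ Subgroup.normalizer (B : Set G) := by
    intro B hB
    rw [hF] at hB
    obtain ⟨A, hAc, hAn, rfl⟩ := hB
    haveI := hAc
    refine ⟨inferInstance, S.isPGroup'.to_le (Subgroup.map_subtype_le _), ?_⟩
    exact (hY2.trans (Subgroup.map_mono hAn)).trans (Subgroup.le_normalizer_map _)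
  have hres2 := (Cfsg.Agent.S1465.result hodd p hp Y hYp F hfamF).1
  have hLSD : LS ≤ D := by
    have h3 : LS ≤ (Cfsg.puigSeq ↥(S : Subgroup G) 3).map (S : Subgroup G).subtype := by
      rw [hLS]
      apply Subgroup.map_mono
      unfold Cfsg.puigSubgroup
      exact iInf_le _ 1
    have h4 : (Cfsg.puigSeq ↥(S : Subgroup G) 3).map (S : Subgroup G).subtype ≤ sSup F := by
      show (Cfsg.puigStep (Cfsg.puigSeq ↥(S : Subgroup G) 2)).map _ ≤ _
      apply puigStep_map_le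
      intro A hAc hAn
      apply le_sSup
      rw [hF]
      exact ⟨A, hAc, hAn, rfl⟩
    have h5 : sSup F ≤ D := by
      rw [hD, ← Subgroup.map_le_iff_le_comap]
      exact hres2
    exact h3.trans (h4.trans h5)
  -- (3) D ≤ C ⊔ S
  have hDCS : D ≤ Subgroup.centralizer (Y : Set G) ⊔ (S : Subgroup G) := by
    intro d hd
    rw [hD] at hd
    have hd1 : (QuotientGroup.mk' (Subgroup.centralizer (Y : Set G)) d) ∈
        Cfsg.pCore p (G ⧸ Subgroup.centralizer (Y : Set G)) := hd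
    have hSbar := Helper1.normal_pgroup_le_sylow
      (Cfsg.pCore p (G ⧸ Subgroup.centralizer (Y : Set G)))
      (Helper9.pCore_isPGroup p)
      (S.mapSurjective (QuotientGroup.mk'_surjective (Subgroup.centralizer (Y : Set G))))
    have hd2 : (QuotientGroup.mk' (Subgroup.centralizer (Y : Set G)) d) ∈
        (S : Subgroup G).map (QuotientGroup.mk' (Subgroup.centralizer (Y : Set G))) :=
      hSbar hd1
    obtain ⟨s, hs, hsd⟩ := hd2
    have h1 : s⁻¹ * d ∈ Subgroup.centralizer (Y : Set G) := QuotientGroup.eq.mp hsd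
    have h2 : d = s * (s⁻¹ * d) := by group
    rw [h2]
    exact Subgroup.mul_mem _ (Subgroup.mem_sup_right hs) (Subgroup.mem_sup_left h1)
  -- (4) S₁ = S ⊓ D
  obtain ⟨S₁, hS₁⟩ : ∃ S₁ : Subgroup G, S₁ = (S : Subgroup G) ⊓ D := ⟨_, rfl⟩
  have hS₁S : S₁ ≤ (S : Subgroup G) := by rw [hS₁]; exact inf_le_left
  have hS₁D : S₁ ≤ D := by rw [hS₁]; exact inf_le_right
  have hLS₁ : LS ≤ S₁ := by rw [hS₁]; exact le_inf hLSS hLSD
  have heq : (Cfsg.puigSubgroup ↥S₁).map S₁.subtype = LS := by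
    rw [hLS]
    apply puig_sub_eq (S : Subgroup G) S₁ hS₁S
    rw [← hLS]; exact hLS₁
  -- (5)
  have hNS₁ : Subgroup.normalizer (S₁ : Set G) ≤ Subgroup.normalizer (Z : Set G) := by
    have h1 := Helper9.char_map_normalizer S₁ (Cfsg.puigSubgroup ↥S₁)
    rw [heq] at h1
    rw [hZ]
    exact h1.trans (normalizer_le_zOf LS)
  have hCZ : Subgroup.centralizer (Y : Set G) ≤ Subgroup.normalizer (Z : Set G) := by
    refine le_trans ?_ (Subgroup.centralizer_le_normalizer _)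
    exact Subgroup.centralizer_le hZY
  rw [← Subgroup.normalizer_eq_top_iff, eq_top_iff]
  intro g _
  obtain ⟨B, hB⟩ : ∃ B : Subgroup G, B = S₁.map (MulAut.conj g).toMonoidHom := ⟨_, rfl⟩
  have hBmem : ∀ b, b ∈ B ↔ ∃ s ∈ S₁, g * s * g⁻¹ = b := by
    intro b; rw [hB, Subgroup.mem_map]; rfl
  have hBp : IsPGroup p B := by
    rw [hB]; exact (S.isPGroup'.to_le hS₁S).map _
  have hBD : B ≤ D := by
    intro b hb
    obtain ⟨s, hs, rfl⟩ := (hBmem b).mp hb
    exact hDn.conj_mem s (hS₁D hs) g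
  obtain ⟨c, hc, hcB⟩ :=
    conj_into_sylow (Subgroup.centralizer (Y : Set G)) S B hBp (hBD.trans hDCS)
  have hn : c⁻¹ * g ∈ Subgroup.normalizer (S₁ : Set G) := by
    apply puig_mem_normalizer_of_conj_le
    intro v hv
    have h1 : g * v * g⁻¹ ∈ B := (hBmem _).mpr ⟨v, hv, rfl⟩
    have h2 := hcB _ h1
    have h3 : c⁻¹ * (g * v * g⁻¹) * c ∈ D := by
      have h := hDn.conj_mem _ (hBD h1) c⁻¹
      rw [inv_inv] at h
      exact h
    have h4 : c⁻¹ * g * v * (c⁻¹ * g)⁻¹ = c⁻¹ * (g * v * g⁻¹) * c := by group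
    rw [h4, hS₁]
    exact ⟨h2, h3⟩
  have hg : g = c * (c⁻¹ * g) := by group
  rw [hg]
  exact Subgroup.mul_mem _ (hCZ hc) (hNS₁ hn)

theorem puigStep_map_equiv_le {X Y : Type*} [Group X] [Group Y] (e : X ≃* Y)
    (A : Subgroup X) :
    (Cfsg.puigStep A).map e.toMonoidHom ≤ Cfsg.puigStep (A.map e.toMonoidHom) := by
  rw [Subgroup.map_le_iff_le_comap]
  unfold Cfsg.puigStep
  apply sSup_le
  rintro B ⟨hB, hAB⟩
  rw [← Subgroup.map_le_iff_le_comap]
  haveI := hB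
  apply le_sSup
  exact ⟨inferInstance, (Subgroup.map_mono hAB).trans (Subgroup.le_normalizer_map _)⟩

theorem puigStep_map_equiv {X Y : Type*} [Group X] [Group Y] (e : X ≃* Y) (A : Subgroup X) :
    (Cfsg.puigStep A).map e.toMonoidHom = Cfsg.puigStep (A.map e.toMonoidHom) := by
  apply le_antisymm (puigStep_map_equiv_le e A)
  have h1 := puigStep_map_equiv_le e.symm (A.map e.toMonoidHom)
  have h2 : (A.map e.toMonoidHom).map e.symm.toMonoidHom = A := by
    rw [Subgroup.map_map]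
    have h : e.symm.toMonoidHom.comp e.toMonoidHom = MonoidHom.id X := by
      ext x; simp
    rw [h, Subgroup.map_id]
  rw [h2] at h1
  have h3 := Subgroup.map_mono (f := e.toMonoidHom) h1
  rw [Subgroup.map_map] at h3
  have h : e.toMonoidHom.comp e.symm.toMonoidHom = MonoidHom.id Y := by
    ext x; simp
  rw [h, Subgroup.map_id] at h3
  exact h3

theorem puigSeq_map_equiv {X Y : Type*} [Group X] [Group Y] (e : X ≃* Y) (n : ℕ) :
    (Cfsg.puigSeq X n).map e.toMonoidHom = Cfsg.puigSeq Y n := by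
  induction n with
  | zero =>
    show (⊥ : Subgroup X).map _ = ⊥
    exact Subgroup.map_bot _
  | succ n ih =>
    show (Cfsg.puigStep (Cfsg.puigSeq X n)).map _ = Cfsg.puigStep (Cfsg.puigSeq Y n)
    rw [puigStep_map_equiv, ih]

theorem puigSubgroup_map_equiv {X Y : Type*} [Group X] [Group Y] (e : X ≃* Y) :
    (Cfsg.puigSubgroup X).map e.toMonoidHom = Cfsg.puigSubgroup Y := by
  unfold Cfsg.puigSubgroup
  rw [Subgroup.map_iInf _ e.injective]
  congr 1
  funext n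
  exact puigSeq_map_equiv e (2 * n + 1)

theorem puig_map_hom {G G' : Type*} [Group G] [Group G'] (f : G →* G') (H : Subgroup G)
    (hinj : ∀ x ∈ H, f x = 1 → x = 1) :
    ((Cfsg.puigSubgroup ↥H).map H.subtype).map f =
      (Cfsg.puigSubgroup ↥(H.map f)).map (H.map f).subtype := by
  have hbij : Function.Bijective (f.subgroupMap H) := by
    refine ⟨?_, f.subgroupMap_surjective H⟩
    rw [injective_iff_map_eq_one]
    intro x hx
    apply Subtype.ext
    apply hinj x x.2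
    exact congrArg Subtype.val hx
  obtain ⟨e, he⟩ : ∃ e : ↥H ≃* ↥(H.map f), ∀ x : ↥H, ((e x : ↥(H.map f)) : G') = f x :=
    ⟨MulEquiv.ofBijective (f.subgroupMap H) hbij, fun x => rfl⟩
  rw [← puigSubgroup_map_equiv e, Subgroup.map_map, Subgroup.map_map]
  have h : f.comp H.subtype = (H.map f).subtype.comp e.toMonoidHom := by
    ext x
    exact (he x).symm
  rw [h]

/-- Puig's theorem, general form: `G = O_{p'}(G) N_G(Z(L(S)))`. -/
theorem puig_center_gen {G : Type*} [Group G] [Finite G] [Group.IsSolvable G]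
    (hodd : Odd (Nat.card G)) (p : ℕ) [Fact p.Prime] (hp : p ≠ 2) (S : Sylow p G) :
    Cfsg.pPrimeCore p G ⊔ Subgroup.normalizer
      ((zOf ((Cfsg.puigSubgroup ↥(S : Subgroup G)).map (S : Subgroup G).subtype) :
        Subgroup G) : Set G) = ⊤ := by
  have hoddq : Odd (Nat.card (G ⧸ Cfsg.pPrimeCore p G)) := by
    have h1 : Nat.card (G ⧸ Cfsg.pPrimeCore p G) ∣ Nat.card G := by
      rw [← Subgroup.index_eq_card]
      exact Subgroup.index_dvd_card _
    exact Odd.of_dvd_nat hodd h1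
  have hOq := Helper9.pPrimeCore_quotient_eq_bot (X := G) p
  obtain ⟨Sb, hSb⟩ : ∃ Sb : Sylow p (G ⧸ Cfsg.pPrimeCore p G),
      (Sb : Subgroup (G ⧸ Cfsg.pPrimeCore p G)) =
        (S : Subgroup G).map (QuotientGroup.mk' (Cfsg.pPrimeCore p G)) :=
    ⟨S.mapSurjective (QuotientGroup.mk'_surjective _), Sylow.coe_mapSurjective _ _⟩
  have hnorm := puig_center_normal hoddq p hp hOq Sb
  have hSK : (S : Subgroup G) ⊓ Cfsg.pPrimeCore p G = ⊥ := by
    apply Subgroup.inf_eq_bot_of_coprime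
    obtain ⟨k, hk⟩ := IsPGroup.iff_card.mp S.isPGroup'
    rw [hk]
    exact Nat.Coprime.pow_left k (Helper9.pPrimeCore_coprime p).symm
  have hinj : ∀ x ∈ (S : Subgroup G),
      (QuotientGroup.mk' (Cfsg.pPrimeCore p G)) x = 1 → x = 1 := by
    intro x hx h1
    have h2 : x ∈ Cfsg.pPrimeCore p G := by
      rw [← QuotientGroup.ker_mk' (Cfsg.pPrimeCore p G)]; exact h1
    have h3 : x ∈ (S : Subgroup G) ⊓ Cfsg.pPrimeCore p G := ⟨hx, h2⟩
    rw [hSK] at h3
    exact Subgroup.mem_bot.mp h3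
  have hmap := puig_map_hom (QuotientGroup.mk' (Cfsg.pPrimeCore p G)) (S : Subgroup G) hinj
  rw [← hSb] at hmap
  obtain ⟨LS, hLS⟩ : ∃ LS : Subgroup G,
    LS = (Cfsg.puigSubgroup ↥(S : Subgroup G)).map (S : Subgroup G).subtype := ⟨_, rfl⟩
  rw [← hLS] at hmap ⊢
  obtain ⟨LSb, hLSb⟩ : ∃ LSb : Subgroup (G ⧸ Cfsg.pPrimeCore p G),
    LSb = (Cfsg.puigSubgroup ↥(Sb : Subgroup (G ⧸ Cfsg.pPrimeCore p G))).map
      (Sb : Subgroup (G ⧸ Cfsg.pPrimeCore p G)).subtype := ⟨_, rfl⟩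
  rw [← hLSb] at hmap hnorm
  have hLSS : LS ≤ (S : Subgroup G) := by rw [hLS]; exact Subgroup.map_subtype_le _
  have ha : ∀ z ∈ zOf LS, (QuotientGroup.mk' (Cfsg.pPrimeCore p G)) z ∈ zOf LSb := by
    intro z hz
    rw [mem_zOf] at hz ⊢
    refine ⟨?_, ?_⟩
    · rw [← hmap]; exact ⟨z, hz.1, rfl⟩
    · intro h hh
      rw [← hmap] at hh
      obtain ⟨l, hl, rfl⟩ := hh
      rw [← map_mul, ← map_mul, hz.2 l hl]
  have hb : ∀ y ∈ (S : Subgroup G),
      (QuotientGroup.mk' (Cfsg.pPrimeCore p G)) y ∈ zOf LSb → y ∈ zOf LS := by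
    intro y hy hyb
    rw [mem_zOf] at hyb ⊢
    obtain ⟨hyb1, hyb2⟩ := hyb
    have hyL : y ∈ LS := by
      rw [← hmap] at hyb1
      obtain ⟨l, hl, hly⟩ := hyb1
      have h1 : l⁻¹ * y = 1 := by
        apply hinj _ ((S : Subgroup G).mul_mem ((S : Subgroup G).inv_mem (hLSS hl)) hy)
        rw [map_mul, map_inv, hly, inv_mul_cancel]
      have h2 : l = y := inv_mul_eq_one.mp h1
      rw [← h2]; exact hl
    refine ⟨hyL, ?_⟩
    intro l hl
    have h1 : (QuotientGroup.mk' (Cfsg.pPrimeCore p G)) l ∈ LSb := by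
      rw [← hmap]; exact ⟨l, hl, rfl⟩
    have h2 := hyb2 _ h1
    have h3 : (y * l)⁻¹ * (l * y) = 1 := by
      apply hinj
      · exact (S : Subgroup G).mul_mem
          ((S : Subgroup G).inv_mem ((S : Subgroup G).mul_mem hy (hLSS hl)))
          ((S : Subgroup G).mul_mem (hLSS hl) hy)
      · rw [map_mul, map_inv, map_mul, map_mul, h2, inv_mul_cancel]
    exact (inv_mul_eq_one.mp h3).symm
  rw [eq_top_iff]
  intro g _
  obtain ⟨B, hB⟩ : ∃ B : Subgroup G, B = (zOf LS).map (MulAut.conj g).toMonoidHom := ⟨_, rfl⟩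
  have hBmem : ∀ b, b ∈ B ↔ ∃ s ∈ zOf LS, g * s * g⁻¹ = b := by
    intro b; rw [hB, Subgroup.mem_map]; rfl
  have hZS : zOf LS ≤ (S : Subgroup G) := fun z hz => hLSS ((mem_zOf LS z).mp hz).1
  have hBp : IsPGroup p B := by
    rw [hB]; exact (S.isPGroup'.to_le hZS).map _
  have hBpi : ∀ b ∈ B, (QuotientGroup.mk' (Cfsg.pPrimeCore p G)) b ∈ zOf LSb := by
    intro b hb'
    obtain ⟨s, hs, rfl⟩ := (hBmem b).mp hb'
    rw [map_mul, map_mul, map_inv]
    exact hnorm.conj_mem _ (ha s hs) _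
  have hBKS : B ≤ Cfsg.pPrimeCore p G ⊔ (S : Subgroup G) := by
    intro b hb'
    have h1 := ((mem_zOf LSb _).mp (hBpi b hb')).1
    rw [← hmap] at h1
    obtain ⟨l, hl, hlb⟩ := h1
    have h2 : l⁻¹ * b ∈ Cfsg.pPrimeCore p G := by
      rw [← QuotientGroup.ker_mk' (Cfsg.pPrimeCore p G), MonoidHom.mem_ker, map_mul, map_inv,
        hlb, inv_mul_cancel]
    have h3 : b = l * (l⁻¹ * b) := by group
    rw [h3]
    exact Subgroup.mul_mem _ (Subgroup.mem_sup_right (hLSS hl)) (Subgroup.mem_sup_left h2)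
  obtain ⟨k, hk, hkB⟩ := conj_into_sylow (Cfsg.pPrimeCore p G) S B hBp hBKS
  have hn : k⁻¹ * g ∈ Subgroup.normalizer ((zOf LS : Subgroup G) : Set G) := by
    apply puig_mem_normalizer_of_conj_le
    intro v hv
    have h1 : g * v * g⁻¹ ∈ B := (hBmem _).mpr ⟨v, hv, rfl⟩
    have h2 := hkB _ h1
    have h4 : k⁻¹ * g * v * (k⁻¹ * g)⁻¹ = k⁻¹ * (g * v * g⁻¹) * k := by group
    rw [h4]
    apply hb _ h2
    have h5 := hnorm.conj_mem _ (hBpi _ h1) ((QuotientGroup.mk' (Cfsg.pPrimeCore p G)) k)⁻¹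
    rw [inv_inv] at h5
    rw [map_mul, map_mul, map_inv]
    exact h5
  have hg : g = k * (k⁻¹ * g) := by group
  rw [hg]
  exact Subgroup.mul_mem _ (Subgroup.mem_sup_left hk) (Subgroup.mem_sup_right hn)

end Cfsg.Agent.Helper10
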