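import Mathlib
import Cfsg.Agent.Helper10.QuadIrr

set_option autoImplicit false

namespace Cfsg.Agent.Helper10

universe u

open Polynomial

/-- A `2 × 2` matrix `X` with `(X - 1)^2 = 0` has determinant one. -/
theorem det_one_of_quad {F : Type*} [Field F] (X : Matrix (Fin 2) (Fin 2) F)
    (h : (X - 1) * (X - 1) = 0) : X.det = 1 := by
  obtain ⟨N, hN⟩ : ∃ N : Matrix (Fin 2) (Fin 2) F, N = X - 1 := ⟨_, rfl⟩
  rw [← hN] at h
  have hX : X = 1 + N := by rw [hN]; abel
  have hdet : N.det = 0 := by
    have h1 : N.det * N.det = 0 := by rw [← Matrix.det_mul, h]; simp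
    exact mul_self_eq_zero.1 h1
  have h00 := congrFun (congrFun h 0) 0
  have h11 := congrFun (congrFun h 1) 1
  rw [Matrix.mul_apply, Fin.sum_univ_two] at h00 h11
  rw [Matrix.det_fin_two] at hdet
  have htr : (N 0 0 + N 1 1) * (N 0 0 + N 1 1) = 0 := by
    have e0 : N 0 0 * N 0 0 + N 0 1 * N 1 0 = 0 := h00
    have e1 : N 1 0 * N 0 1 + N 1 1 * N 1 1 = 0 := h11
    linear_combination e0 + e1 + 2 * hdet
  have htr0 : N 0 0 + N 1 1 = 0 := mul_self_eq_zero.1 htr
  rw [hX, Matrix.det_fin_two]
  simp only [Matrix.add_apply, Matrix.one_apply]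
  simp only [if_true, Fin.isValue]
  have e01 : ((0 : Fin 2) = 1) = False := by simp
  have e10 : ((1 : Fin 2) = 0) = False := by simp
  simp only [e01, e10, if_false]
  linear_combination htr0 + hdet

/-- Two quadratically acting generators of a finite group acting on a finite-dimensional
module over a finite field of characteristic `p`, the action not being that of a
`p`-group, and the `p'`-part of the order of the product of the generators dividing
`q - 1`: there is a homomorphism to `SL₂(K)` whose image is not a `p`-group. -/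
theorem quad_sl2_gen {K : Type*} [Field K] [Fintype K] (p : ℕ) [Fact p.Prime] [CharP K p]
    {G : Type*} [Group G] [Finite G] (x y : G)
    (hgen : Subgroup.closure ({x, y} : Set G) = ⊤) (e : ℕ)
    (hT : (x * y) ^ (p ^ e * (Fintype.card K - 1)) = 1) :
    ∀ (n : ℕ) (M : Type u) [AddCommGroup M] [Module K M] [FiniteDimensional K M]
      (ρ : G →* Module.End K M), Module.finrank K M ≤ n →
      (∀ m : M, ρ x (ρ x m - m) = ρ x m - m) → (∀ m : M, ρ y (ρ y m - m) = ρ y m - m) →
      (¬ ∀ g : G, ∃ j : ℕ, ρ (g ^ (p ^ j)) = 1) →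
      ∃ φ : G →* Matrix.SpecialLinearGroup (Fin 2) K, ¬ IsPGroup p φ.range := by
  classical
  have hpp : p.Prime := Fact.out
  intro n
  induction n using Nat.strong_induction_on with
  | _ n ih =>
  intro M _ _ _ ρ hn hx hy hnp
  by_cases hirr : ∃ N : Submodule K M, N ≠ ⊥ ∧ N ≠ ⊤ ∧ ∀ g : G, ∀ m ∈ N, ρ g m ∈ N
  · obtain ⟨N, hNb, hNt, hNinv⟩ := hirr
    obtain ⟨ρN, hρN⟩ : ∃ ρN : G →* Module.End K N,
        ∀ (g : G) (m : N), ((ρN g m : N) : M) = ρ g (m : M) := by
      refine ⟨{ toFun := fun g => (ρ g).restrict (hNinv g), map_one' := ?_, map_mul' := ?_ },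
        fun g m => rfl⟩
      · apply LinearMap.ext
        intro m
        apply Subtype.ext
        show ρ 1 (m : M) = (m : M)
        rw [map_one]; rfl
      · intro g h
        apply LinearMap.ext
        intro m
        apply Subtype.ext
        show ρ (g * h) (m : M) = ρ g (ρ h (m : M))
        rw [map_mul]; rfl
    obtain ⟨ρQ, hρQ⟩ : ∃ ρQ : G →* Module.End K (M ⧸ N),
        ∀ (g : G) (m : M), ρQ g (Submodule.Quotient.mk m) = Submodule.Quotient.mk (ρ g m) := by
      refine ⟨{ toFun := fun g => N.mapQ N (ρ g) (fun m hm => hNinv g m hm),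
                map_one' := ?_, map_mul' := ?_ }, fun g m => rfl⟩
      · apply LinearMap.ext
        intro m
        obtain ⟨m, rfl⟩ := Submodule.Quotient.mk_surjective N m
        show (Submodule.Quotient.mk (ρ 1 m) : M ⧸ N) = Submodule.Quotient.mk m
        rw [map_one]; rfl
      · intro g h
        apply LinearMap.ext
        intro m
        obtain ⟨m, rfl⟩ := Submodule.Quotient.mk_surjective N m
        show (Submodule.Quotient.mk (ρ (g * h) m) : M ⧸ N) = Submodule.Quotient.mk (ρ g (ρ h m))
        rw [map_mul]; rfl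
    have hqN : ∀ g : G, (∀ m : M, ρ g (ρ g m - m) = ρ g m - m) →
        ∀ m : N, ρN g (ρN g m - m) = ρN g m - m := by
      intro g hg m
      apply Subtype.ext
      rw [hρN, Submodule.coe_sub, hρN]
      exact hg m
    have hqQ : ∀ g : G, (∀ m : M, ρ g (ρ g m - m) = ρ g m - m) →
        ∀ m : M ⧸ N, ρQ g (ρQ g m - m) = ρQ g m - m := by
      intro g hg m
      obtain ⟨m, rfl⟩ := Submodule.Quotient.mk_surjective N m
      rw [hρQ, ← Submodule.Quotient.mk_sub, hρQ, hg]
    by_cases hNp : ∀ g : G, ∃ j : ℕ, ρN (g ^ (p ^ j)) = 1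
    · by_cases hQp : ∀ g : G, ∃ j : ℕ, ρQ (g ^ (p ^ j)) = 1
      · exfalso
        apply hnp
        intro g
        obtain ⟨j1, hj1⟩ := hQp g
        obtain ⟨j2, hj2⟩ := hNp (g ^ (p ^ j1))
        refine ⟨j1 + j2 + 1, ?_⟩
        obtain ⟨h, hh⟩ : ∃ h : G, h = (g ^ (p ^ j1)) ^ (p ^ j2) := ⟨_, rfl⟩
        have hhQ : ρQ h = 1 := by rw [hh, map_pow, hj1, one_pow]
        have hhN : ρN h = 1 := by rw [hh]; exact hj2
        have hgp : g ^ (p ^ (j1 + j2 + 1)) = h ^ p := by
          rw [hh, ← pow_mul, ← pow_mul]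
          congr 1
          rw [pow_succ, pow_add, mul_assoc]
        rw [hgp, map_pow]
        have hA1 : ∀ m : M, ρ h m - m ∈ N := by
          intro m
          have h2 : (Submodule.Quotient.mk (ρ h m) : M ⧸ N) = Submodule.Quotient.mk m := by
            rw [← hρQ, hhQ]; rfl
          exact (Submodule.Quotient.eq N).1 h2
        have hA2 : ∀ m ∈ N, ρ h m = m := by
          intro m hm
          have h2 : ((ρN h ⟨m, hm⟩ : N) : M) = m := by rw [hhN]; rfl
          rw [hρN] at h2; exact h2
        have hD : ∀ k : ℕ, ∀ m : M, (ρ h ^ k) m = m + k • (ρ h m - m) := by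
          intro k
          induction k with
          | zero => intro m; simp
          | succ k ihk =>
            intro m
            have e1 : ρ h (ρ h m) - ρ h m = ρ h m - m := by
              rw [← map_sub]; exact hA2 _ (hA1 m)
            rw [pow_succ, Module.End.mul_apply, ihk, e1, succ_nsmul]
            abel
        apply LinearMap.ext
        intro m
        rw [hD p m]
        have hp0 : p • (ρ h m - m) = 0 := by
          rw [← Nat.cast_smul_eq_nsmul K p, CharP.cast_eq_zero K p, zero_smul]
        rw [hp0, add_zero]; rfl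
      · have hlt : Module.finrank K (M ⧸ N) < Module.finrank K M := by
          have h1 := Submodule.finrank_quotient_add_finrank N
          have h2 : 0 < Module.finrank K N :=
            Nat.pos_of_ne_zero (fun h0 => hNb (Submodule.finrank_eq_zero.1 h0))
          omega
        exact ih _ (lt_of_lt_of_le hlt hn) (M ⧸ N) ρQ le_rfl (hqQ x hx) (hqQ y hy) hQp
    · exact ih _ (lt_of_lt_of_le (Submodule.finrank_lt hNt) hn) N ρN le_rfl (hqN x hx)
        (hqN y hy) hNp
  · -- the irreducible case
    have hinvP : ∀ N : Submodule K M, (∀ m ∈ N, ρ x m ∈ N) → (∀ m ∈ N, ρ y m ∈ N) →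
        N ≠ ⊥ → N = ⊤ := by
      intro N hNx hNy hNb
      by_contra hNt
      apply hirr
      refine ⟨N, hNb, hNt, ?_⟩
      apply closure_pair_induction x y hgen (fun g => ∀ m ∈ N, ρ g m ∈ N)
      · intro m hm; rw [map_one]; exact hm
      · intro a b ha hb m hm; rw [map_mul]; exact ha _ (hb m hm)
      · exact hNx
      · exact hNy
    haveI : Nontrivial M := by
      by_contra hnt
      rw [not_nontrivial_iff_subsingleton] at hnt
      apply hnp
      intro g
      refine ⟨0, ?_⟩
      apply LinearMap.ext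
      intro m
      exact Subsingleton.elim _ _
    obtain ⟨T, hTdef⟩ : ∃ T : Module.End K M, T = ρ (x * y) := ⟨_, rfl⟩
    have hTpow : T ^ (p ^ e * (Fintype.card K - 1)) = 1 := by
      rw [hTdef, ← map_pow, hT, map_one]
    obtain ⟨ν, w, hw0, hwT⟩ : ∃ (ν : K) (w : M), w ≠ 0 ∧ T w = ν • w := by
      have hq1 : 1 < Fintype.card K := Fintype.one_lt_card
      have hsplit : (X ^ Fintype.card K - X : K[X]).Splits := by
        rw [Polynomial.splits_iff_card_roots, FiniteField.roots_X_pow_card_sub_X,
          FiniteField.X_pow_card_sub_X_natDegree_eq K hq1]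
        rfl
      have hne : (X ^ Fintype.card K - X : K[X]) ≠ 0 :=
        FiniteField.X_pow_card_sub_X_ne_zero K hq1
      have haev : Polynomial.aeval T ((X ^ Fintype.card K - X : K[X]) ^ (p ^ e)) = 0 := by
        rw [sub_pow_char_pow, map_sub, map_pow, map_pow, map_pow, Polynomial.aeval_X, ← pow_mul]
        have h1 : Fintype.card K * p ^ e = p ^ e + p ^ e * (Fintype.card K - 1) := by
          obtain ⟨r, hr⟩ : ∃ r, Fintype.card K = r + 1 := ⟨Fintype.card K - 1, by omega⟩
          rw [hr, Nat.add_sub_cancel]; ring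
        rw [h1, pow_add, hTpow, mul_one, sub_self]
      have hdvd := minpoly.dvd K T haev
      have hms : (minpoly K T).Splits :=
        Polynomial.Splits.of_dvd (hsplit.pow _) (pow_ne_zero _ hne) hdvd
      have hint : IsIntegral K T := Algebra.IsIntegral.isIntegral T
      obtain ⟨ν, hν⟩ := hms.exists_eval_eq_zero (ne_of_gt (minpoly.degree_pos hint))
      have hev : T.HasEigenvalue ν := Module.End.hasEigenvalue_of_isRoot hν
      obtain ⟨w, hw⟩ := hev.exists_hasEigenvector
      exact ⟨ν, w, hw.2, hw.apply_eq_smul⟩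
    have hAA : ∀ m, ρ x (ρ x m) = (2 : K) • ρ x m - m := by
      intro m
      have h1 := hx m
      rw [map_sub] at h1
      rw [eq_add_of_sub_eq h1, two_smul]
      abel
    have hBB : ∀ m, ρ y (ρ y m) = (2 : K) • ρ y m - m := by
      intro m
      have h1 := hy m
      rw [map_sub] at h1
      rw [eq_add_of_sub_eq h1, two_smul]
      abel
    have hinv : ∀ (g : G) (m : M), ρ g⁻¹ (ρ g m) = m := by
      intro g m
      rw [← Module.End.mul_apply, ← map_mul, inv_mul_cancel, map_one]; rfl
    have hABw : ρ x (ρ y w) = ν • w := by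
      rw [← hwT, hTdef, map_mul]; rfl
    have hν0 : ν ≠ 0 := by
      intro h0
      rw [h0, zero_smul] at hABw
      have h1 : ρ y w = 0 := by
        have h2 := hinv x (ρ y w)
        rw [hABw, map_zero] at h2; exact h2.symm
      have h2 : w = 0 := by
        have h3 := hinv y w
        rw [h1, map_zero] at h3; exact h3.symm
      exact hw0 h2
    have hAw : ρ x w = (2 : K) • w - ν⁻¹ • ρ y w := by
      have h1 := hAA (ρ y w)
      rw [hABw, map_smul] at h1
      have h2 : ρ x w = ν⁻¹ • (ν • ρ x w) := by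
        rw [smul_smul, inv_mul_cancel₀ hν0, one_smul]
      have h3 : ν⁻¹ * 2 * ν = 2 := by field_simp
      rw [h2, h1, smul_sub, smul_smul, smul_smul, h3]
    obtain ⟨U, hU⟩ : ∃ U : Submodule K M, U = Submodule.span K {w, ρ y w} := ⟨_, rfl⟩
    have hwU : w ∈ U := by rw [hU]; exact Submodule.subset_span (by simp)
    have hBwU : ρ y w ∈ U := by rw [hU]; exact Submodule.subset_span (by simp)
    have hUx : ∀ m ∈ U, ρ x m ∈ U := by
      intro m hm
      rw [hU, Submodule.mem_span_pair] at hm
      obtain ⟨s, t, rfl⟩ := hm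
      rw [map_add, map_smul, map_smul, hAw, hABw]
      exact U.add_mem (U.smul_mem _ (U.sub_mem (U.smul_mem _ hwU) (U.smul_mem _ hBwU)))
        (U.smul_mem _ (U.smul_mem _ hwU))
    have hUy : ∀ m ∈ U, ρ y m ∈ U := by
      intro m hm
      rw [hU, Submodule.mem_span_pair] at hm
      obtain ⟨s, t, rfl⟩ := hm
      rw [map_add, map_smul, map_smul, hBB w]
      exact U.add_mem (U.smul_mem _ hBwU) (U.smul_mem _ (U.sub_mem (U.smul_mem _ hBwU) hwU))
    have hUtop : U = ⊤ := by
      apply hinvP U hUx hUy
      intro hbot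
      rw [hbot] at hwU
      exact hw0 ((Submodule.mem_bot K).1 hwU)
    by_cases hdep : ∃ c : K, ρ y w = c • w
    · exfalso
      obtain ⟨c, hc⟩ := hdep
      have hc1 : c = 1 := by
        have h1 := hy w
        rw [hc, map_sub, map_smul, hc] at h1
        have h2 : ((c - 1) * (c - 1)) • w = 0 := by
          have h3 : ((c - 1) * (c - 1)) • w = (c • c • w - c • w) - (c • w - w) := by module
          rw [h3, h1, sub_self]
        rcases smul_eq_zero.1 h2 with h4 | h4
        · exact sub_eq_zero.1 (mul_self_eq_zero.1 h4)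
        · exact absurd h4 hw0
      have hBw : ρ y w = w := by rw [hc, hc1, one_smul]
      have hAw' : ρ x w = ν • w := by rw [← hABw, hBw]
      have hν1 : ν = 1 := by
        have h1 := hx w
        rw [hAw', map_sub, map_smul, hAw'] at h1
        have h2 : ((ν - 1) * (ν - 1)) • w = 0 := by
          have h3 : ((ν - 1) * (ν - 1)) • w = (ν • ν • w - ν • w) - (ν • w - w) := by module
          rw [h3, h1, sub_self]
        rcases smul_eq_zero.1 h2 with h4 | h4
        · exact sub_eq_zero.1 (mul_self_eq_zero.1 h4)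
        · exact absurd h4 hw0
      have hAw1 : ρ x w = w := by rw [hAw', hν1, one_smul]
      have hfix : ∀ g : G, ρ g w = w := by
        apply closure_pair_induction x y hgen (fun g => ρ g w = w)
        · rw [map_one]; rfl
        · intro a b ha hb
          rw [map_mul, Module.End.mul_apply, hb, ha]
        · exact hAw1
        · exact hBw
      apply hnp
      intro g
      refine ⟨0, ?_⟩
      rw [pow_zero, pow_one]
      apply LinearMap.ext
      intro m
      have hm : m ∈ U := by rw [hUtop]; trivial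
      rw [hU, Submodule.mem_span_pair] at hm
      show ρ g m = m
      obtain ⟨s, t, rfl⟩ := hm
      rw [map_add, map_smul, map_smul, hBw, hfix g]
    · have hli : LinearIndependent K ![w, ρ y w] := by
        rw [LinearIndependent.pair_iff]
        intro s t hst
        have ht : t = 0 := by
          by_contra ht
          apply hdep
          refine ⟨-(t⁻¹ * s), ?_⟩
          have h1 : t • ρ y w = -(s • w) := eq_neg_of_add_eq_zero_right hst
          have h2 : ρ y w = t⁻¹ • (t • ρ y w) := by
            rw [smul_smul, inv_mul_cancel₀ ht, one_smul]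
          rw [h2, h1, smul_neg, smul_smul, neg_smul]
        rw [ht, zero_smul, add_zero] at hst
        exact ⟨(smul_eq_zero.1 hst).resolve_right hw0, ht⟩
      have hsp : ⊤ ≤ Submodule.span K (Set.range ![w, ρ y w]) := by
        rw [Matrix.range_cons_cons_empty, ← hU, hUtop]
      obtain ⟨bas, -⟩ : ∃ bas : Module.Basis (Fin 2) K M, True :=
        ⟨Module.Basis.mk hli hsp, trivial⟩
      obtain ⟨Φ, hΦ⟩ : ∃ Φ : G → Matrix (Fin 2) (Fin 2) K,
          ∀ g, Φ g = LinearMap.toMatrix bas bas (ρ g) := ⟨_, fun _ => rfl⟩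
      have hΦ1 : Φ 1 = 1 := by
        rw [hΦ, map_one]; exact LinearMap.toMatrix_one bas
      have hΦm : ∀ g h, Φ (g * h) = Φ g * Φ h := by
        intro g h
        rw [hΦ, hΦ, hΦ, map_mul]
        exact LinearMap.toMatrix_mul bas (ρ g) (ρ h)
      have hquadM : ∀ g : G, (∀ m : M, ρ g (ρ g m - m) = ρ g m - m) →
          (Φ g - 1) * (Φ g - 1) = 0 := by
        intro g hg
        have h1 : (ρ g - 1) * (ρ g - 1) = 0 := by
          apply LinearMap.ext
          intro m
          show ρ g (ρ g m - m) - (ρ g m - m) = 0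
          rw [hg, sub_self]
        have h2 : Φ g - 1 = LinearMap.toMatrix bas bas (ρ g - 1) := by
          rw [map_sub, LinearMap.toMatrix_one, hΦ]
        rw [h2, ← LinearMap.toMatrix_mul, h1, map_zero]
      have hdet : ∀ g : G, (Φ g).det = 1 := by
        apply closure_pair_induction x y hgen (fun g => (Φ g).det = 1)
        · rw [hΦ1, Matrix.det_one]
        · intro a b ha hb
          rw [hΦm, Matrix.det_mul, ha, hb, one_mul]
        · exact det_one_of_quad _ (hquadM x hx)
        · exact det_one_of_quad _ (hquadM y hy)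
      obtain ⟨φ, hφ⟩ : ∃ φ : G →* Matrix.SpecialLinearGroup (Fin 2) K,
          ∀ g, ((φ g : Matrix.SpecialLinearGroup (Fin 2) K) : Matrix (Fin 2) (Fin 2) K) = Φ g :=
        ⟨{ toFun := fun g => ⟨Φ g, hdet g⟩, map_one' := Subtype.ext hΦ1,
           map_mul' := fun g h => Subtype.ext (hΦm g h) }, fun g => rfl⟩
      refine ⟨φ, fun hP => hnp ?_⟩
      intro g
      obtain ⟨k, hk⟩ := hP ⟨φ g, ⟨g, rfl⟩⟩
      refine ⟨k, ?_⟩
      have h1 : φ (g ^ (p ^ k)) = 1 := by
        have h2 := congrArg Subtype.val hk
        rw [map_pow]; exact h2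
      have h2 : Φ (g ^ (p ^ k)) = 1 := by rw [← hφ, h1]; rfl
      rw [hΦ] at h2
      apply (LinearMap.toMatrix bas bas).injective
      rw [h2, LinearMap.toMatrix_one]

end Cfsg.Agent.Helper10
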