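import Mathlib
import Cfsg.Agent.Helper10.PSolvSL2
import Cfsg.Agent.Helper21.BaerSuzuki
import Cfsg.Agent.Helper27.Involves
import Cfsg.Agent.Helper27.PStable

/-!
Quadratic elements of `SL₂(p)`-free groups acting faithfully lie in `O_p`.
-/

set_option autoImplicit false

universe u

namespace Cfsg.Agent.Helper10

open scoped commutatorElement

/-- Two quadratically acting elements `a`, `b` normalising a `p`-subgroup `V` (`p` odd), whose
generated subgroup satisfies the `GL₂` obstruction, generate a group inducing a `p`-group on `V`. -/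
theorem quad_two_genP {G : Type u} [Group G] [Finite G] (p : ℕ) [Fact p.Prime] (hp : p ≠ 2)
    (V : Subgroup G) (hV : IsPGroup p V) (a b : G) (K : Subgroup G)
    (hK : K = Subgroup.closure ({a, b} : Set G)) (hcore : Cfsg.Agent.Helper12.GL2CoreP p K)
    (hKV : K ≤ Subgroup.normalizer (V : Set G))
    (hqa : ∀ u ∈ V, a * (a * u * a⁻¹ * u⁻¹) * a⁻¹ = a * u * a⁻¹ * u⁻¹)
    (hqb : ∀ u ∈ V, b * (b * u * b⁻¹ * u⁻¹) * b⁻¹ = b * u * b⁻¹ * u⁻¹) :
    ∀ h ∈ K, ∃ k : ℕ, h ^ (p ^ k) ∈ Subgroup.centralizer (V : Set G) := by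
  classical
  have haK : a ∈ K := by rw [hK]; exact Subgroup.subset_closure (by simp)
  have hbK : b ∈ K := by rw [hK]; exact Subgroup.subset_closure (by simp)
  have hgen : Subgroup.closure ({⟨a, haK⟩, ⟨b, hbK⟩} : Set K) = ⊤ := by
    subst hK
    have h1 := Subgroup.closure_closure_coe_preimage (k := ({a, b} : Set G))
    have h2 : ((↑) : Subgroup.closure ({a, b} : Set G) → G) ⁻¹' ({a, b} : Set G) =
        ({⟨a, haK⟩, ⟨b, hbK⟩} : Set (Subgroup.closure ({a, b} : Set G))) := by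
      ext z
      simp [Subtype.ext_iff]
    rw [h2] at h1
    exact h1
  obtain ⟨N, hN⟩ : ∃ N : Subgroup G, N = Subgroup.normalizer (V : Set G) := ⟨_, rfl⟩
  have hKN : K ≤ N := hN ▸ hKV
  have hVn : (V.subgroupOf N).Normal := by
    rw [hN]
    exact Subgroup.normal_in_normalizer
  obtain ⟨φ, hφ⟩ : ∃ φ : K →* MulAut (V.subgroupOf N), ∀ (h : K) (u : V.subgroupOf N),
      (((φ h u : V.subgroupOf N) : N) : G) = (h : G) * ((u : N) : G) * (h : G)⁻¹ :=
    ⟨(MulAut.conjNormal (H := V.subgroupOf N)).comp (Subgroup.inclusion hKN), fun h u => rfl⟩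
  have hqc : ∀ (c : G) (hc : c ∈ K),
      (∀ u ∈ V, c * (c * u * c⁻¹ * u⁻¹) * c⁻¹ = c * u * c⁻¹ * u⁻¹) →
      ∀ u : V.subgroupOf N, φ ⟨c, hc⟩ (φ ⟨c, hc⟩ u * u⁻¹) = φ ⟨c, hc⟩ u * u⁻¹ := by
    intro c hc hqc' u
    apply Subtype.ext
    apply Subtype.ext
    rw [hφ, Subgroup.coe_mul, Subgroup.coe_mul, hφ, Subgroup.coe_inv, Subgroup.coe_inv]
    exact hqc' _ (Subgroup.mem_subgroupOf.1 u.2)
  have key := Cfsg.Agent.Helper12.quad_pgroup_genP p hp hcore ⟨a, haK⟩ ⟨b, hbK⟩ hgen (Nat.card (V.subgroupOf N))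
    (V.subgroupOf N) rfl (IsPGroup.comap_subtype hV) φ (hqc a haK hqa) (hqc b hbK hqb)
  intro h hh
  obtain ⟨k, hk⟩ := key ⟨h, hh⟩
  refine ⟨k, ?_⟩
  rw [Subgroup.mem_centralizer_iff]
  intro u hu
  have huN : u ∈ N := by rw [hN]; exact Subgroup.le_normalizer hu
  have h1 : φ (⟨h, hh⟩ ^ p ^ k) = 1 := (map_pow φ _ _).trans hk
  have h3 := congrArg (fun e : MulAut (V.subgroupOf N) =>
    (((e ⟨⟨u, huN⟩, Subgroup.mem_subgroupOf.2 hu⟩ : V.subgroupOf N) : N) : G)) h1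
  simp only [hφ] at h3
  have h4 : h ^ p ^ k * u * (h ^ p ^ k)⁻¹ = u := by simpa using h3
  exact (mul_inv_eq_iff_eq_mul.1 h4).symm


/-- A quadratically acting element of a group `H` acting faithfully on a `p`-group `V`, all of
whose two-generated subgroups satisfy the characteristic `p` obstruction, lies in `O_p(H)`. -/
theorem quad_elt_pcore {G : Type u} [Group G] [Finite G] (p : ℕ) [Fact p.Prime] (hp : p ≠ 2)
    (V H : Subgroup G) (hV : IsPGroup p V) (hHV : H ≤ Subgroup.normalizer (V : Set G))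
    (hf : H ⊓ Subgroup.centralizer (V : Set G) = ⊥) (a : G) (haH : a ∈ H)
    (hq : ∀ u ∈ V, a * (a * u * a⁻¹ * u⁻¹) * a⁻¹ = a * u * a⁻¹ * u⁻¹)
    (hfree : ∀ K : Subgroup G, K ≤ H → Cfsg.Agent.Helper12.GL2CoreP p K) :
    a ∈ (Cfsg.pCore p H).map H.subtype := by
  classical
  obtain ⟨X, hX⟩ : ∃ X : Set H, X = {x | ∃ g : H, x = g * ⟨a, haH⟩ * g⁻¹} := ⟨_, rfl⟩
  have hXn : ∀ (g x : H), x ∈ X → g * x * g⁻¹ ∈ X := by
    intro g x hx
    rw [hX] at hx ⊢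
    obtain ⟨g', rfl⟩ := hx
    exact ⟨g * g', by group⟩
  have hXp : ∀ x ∈ X, ∀ y ∈ X, IsPGroup p (Subgroup.closure ({x, y} : Set H)) := by
    intro x hx y hy
    rw [hX] at hx hy
    obtain ⟨g₁, rfl⟩ := hx
    obtain ⟨g₂, rfl⟩ := hy
    obtain ⟨b₁, hb₁⟩ : ∃ b₁ : G, b₁ = (g₁ : G) * a * (g₁ : G)⁻¹ := ⟨_, rfl⟩
    obtain ⟨b₂, hb₂⟩ : ∃ b₂ : G, b₂ = (g₂ : G) * a * (g₂ : G)⁻¹ := ⟨_, rfl⟩
    have hb₁H : b₁ ∈ H := by
      rw [hb₁]; exact H.mul_mem (H.mul_mem g₁.2 haH) (H.inv_mem g₁.2)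
    have hb₂H : b₂ ∈ H := by
      rw [hb₂]; exact H.mul_mem (H.mul_mem g₂.2 haH) (H.inv_mem g₂.2)
    obtain ⟨K, hK⟩ : ∃ K : Subgroup G, K = Subgroup.closure ({b₁, b₂} : Set G) := ⟨_, rfl⟩
    have hKH : K ≤ H := by
      rw [hK, Subgroup.closure_le]
      intro z hz
      rcases hz with rfl | hz
      · exact hb₁H
      · rw [Set.mem_singleton_iff.1 hz]; exact hb₂H
    have hconj : ∀ g ∈ H, ∀ u ∈ V, g⁻¹ * u * g ∈ V := by
      intro g hg u hu
      have h1 := (Subgroup.mem_normalizer_iff.1 (hHV (H.inv_mem hg)) u).1 hu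
      rwa [inv_inv] at h1
    have hq₁ := quad_conj V a (g₁ : G) hq (hconj _ g₁.2)
    have hq₂ := quad_conj V a (g₂ : G) hq (hconj _ g₂.2)
    rw [← hb₁] at hq₁
    rw [← hb₂] at hq₂
    have key := quad_two_genP p hp V hV b₁ b₂ K hK (hfree K hKH) (hKH.trans hHV) hq₁ hq₂
    have hmap : (Subgroup.closure ({g₁ * ⟨a, haH⟩ * g₁⁻¹, g₂ * ⟨a, haH⟩ * g₂⁻¹} : Set H)).map
        H.subtype ≤ K := by
      rw [MonoidHom.map_closure, hK]
      apply Subgroup.closure_mono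
      rintro _ ⟨z, hz, rfl⟩
      rcases hz with rfl | hz
      · left; rw [hb₁]; rfl
      · rw [Set.mem_singleton_iff.1 hz]; right; rw [hb₂]; rfl
    intro z
    obtain ⟨k, hk⟩ := key ((z : H) : G) (hmap ⟨(z : H), z.2, rfl⟩)
    refine ⟨k, ?_⟩
    apply Subtype.ext
    apply Subtype.ext
    have h1 : ((z : H) : G) ^ p ^ k ∈ H ⊓ Subgroup.centralizer (V : Set G) :=
      ⟨H.pow_mem (z : H).2 _, hk⟩
    rw [hf, Subgroup.mem_bot] at h1
    simpa using h1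
  obtain ⟨N, hNn, hNp, hNX⟩ := Cfsg.Agent.Helper21.baer_suzuki_normal X hXn hXp
  have h1 : (⟨a, haH⟩ : H) ∈ N := hNX _ (by rw [hX]; exact ⟨1, by group⟩)
  exact ⟨⟨a, haH⟩, Cfsg.Agent.Helper27.le_pCore hNn hNp h1, rfl⟩

/-- A section of a subgroup `K ≤ H` of `G`, as a section of `G` inside `H`. -/
theorem involves_le {G : Type*} [Group G] (H K : Subgroup G) (hKH : K ≤ H) (X : Type*) [Group X]
    (h : Cfsg.Involves X K) :
    ∃ (K' L : Subgroup G) (_ : (L.subgroupOf K').Normal), K' ≤ H ∧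
      Nonempty ((K' ⧸ L.subgroupOf K') ≃* X) := by
  obtain ⟨K₀, f, hf⟩ := Cfsg.Agent.Helper27.involves_exists_surj h
  obtain ⟨f', hf'⟩ : ∃ f' : (K₀.map K.subtype) →* X, Function.Surjective f' :=
    ⟨f.comp (K₀.equivMapOfInjective K.subtype K.subtype_injective).symm.toMonoidHom,
      hf.comp (K₀.equivMapOfInjective K.subtype K.subtype_injective).symm.surjective⟩
  have hle : K₀.map K.subtype ≤ H := by
    rintro _ ⟨z, -, rfl⟩
    exact hKH z.2
  have h1 : (f'.ker.map (K₀.map K.subtype).subtype).subgroupOf (K₀.map K.subtype) = f'.ker :=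
    Subgroup.comap_map_eq_self_of_injective (Subgroup.subtype_injective _) _
  suffices hs : ∀ N' : Subgroup (K₀.map K.subtype), N' = f'.ker →
      ∃ (_ : N'.Normal), Nonempty ((K₀.map K.subtype) ⧸ N' ≃* X) by
    obtain ⟨hn, he⟩ := hs _ h1
    exact ⟨K₀.map K.subtype, f'.ker.map (K₀.map K.subtype).subtype, hn, hle, he⟩
  intro N' hN'
  subst hN'
  exact ⟨inferInstance, ⟨QuotientGroup.quotientKerEquivOfSurjective f' hf'⟩⟩

end Cfsg.Agent.Helper10
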