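import Mathlib
import Cfsg.Prelude.Def_OddOrderChar
import Cfsg.Prelude.Def_OddOrderLocal
import Cfsg.Agent.Helper2.IndFun
import Cfsg.Agent.Helper2.CharInner
import Cfsg.Agent.Helper10.LinChar

set_option autoImplicit false

namespace Cfsg.Agent.Helper10

open Cfsg

open scoped ComplexConjugate

/-- A class function vanishing on `W \ (W₁ ∪ W₂)` is orthogonal to every function induced from
a function on `W` vanishing on `W₁ ∪ W₂`. -/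
theorem classInner_ind_eq_zero {G : Type*} [Group G] [Fintype G] (W₁ W₂ : Subgroup G)
    (θ : G → ℂ) (hθ : IsClassFunction G θ)
    (hθV : ∀ w : ↥(W₁ ⊔ W₂), (w : G) ∉ W₁ → (w : G) ∉ W₂ → θ w = 0)
    (α : ↥(W₁ ⊔ W₂) → ℂ)
    (hα : ∀ w : ↥(W₁ ⊔ W₂), ((w : G) ∈ W₁ ∨ (w : G) ∈ W₂) → α w = 0) :
    classInner θ (indFun (W₁ ⊔ W₂) α) = 0 := by
  classical
  have := Fintype.ofFinite ↥(W₁ ⊔ W₂)
  rw [← Helper2.classInner_conj_symm, Helper2.frobenius_reciprocity _ α θ hθ]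
  have : classInner α (fun h : ↥(W₁ ⊔ W₂) => θ h) = 0 := by
    unfold classInner
    rw [Finset.sum_eq_zero, mul_zero]
    intro w _
    by_cases hw : (w : G) ∈ W₁ ∨ (w : G) ∈ W₂
    · rw [hα w hw, zero_mul]
    · push Not at hw
      show α w * conj (θ w) = 0
      rw [hθV w hw.1 hw.2, map_zero, mul_zero]
  rw [this, map_zero]

theorem one_sub_mul_eq_zero {G : Type*} [Group G] (W₁ W₂ : Subgroup G)
    (φ ψ : ↥(W₁ ⊔ W₂) →* ℂˣ)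
    (hφ₂ : ∀ w : ↥(W₁ ⊔ W₂), (w : G) ∈ W₂ → φ w = 1)
    (hψ₁ : ∀ w : ↥(W₁ ⊔ W₂), (w : G) ∈ W₁ → ψ w = 1)
    (w : ↥(W₁ ⊔ W₂)) (hw : (w : G) ∈ W₁ ∨ (w : G) ∈ W₂) :
    1 - (φ w : ℂ) - (ψ w : ℂ) + (φ w : ℂ) * (ψ w : ℂ) = 0 := by
  rcases hw with hw | hw
  · rw [hψ₁ w hw]; simp
  · rw [hφ₂ w hw]; simp

/-- Additivity of the coefficients of a class function vanishing on `W \ (W₁ ∪ W₂)` along a
cyclic TI family. -/
theorem ti_additive {G : Type*} [Group G] [Fintype G] (W₁ W₂ : Subgroup G)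
    (χ : (↥(W₁ ⊔ W₂) →* ℂˣ) → (G → ℂ)) (hχ : IsCyclicTIFamily W₁ W₂ χ)
    (θ : G → ℂ) (hθ : IsClassFunction G θ)
    (hθV : ∀ w : ↥(W₁ ⊔ W₂), (w : G) ∉ W₁ → (w : G) ∉ W₂ → θ w = 0)
    (φ ψ : ↥(W₁ ⊔ W₂) →* ℂˣ)
    (hφ₂ : ∀ w : ↥(W₁ ⊔ W₂), (w : G) ∈ W₂ → φ w = 1)
    (hψ₁ : ∀ w : ↥(W₁ ⊔ W₂), (w : G) ∈ W₁ → ψ w = 1) :
    classInner θ (χ (φ * ψ)) =
      classInner θ (χ φ) + classInner θ (χ ψ) - classInner θ (fun _ => 1) := by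
  by_cases hφ : φ = 1
  · subst hφ
    have e : (1 : ↥(W₁ ⊔ W₂) →* ℂˣ) * ψ = ψ := by ext w; simp
    rw [e, hχ.map_one]
    ring
  by_cases hψ : ψ = 1
  · subst hψ
    have e : φ * (1 : ↥(W₁ ⊔ W₂) →* ℂˣ) = φ := by ext w; simp
    rw [e, hχ.map_one]
    ring
  have h0 := classInner_ind_eq_zero W₁ W₂ θ hθ hθV
    (fun w => 1 - (φ w : ℂ) - (ψ w : ℂ) + (φ w : ℂ) * (ψ w : ℂ))
    (one_sub_mul_eq_zero W₁ W₂ φ ψ hφ₂ hψ₁)
  rw [hχ.induced_eq φ ψ hφ hψ hφ₂ hψ₁] at h0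
  have hfun : (fun g => 1 - χ φ g - χ ψ g + χ (φ * ψ) g) =
      (fun _ => (1 : ℂ)) - χ φ - χ ψ + χ (φ * ψ) := by
    funext g
    simp
  rw [hfun, Helper2.classInner_add_right, Helper2.classInner_sub_right,
    Helper2.classInner_sub_right] at h0
  linear_combination h0

end Cfsg.Agent.Helper10
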