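import Mathlib
import Cfsg.Prelude.Def_OddOrderChar
import Cfsg.Agent.Helper2.CharInner
import Cfsg.Agent.Helper2.CharComplete
import Cfsg.Agent.Helper2.CharOrtho
import Cfsg.Agent.Helper2.CharLinear
import Cfsg.Agent.Helper2.CharNat
import Cfsg.Agent.Helper2.IndFun
import Cfsg.Agent.Helper10.IndLemmas
import Cfsg.Agent.Helper10.VirtualChar
import Cfsg.Agent.Helper10.CharSign
import Cfsg.Agent.Helper10.LinCharInner
import Cfsg.Agent.Helper10.AbDual
import Cfsg.Agent.Helper10.AddMatrix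
import Cfsg.Agent.Helper24.CharBasic
import Cfsg.Agent.Helper24.CharInv

set_option autoImplicit false

namespace Cfsg.Agent.Helper10

open Cfsg

open scoped ComplexConjugate

section TISet

variable {G : Type*} [Group G] [Fintype G]

/-- Induction from `N` fixes the value at a point `n` of `N` all of whose conjugates in `N` come
from `N`. -/
theorem tiset_ind_apply (N : Subgroup G) (α : N → ℂ) (hα : IsClassFunction N α) (n : N)
    (hti : ∀ y : G, y⁻¹ * (n : G) * y ∈ N → y ∈ N) : indFun N α (n : G) = α n := by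
  classical
  haveI : Fintype N := Fintype.ofFinite N
  rw [Helper2.indFun_apply]
  have hterm : ∀ x : G, extendByZero N α (x⁻¹ * (n : G) * x) = if x ∈ N then α n else 0 := by
    intro x
    by_cases hx : x ∈ N
    · rw [if_pos hx]
      have hm : x⁻¹ * (n : G) * x ∈ N := N.mul_mem (N.mul_mem (N.inv_mem hx) n.2) hx
      rw [Helper2.extendByZero_apply_mem N α hm]
      have h1 := hα n (⟨x, hx⟩⁻¹ : N)
      have h2 : (⟨x⁻¹ * (n : G) * x, hm⟩ : N) = (⟨x, hx⟩⁻¹ : N) * n * (⟨x, hx⟩⁻¹ : N)⁻¹ :=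
        Subtype.ext (by simp)
      rw [h2]
      exact h1
    · rw [if_neg hx]
      exact Helper2.extendByZero_apply_not_mem N α (fun hm => hx (hti x hm))
  have hc : (Finset.univ.filter (fun x : G => x ∈ N)).card = Nat.card N := by
    rw [Nat.card_eq_fintype_card]
    exact (Fintype.card_of_subtype _ (fun x => by simp)).symm
  have hsum : ∑ x : G, (if x ∈ N then α n else 0) = (Nat.card N : ℂ) * α n := by
    rw [← Finset.sum_filter, Finset.sum_const, nsmul_eq_mul, hc]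
  rw [Finset.sum_congr rfl (fun x _ => hterm x), hsum, ← mul_assoc,
    inv_mul_cancel₀ (by exact_mod_cast Nat.card_pos.ne'), one_mul]

/-- Induction from `N` is an isometry on class functions supported on a set `A` of points whose
conjugates in `N` come from `N`. -/
theorem tiset_ind_inner (N : Subgroup G) [Fintype N] (A : Set G)
    (hti : ∀ n : N, (n : G) ∈ A → ∀ y : G, y⁻¹ * (n : G) * y ∈ N → y ∈ N)
    (α β : N → ℂ) (hβ : IsClassFunction N β) (hα0 : ∀ n : N, (n : G) ∉ A → α n = 0) :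
    classInner (indFun N α) (indFun N β) = classInner α β := by
  rw [Helper2.frobenius_reciprocity N α (indFun N β) (Helper2.isClassFunction_indFun N β)]
  unfold classInner
  congr 1
  refine Finset.sum_congr rfl fun n _ => ?_
  show α n * conj (indFun N β (n : G)) = α n * conj (β n)
  by_cases hn : (n : G) ∈ A
  · rw [tiset_ind_apply N β hβ n (hti n hn)]
  · rw [hα0 n hn, zero_mul, zero_mul]

theorem indFun_sub (H : Subgroup G) (θ φ : H → ℂ) :
    indFun H (θ - φ) = indFun H θ - indFun H φ := by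
  have h : θ - φ = θ + (-1 : ℂ) • φ := by
    funext x
    simp only [Pi.sub_apply, Pi.add_apply, Pi.smul_apply, smul_eq_mul]
    ring
  rw [h, indFun_add, indFun_smul]
  funext g
  simp only [Pi.sub_apply, Pi.add_apply, Pi.smul_apply, smul_eq_mul]
  ring

/-- A generalized character of norm `2` vanishing at `1` is a difference of two distinct
irreducible characters. -/
theorem gen_norm_two_diff {θ : G → ℂ} (hθ : IsGeneralizedCharacter G θ)
    (h2 : classInner θ θ = 2) (h1 : θ 1 = 0) :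
    ∃ a b : G → ℂ, IsIrrCharacter G a ∧ IsIrrCharacter G b ∧ a ≠ b ∧ θ = a - b := by
  obtain ⟨χ₁, χ₂, e₁, e₂, hχ₁, hχ₂, hne, he₁, he₂, hexp⟩ := gen_norm_two hθ h2
  obtain ⟨d₁, hd₁, hd₁'⟩ := irr_one_eq hχ₁
  obtain ⟨d₂, hd₂, hd₂'⟩ := irr_one_eq hχ₂
  have h0 : (e₁ : ℂ) * χ₁ 1 + (e₂ : ℂ) * χ₂ 1 = 0 := by
    have h3 := congrFun hexp 1
    rw [h1] at h3
    simp only [Pi.add_apply, Pi.smul_apply, smul_eq_mul] at h3
    exact h3.symm
  rw [hd₁', hd₂'] at h0
  have h0' : e₁ * d₁ + e₂ * d₂ = 0 := by exact_mod_cast h0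
  rcases he₁ with rfl | rfl <;> rcases he₂ with rfl | rfl
  · exfalso; linarith
  · refine ⟨χ₁, χ₂, hχ₁, hχ₂, hne, ?_⟩
    rw [hexp]
    funext g
    simp only [Pi.add_apply, Pi.smul_apply, smul_eq_mul, Pi.sub_apply]
    push_cast
    ring
  · refine ⟨χ₂, χ₁, hχ₂, hχ₁, hne.symm, ?_⟩
    rw [hexp]
    funext g
    simp only [Pi.add_apply, Pi.smul_apply, smul_eq_mul, Pi.sub_apply]
    push_cast
    ring
  · exfalso; linarith

/-- Two differences of irreducible characters with inner product `1` share exactly one of their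
two constituents, in the same position. -/
theorem diff_inner_cases {a b a' b' : G → ℂ}
    (ha : IsIrrCharacter G a) (hb : IsIrrCharacter G b) (ha' : IsIrrCharacter G a')
    (hb' : IsIrrCharacter G b') (hab : a ≠ b) (hab' : a' ≠ b')
    (h : classInner (a - b) (a' - b') = 1) :
    (a = a' ∧ b ≠ b') ∨ (b = b' ∧ a ≠ a') := by
  rw [Helper2.classInner_sub_left, Helper2.classInner_sub_right, Helper2.classInner_sub_right,
    Helper2.classInner_irr ha ha', Helper2.classInner_irr ha hb', Helper2.classInner_irr hb ha',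
    Helper2.classInner_irr hb hb'] at h
  by_cases h1 : a = a'
  · by_cases h2 : b = b'
    · exfalso
      have h3 : a ≠ b' := fun h3 => hab (h3.trans h2.symm)
      have h4 : b ≠ a' := fun h4 => hab (h1.trans h4.symm)
      rw [if_pos h1, if_neg h3, if_neg h4, if_pos h2] at h
      norm_num at h
    · exact Or.inl ⟨h1, h2⟩
  · by_cases h2 : b = b'
    · exact Or.inr ⟨h2, h1⟩
    · exfalso
      rw [if_neg h1, if_neg h2] at h
      by_cases h3 : a = b'
      · by_cases h4 : b = a'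
        · rw [if_pos h3, if_pos h4] at h
          norm_num at h
        · rw [if_pos h3, if_neg h4] at h
          norm_num at h
      · by_cases h4 : b = a'
        · rw [if_neg h3, if_pos h4] at h
          norm_num at h
        · rw [if_neg h3, if_neg h4] at h
          norm_num at h

/-- A family of differences of irreducible characters with pairwise inner products `1` has a
common constituent. -/
theorem star_family {I : Type*} (D : I → G → ℂ)
    (hD : ∀ i, ∃ a b : G → ℂ, IsIrrCharacter G a ∧ IsIrrCharacter G b ∧ a ≠ b ∧ D i = a - b)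
    (hinner : ∀ i j, i ≠ j → classInner (D i) (D j) = 1)
    (htwo : ∃ i j : I, i ≠ j) :
    ∃ (δ : ℂ) (μ₀ : G → ℂ) (μ : I → G → ℂ), (δ = 1 ∨ δ = -1) ∧ IsIrrCharacter G μ₀ ∧
      (∀ i, IsIrrCharacter G (μ i)) ∧ ∀ i, D i = δ • (μ₀ - μ i) := by
  choose a b ha hb hab hDab using hD
  obtain ⟨i₁, i₂, hne⟩ := htwo
  have hcase : ∀ i j, i ≠ j → (a i = a j ∧ b i ≠ b j) ∨ (b i = b j ∧ a i ≠ a j) := by
    intro i j hij
    have h := hinner i j hij
    rw [hDab i, hDab j] at h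
    exact diff_inner_cases (ha i) (hb i) (ha j) (hb j) (hab i) (hab j) h
  rcases hcase i₁ i₂ hne with ⟨h12, h12'⟩ | ⟨h12, h12'⟩
  · have hall : ∀ j, a j = a i₁ := by
      intro j
      by_cases hj1 : j = i₁
      · rw [hj1]
      by_cases hj2 : j = i₂
      · rw [hj2]
        exact h12.symm
      rcases hcase i₁ j (Ne.symm hj1) with ⟨h, -⟩ | ⟨h, h'⟩
      · exact h.symm
      · exfalso
        rcases hcase i₂ j (Ne.symm hj2) with ⟨h2, -⟩ | ⟨h2, -⟩
        · exact h' (h12.trans h2)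
        · exact h12' (h.trans h2.symm)
    refine ⟨1, a i₁, b, Or.inl rfl, ha i₁, hb, fun i => ?_⟩
    rw [hDab i, hall i, one_smul]
  · have hall : ∀ j, b j = b i₁ := by
      intro j
      by_cases hj1 : j = i₁
      · rw [hj1]
      by_cases hj2 : j = i₂
      · rw [hj2]
        exact h12.symm
      rcases hcase i₁ j (Ne.symm hj1) with ⟨h, h'⟩ | ⟨h, -⟩
      · exfalso
        rcases hcase i₂ j (Ne.symm hj2) with ⟨h2, -⟩ | ⟨h2, -⟩
        · exact h12' (h.trans h2.symm)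
        · exact h' (h12.trans h2)
      · exact h.symm
    refine ⟨-1, b i₁, a, Or.inr rfl, hb i₁, ha, fun i => ?_⟩
    rw [hDab i, hall i]
    funext g
    simp only [Pi.sub_apply, Pi.smul_apply, smul_eq_mul]
    ring

/-- If the values at `g` of an injective family of irreducible characters are `u ω + c ω` with
`|u ω| = 1`, the family has as many members as the centralizer of `g` has elements, and the
cross terms cancel, then all `c ω` vanish and so does every other irreducible character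
at `g`. -/
theorem values_of_family {Ω : Type*} [Fintype Ω]
    (μ : Ω → G → ℂ) (hirr : ∀ ω, IsIrrCharacter G (μ ω)) (hinj : Function.Injective μ)
    (g : G) (u c : Ω → ℂ)
    (hμ : ∀ ω, μ ω g = u ω + c ω)
    (hu : ∀ ω, Complex.normSq (u ω) = 1)
    (hT : ∑ ω, u ω * conj (c ω) = 0)
    (hcard : Nat.card (Subgroup.centralizer ({g} : Set G)) = Fintype.card Ω) :
    (∀ ω, c ω = 0) ∧ ∀ θ : G → ℂ, IsIrrCharacter G θ → (∀ ω, θ ≠ μ ω) → θ g = 0 := by
  classical
  haveI := Helper24.finite_irrCharacter (G := G)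
  haveI := Fintype.ofFinite (IrrCharacter G)
  have h2 := Helper2.second_orthogonality g g
  rw [if_pos (IsConj.refl g)] at h2
  have h2' : ∑ χ : IrrCharacter G, Complex.normSq ((χ : G → ℂ) g) = (Fintype.card Ω : ℝ) := by
    have h3 : ∑ χ : IrrCharacter G, ((Complex.normSq ((χ : G → ℂ) g) : ℝ) : ℂ)
        = ((Fintype.card Ω : ℝ) : ℂ) := by
      rw [Finset.sum_congr rfl (fun (χ : IrrCharacter G) _ =>
        (Complex.mul_conj ((χ : G → ℂ) g)).symm), h2, hcard]
      simp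
    exact_mod_cast h3
  have hι : Function.Injective (fun ω : Ω => (⟨μ ω, hirr ω⟩ : IrrCharacter G)) :=
    fun a b h => hinj (congrArg Subtype.val h)
  have himg : ∑ χ ∈ Finset.univ.image (fun ω : Ω => (⟨μ ω, hirr ω⟩ : IrrCharacter G)),
      Complex.normSq ((χ : G → ℂ) g) = ∑ ω, Complex.normSq (μ ω g) :=
    Finset.sum_image (fun a _ b _ h => hι h)
  have hsplit : ∑ χ : IrrCharacter G, Complex.normSq ((χ : G → ℂ) g)
      = ∑ χ ∈ Finset.univ \ Finset.univ.image (fun ω : Ω => (⟨μ ω, hirr ω⟩ : IrrCharacter G)),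
          Complex.normSq ((χ : G → ℂ) g)
        + ∑ χ ∈ Finset.univ.image (fun ω : Ω => (⟨μ ω, hirr ω⟩ : IrrCharacter G)),
          Complex.normSq ((χ : G → ℂ) g) :=
    (Finset.sum_sdiff (Finset.subset_univ _)).symm
  have hexp : ∑ ω, Complex.normSq (μ ω g)
      = (Fintype.card Ω : ℝ) + ∑ ω, Complex.normSq (c ω) := by
    have h4 : ∀ ω, Complex.normSq (μ ω g)
        = 1 + Complex.normSq (c ω) + 2 * (u ω * conj (c ω)).re := by
      intro ω
      rw [hμ ω, Complex.normSq_add, hu ω]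
    rw [Finset.sum_congr rfl (fun ω _ => h4 ω), Finset.sum_add_distrib, Finset.sum_add_distrib,
      ← Finset.mul_sum, ← Complex.re_sum, hT]
    simp
  have hnn1 : 0 ≤ ∑ χ ∈ Finset.univ \ Finset.univ.image
      (fun ω : Ω => (⟨μ ω, hirr ω⟩ : IrrCharacter G)), Complex.normSq ((χ : G → ℂ) g) :=
    Finset.sum_nonneg (fun χ _ => Complex.normSq_nonneg _)
  have hnn2 : 0 ≤ ∑ ω, Complex.normSq (c ω) :=
    Finset.sum_nonneg (fun ω _ => Complex.normSq_nonneg _)
  have hz1 : ∑ ω, Complex.normSq (c ω) = 0 := by linarith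
  have hz2 : ∑ χ ∈ Finset.univ \ Finset.univ.image
      (fun ω : Ω => (⟨μ ω, hirr ω⟩ : IrrCharacter G)), Complex.normSq ((χ : G → ℂ) g) = 0 := by
    linarith
  constructor
  · intro ω
    have h5 := (Finset.sum_eq_zero_iff_of_nonneg
      (fun ω _ => Complex.normSq_nonneg (c ω))).mp hz1 ω (Finset.mem_univ ω)
    exact Complex.normSq_eq_zero.mp h5
  · intro θ hθ hne
    have hmem : (⟨θ, hθ⟩ : IrrCharacter G) ∈ Finset.univ \ Finset.univ.image
        (fun ω : Ω => (⟨μ ω, hirr ω⟩ : IrrCharacter G)) := by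
      rw [Finset.mem_sdiff]
      refine ⟨Finset.mem_univ _, fun h => ?_⟩
      obtain ⟨ω, -, hω⟩ := Finset.mem_image.mp h
      exact hne ω (congrArg Subtype.val hω).symm
    have h5 := (Finset.sum_eq_zero_iff_of_nonneg
      (fun χ _ => Complex.normSq_nonneg _)).mp hz2 _ hmem
    exact Complex.normSq_eq_zero.mp h5

end TISet

theorem comm_of_cyclic {G : Type*} [Group G] (H : Subgroup G) (hc : IsCyclic H) :
    ∀ a ∈ H, ∀ b ∈ H, a * b = b * a := by
  intro a ha b hb
  obtain ⟨g, hg⟩ := hc.exists_generator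
  obtain ⟨i, hi⟩ := Subgroup.mem_zpowers_iff.mp (hg ⟨a, ha⟩)
  obtain ⟨j, hj⟩ := Subgroup.mem_zpowers_iff.mp (hg ⟨b, hb⟩)
  have h := zpow_mul_comm g i j
  rw [hi, hj] at h
  exact congrArg Subtype.val h

theorem isClassFunction_of_comm {W : Type*} [Group W] (hcomm : ∀ a b : W, a * b = b * a)
    (f : W → ℂ) : IsClassFunction W f := by
  intro g h
  rw [hcomm h g, mul_inv_cancel_right]

open Classical in
theorem sum_hom_eq {W : Type*} [Group W] [Fintype W] (ω : W →* ℂˣ) :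
    ∑ x : W, ((ω x : ℂˣ) : ℂ) = if ω = 1 then (Nat.card W : ℂ) else 0 := by
  by_cases h : ω = 1
  · rw [if_pos h, h]
    simp [Nat.card_eq_fintype_card]
  · rw [if_neg h]
    have hf : (Units.coeHom ℂ).comp ω ≠ 1 := by
      intro h1
      apply h
      apply MonoidHom.ext
      intro v
      have h2 := DFunLike.congr_fun h1 v
      apply Units.ext
      simpa using h2
    exact sum_hom_units_eq_zero _ hf

/-- Congruence of the degree from the values on a subgroup. -/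
theorem congr_of_values {L : Type*} [Group L] [Fintype L] (W₁ : Subgroup L) (μ : L → ℂ)
    (hμ : IsCharacter L μ) (δ : ℂ) (hδ : δ = 1 ∨ δ = -1) (ω₁ : W₁ →* ℂˣ)
    (hval : ∀ x : W₁, x ≠ 1 → μ x = δ * ((ω₁ x : ℂˣ) : ℂ)) :
    ∃ n : ℤ, μ 1 - δ = n * (Nat.card W₁ : ℂ) := by
  classical
  haveI : Fintype W₁ := Fintype.ofFinite _
  have hres : IsCharacter W₁ (μ ∘ W₁.subtype) := Helper2.isCharacter_comp_hom W₁.subtype hμ
  have hone : IsCharacter W₁ (fun _ => (1 : ℂ)) :=
    Helper24.isCharacter_of_irr Helper2.isIrrCharacter_one_fun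
  obtain ⟨m, hm⟩ := Helper2.classInner_char_nat hres hone
  unfold classInner at hm
  have hne : (Nat.card W₁ : ℂ) ≠ 0 := by exact_mod_cast Nat.card_pos.ne'
  have h1 : ∑ x : W₁, (μ ∘ W₁.subtype) x * conj ((fun _ : W₁ => (1 : ℂ)) x)
      = ∑ x : W₁, μ (x : L) := by
    refine Finset.sum_congr rfl (fun x _ => ?_)
    simp
  rw [h1] at hm
  have hsum : ∑ x : W₁, μ (x : L) = (m : ℂ) * (Nat.card W₁ : ℂ) := by
    calc ∑ x : W₁, μ (x : L)
        = (Nat.card W₁ : ℂ) * ((Nat.card W₁ : ℂ)⁻¹ * ∑ x : W₁, μ (x : L)) := by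
          rw [← mul_assoc, mul_inv_cancel₀ hne, one_mul]
      _ = (m : ℂ) * (Nat.card W₁ : ℂ) := by rw [hm]; ring
  have hterm : ∀ x : W₁, μ (x : L)
      = δ * ((ω₁ x : ℂˣ) : ℂ) + (if x = 1 then μ 1 - δ else 0) := by
    intro x
    by_cases hx : x = 1
    · rw [if_pos hx, hx, map_one, Units.val_one, mul_one, Subgroup.coe_one]
      ring
    · rw [if_neg hx, add_zero]
      exact hval x hx
  have hsum2 : ∑ x : W₁, μ (x : L) = δ * ∑ x : W₁, ((ω₁ x : ℂˣ) : ℂ) + (μ 1 - δ) := by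
    rw [Finset.sum_congr rfl (fun x _ => hterm x), Finset.sum_add_distrib, ← Finset.mul_sum,
      Finset.sum_ite_eq']
    simp
  rw [hsum, sum_hom_eq] at hsum2
  rcases hδ with rfl | rfl
  · by_cases h : ω₁ = 1
    · rw [if_pos h] at hsum2
      exact ⟨(m : ℤ) - 1, by push_cast; linear_combination -hsum2⟩
    · rw [if_neg h] at hsum2
      exact ⟨(m : ℤ), by push_cast; linear_combination -hsum2⟩
  · by_cases h : ω₁ = 1
    · rw [if_pos h] at hsum2
      exact ⟨(m : ℤ) + 1, by push_cast; linear_combination -hsum2⟩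
    · rw [if_neg h] at hsum2
      exact ⟨(m : ℤ), by push_cast; linear_combination -hsum2⟩

section Family

variable {L : Type*} [Group L] [Fintype L] (W V : Subgroup L)

/-- Two linear characters of `W` agree on `V`. -/
def Agree (ω ω' : W →* ℂˣ) : Prop := ∀ w : W, (w : L) ∈ V → ω w = ω' w

/-- The function induced from the difference of two linear characters. -/
noncomputable def Dfn (ω ω' : W →* ℂˣ) : L → ℂ :=
  indFun W (fun w => ((ω w : ℂˣ) : ℂ) - ((ω' w : ℂˣ) : ℂ))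

open Classical in
theorem lin_inner [Fintype W] (ω ω' : W →* ℂˣ) :
    classInner (fun v : W => ((ω v : ℂˣ) : ℂ)) (fun v : W => ((ω' v : ℂˣ) : ℂ))
      = if ω = ω' then 1 else 0 := by
  by_cases h : ω = ω'
  · rw [if_pos h, h]
    exact classInner_hom_self ω'
  · rw [if_neg h]
    exact classInner_hom_ne h

theorem D_gen (ω ω' : W →* ℂˣ) : IsGeneralizedCharacter L (Dfn W ω ω') := by
  refine ⟨indFun W (fun w => ((ω w : ℂˣ) : ℂ)), indFun W (fun w => ((ω' w : ℂˣ) : ℂ)),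
    Helper2.isCharacter_indFun W (Helper2.isCharacter_of_hom ω),
    Helper2.isCharacter_indFun W (Helper2.isCharacter_of_hom ω'), ?_⟩
  exact indFun_sub W _ _

theorem D_one (ω ω' : W →* ℂˣ) : Dfn W ω ω' 1 = 0 := by
  unfold Dfn
  rw [indFun_one]
  simp

theorem D_add (ω ω' ω'' : W →* ℂˣ) : Dfn W ω ω'' = Dfn W ω ω' + Dfn W ω' ω'' := by
  unfold Dfn
  rw [← indFun_add]
  congr 1
  funext w
  simp only [Pi.add_apply]
  ring

theorem D_apply (hti : ∀ w : W, (w : L) ∉ V → ∀ y : L, y⁻¹ * (w : L) * y ∈ W → y ∈ W)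
    (hcomm : ∀ a b : W, a * b = b * a) (ω ω' : W →* ℂˣ) (w : W) (hw : (w : L) ∉ V) :
    Dfn W ω ω' (w : L) = ((ω w : ℂˣ) : ℂ) - ((ω' w : ℂˣ) : ℂ) := by
  unfold Dfn
  exact tiset_ind_apply W _ (isClassFunction_of_comm hcomm _) w (hti w hw)

open Classical in
theorem D_inner [Fintype W]
    (hti : ∀ w : W, (w : L) ∉ V → ∀ y : L, y⁻¹ * (w : L) * y ∈ W → y ∈ W)
    (hcomm : ∀ a b : W, a * b = b * a) {ω₁ ω₁' ω₂ ω₂' : W →* ℂˣ}
    (h₁ : Agree W V ω₁ ω₁') :
    classInner (Dfn W ω₁ ω₁') (Dfn W ω₂ ω₂') =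
      (if ω₁ = ω₂ then (1 : ℂ) else 0) - (if ω₁ = ω₂' then 1 else 0)
        - ((if ω₁' = ω₂ then 1 else 0) - (if ω₁' = ω₂' then 1 else 0)) := by
  have h := tiset_ind_inner W {g : L | g ∉ V} (fun n hn => hti n hn)
    (fun w : W => ((ω₁ w : ℂˣ) : ℂ) - ((ω₁' w : ℂˣ) : ℂ))
    (fun w : W => ((ω₂ w : ℂˣ) : ℂ) - ((ω₂' w : ℂˣ) : ℂ))
    (isClassFunction_of_comm hcomm _) (fun n hn => by
      have hnV : (n : L) ∈ V := by
        by_contra h
        exact hn h
      show ((ω₁ n : ℂˣ) : ℂ) - ((ω₁' n : ℂˣ) : ℂ) = 0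
      rw [h₁ n hnV, sub_self])
  unfold Dfn
  rw [h]
  show classInner ((fun w : W => ((ω₁ w : ℂˣ) : ℂ)) - (fun w : W => ((ω₁' w : ℂˣ) : ℂ)))
    ((fun w : W => ((ω₂ w : ℂˣ) : ℂ)) - (fun w : W => ((ω₂' w : ℂˣ) : ℂ))) = _
  rw [Helper2.classInner_sub_left, Helper2.classInner_sub_right, Helper2.classInner_sub_right,
    lin_inner, lin_inner, lin_inner, lin_inner]

/-- The structure of the induced differences on one class of linear characters agreeing
on `V`. -/
theorem class_struct [Fintype W]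
    (hti : ∀ w : W, (w : L) ∉ V → ∀ y : L, y⁻¹ * (w : L) * y ∈ W → y ∈ W)
    (hcomm : ∀ a b : W, a * b = b * a)
    (η : W →* ℂˣ) (hη : ∀ w : W, (w : L) ∈ V → η w = 1) (hη1 : η ≠ 1) (hη2 : η * η ≠ 1)
    (ω₀ : W →* ℂˣ) :
    ∃ (δ : ℂ) (m : (W →* ℂˣ) → L → ℂ), (δ = 1 ∨ δ = -1) ∧
      (∀ ω, Agree W V ω₀ ω → IsIrrCharacter L (m ω)) ∧
      (∀ ω, Agree W V ω₀ ω → Dfn W ω₀ ω = δ • (m ω₀ - m ω)) := by
  classical
  have hD : ∀ i : {ω : W →* ℂˣ // Agree W V ω₀ ω ∧ ω ≠ ω₀},
      ∃ a b : L → ℂ, IsIrrCharacter L a ∧ IsIrrCharacter L b ∧ a ≠ b ∧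
        Dfn W ω₀ i.1 = a - b := by
    intro i
    refine gen_norm_two_diff (D_gen W ω₀ i.1) ?_ (D_one W ω₀ i.1)
    rw [D_inner W V hti hcomm i.2.1, if_pos rfl, if_neg (Ne.symm i.2.2), if_neg i.2.2,
      if_pos rfl]
    norm_num
  have hinner : ∀ i j : {ω : W →* ℂˣ // Agree W V ω₀ ω ∧ ω ≠ ω₀}, i ≠ j →
      classInner (Dfn W ω₀ i.1) (Dfn W ω₀ j.1) = 1 := by
    intro i j hij
    have hij' : i.1 ≠ j.1 := fun h => hij (Subtype.ext h)
    rw [D_inner W V hti hcomm i.2.1, if_pos rfl, if_neg (Ne.symm j.2.2), if_neg i.2.2,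
      if_neg hij']
    norm_num
  have htwo : ∃ i j : {ω : W →* ℂˣ // Agree W V ω₀ ω ∧ ω ≠ ω₀}, i ≠ j := by
    have hA1 : Agree W V ω₀ (ω₀ * η) := by
      intro w hw
      rw [MonoidHom.mul_apply, hη w hw, mul_one]
    have hN1 : ω₀ * η ≠ ω₀ := by
      intro h
      have h3 : ω₀ * η = ω₀ * 1 := h.trans (mul_one ω₀).symm
      exact hη1 (mul_left_cancel h3)
    have hA2 : Agree W V ω₀ (ω₀ * (η * η)) := by
      intro w hw
      rw [MonoidHom.mul_apply, MonoidHom.mul_apply, hη w hw, mul_one, mul_one]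
    have hN2 : ω₀ * (η * η) ≠ ω₀ := by
      intro h
      have h3 : ω₀ * (η * η) = ω₀ * 1 := h.trans (mul_one ω₀).symm
      exact hη2 (mul_left_cancel h3)
    refine ⟨⟨ω₀ * η, hA1, hN1⟩, ⟨ω₀ * (η * η), hA2, hN2⟩, fun h => ?_⟩
    have h' : ω₀ * η = ω₀ * (η * η) := congrArg Subtype.val h
    have h'' : η = η * η := mul_left_cancel h'
    have h3 : η * 1 = η * η := (mul_one η).trans h''
    exact hη1 (mul_left_cancel h3).symm
  obtain ⟨δ, μ₀, μ, hδ, hμ₀, hμ, hDμ⟩ :=
    star_family (fun i : {ω : W →* ℂˣ // Agree W V ω₀ ω ∧ ω ≠ ω₀} => Dfn W ω₀ i.1)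
      hD hinner htwo
  have h0 : ¬ (Agree W V ω₀ ω₀ ∧ ω₀ ≠ ω₀) := fun hh => hh.2 rfl
  refine ⟨δ, fun ω => if h : Agree W V ω₀ ω ∧ ω ≠ ω₀ then μ ⟨ω, h⟩ else μ₀, hδ, ?_, ?_⟩
  · intro ω hω
    by_cases h : ω = ω₀
    · have h' : ¬ (Agree W V ω₀ ω ∧ ω ≠ ω₀) := fun hh => hh.2 h
      simp only [dif_neg h']
      exact hμ₀
    · simp only [dif_pos (⟨hω, h⟩ : Agree W V ω₀ ω ∧ ω ≠ ω₀)]
      exact hμ _
  · intro ω hω
    by_cases h : ω = ω₀
    · subst h
      simp only [dif_neg h0]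
      rw [sub_self, smul_zero]
      unfold Dfn
      have hz : (fun w : W => ((ω w : ℂˣ) : ℂ) - ((ω w : ℂˣ) : ℂ)) = 0 := by
        funext w
        simp
      rw [hz, indFun_zero]
    · simp only [dif_neg h0, dif_pos (⟨hω, h⟩ : Agree W V ω₀ ω ∧ ω ≠ ω₀)]
      exact hDμ ⟨ω, hω, h⟩

end Family

end Cfsg.Agent.Helper10
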