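import Mathlib
import Cfsg.Prelude.Def_OddOrderChar
import Cfsg.Agent.Helper10.GlaubLemma
import Cfsg.Agent.Helper10.BrauerPerm

set_option autoImplicit false

namespace Cfsg.Agent.Helper10

open Cfsg

section TypePKernel

/-- If `x` has order coprime to `|K|`, `K` is normal, and `x ^ n` is `K`-conjugate to `n`, then
some `K`-conjugate of `n` lies in `C_K(x)`. -/
theorem conj_mem_cent_of_coprime {L : Type*} [Group L] [Finite L] (K W₂ : Subgroup L)
    [hK : K.Normal] (x : L) (hcop : (orderOf x).Coprime (Nat.card K))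
    (hC : K ⊓ Subgroup.centralizer ({x} : Set L) = W₂)
    {n c : L} (hn : n ∈ K) (hc : c ∈ K) (h : c * (x * n * x⁻¹) * c⁻¹ = n) :
    ∃ d ∈ K, d * n * d⁻¹ ∈ W₂ := by
  obtain ⟨d, hd, hdS⟩ := exists_conj_mem_of_coprime K (Subgroup.centralizer ({n} : Set L)) x
    (fun d hd => hK.conj_mem d hd x) hcop hc (by
      rw [Subgroup.mem_centralizer_iff]
      intro y hy
      rw [Set.mem_singleton_iff] at hy
      rw [hy]
      have e : n * (c * x) = c * (x * n * x⁻¹) * c⁻¹ * (c * x) := by rw [h]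
      rw [e]
      group)
  refine ⟨d⁻¹, K.inv_mem hd, ?_⟩
  rw [← hC]
  refine Subgroup.mem_inf.2 ⟨hK.conj_mem n hn d⁻¹, ?_⟩
  rw [Subgroup.mem_centralizer_iff]
  intro y hy
  rw [Set.mem_singleton_iff] at hy
  rw [hy]
  have h1 := (Subgroup.mem_centralizer_iff.1 hdS) n (Set.mem_singleton n)
  have e : x * (d⁻¹ * n * d⁻¹⁻¹) = d⁻¹ * (d * x * d⁻¹ * n) * d := by group
  rw [e, ← h1]
  group

/-- Two elements of the abelian group `W₂ = C_K(x)` that are conjugate in `K` are equal, when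
`x` lies in a complement `W₁` of `K` and has order coprime to `|K|`. -/
theorem eq_of_conj_of_cent {L : Type*} [Group L] [Finite L] (K W₁ W₂ : Subgroup L)
    [hK : K.Normal] (hKW₁ : K ⊓ W₁ = ⊥) (x : L) (hx : x ∈ W₁)
    (hcop : (orderOf x).Coprime (Nat.card K))
    (hC : K ⊓ Subgroup.centralizer ({x} : Set L) = W₂)
    (hab : ∀ a ∈ W₂, ∀ b ∈ W₂, a * b = b * a)
    {w w' k : L} (hw : w ∈ W₂) (hw' : w' ∈ W₂) (hk : k ∈ K) (h : k * w * k⁻¹ = w') :
    w = w' := by
  have hcomm : ∀ v ∈ W₂, v * x = x * v := by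
    intro v hv
    rw [← hC] at hv
    exact (Subgroup.mem_centralizer_iff.1 (Subgroup.mem_inf.1 hv).2) x (Set.mem_singleton x) |>.symm
  have hxw : w * x = x * w := hcomm w hw
  have hxw' : w' * x = x * w' := hcomm w' hw'
  have hxiw : w * x⁻¹ = x⁻¹ * w := by
    have e : w * x⁻¹ = x⁻¹ * (x * w) * x⁻¹ := by group
    rw [e, ← hxw]
    group
  have hkw : k * w = w' * k := by
    rw [← h]
    group
  have hkiw : k⁻¹ * w' = w * k⁻¹ := by
    rw [← h]
    group
  obtain ⟨D, hD⟩ : ∃ D : Subgroup L, D = K ⊓ Subgroup.centralizer ({w} : Set L) := ⟨_, rfl⟩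
  have hmemD : ∀ d : L, d ∈ D ↔ d ∈ K ∧ w * d = d * w := by
    intro d
    rw [hD, Subgroup.mem_inf, Subgroup.mem_centralizer_iff]
    constructor
    · rintro ⟨h1, h2⟩
      exact ⟨h1, h2 w (Set.mem_singleton w)⟩
    · rintro ⟨h1, h2⟩
      refine ⟨h1, ?_⟩
      intro y hy
      rw [Set.mem_singleton_iff] at hy
      rw [hy]
      exact h2
  have hxD : ∀ d ∈ D, x * d * x⁻¹ ∈ D := by
    intro d hd
    obtain ⟨hd1, hd2⟩ := (hmemD d).1 hd
    refine (hmemD _).2 ⟨hK.conj_mem d hd1 x, ?_⟩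
    calc w * (x * d * x⁻¹) = (w * x) * d * x⁻¹ := by group
      _ = x * (w * d) * x⁻¹ := by rw [hxw]; group
      _ = x * d * (w * x⁻¹) := by rw [hd2]; group
      _ = x * d * x⁻¹ * w := by rw [hxiw]; group
  have hcopD : (orderOf x).Coprime (Nat.card D) := by
    refine Nat.Coprime.coprime_dvd_right (Subgroup.card_dvd_of_le ?_) hcop
    rw [hD]
    exact inf_le_left
  have hcD : k⁻¹ * x * k * x⁻¹ ∈ D := by
    refine (hmemD _).2 ⟨?_, ?_⟩
    · have e : k⁻¹ * x * k * x⁻¹ = k⁻¹ * (x * k * x⁻¹) := by group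
      rw [e]
      exact K.mul_mem (K.inv_mem hk) (hK.conj_mem k hk x)
    · calc w * (k⁻¹ * x * k * x⁻¹) = (w * k⁻¹) * x * k * x⁻¹ := by group
        _ = k⁻¹ * (w' * x) * k * x⁻¹ := by rw [← hkiw]; group
        _ = k⁻¹ * x * (w' * k) * x⁻¹ := by rw [hxw']; group
        _ = k⁻¹ * x * k * (w * x⁻¹) := by rw [← hkw]; group
        _ = k⁻¹ * x * k * x⁻¹ * w := by rw [hxiw]; group
  obtain ⟨δ, hδ, hδS⟩ := exists_conj_mem_of_coprime D (Subgroup.zpowers (k⁻¹ * x * k⁻¹⁻¹)) x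
    hxD hcopD hcD (by
      have e : k⁻¹ * x * k * x⁻¹ * x = k⁻¹ * x * k⁻¹⁻¹ := by group
      rw [e]
      exact Subgroup.mem_zpowers _)
  obtain ⟨j, hj⟩ := Subgroup.mem_zpowers_iff.1 hδS
  rw [conj_zpow] at hj
  obtain ⟨hδK, hδw⟩ := (hmemD δ).1 hδ
  have hkδ : k * δ ∈ K := K.mul_mem hk hδK
  have h1 : (k * δ) * x * (k * δ)⁻¹ = x ^ j := by
    have e : x ^ j = k * (k⁻¹ * x ^ j * k⁻¹⁻¹) * k⁻¹ := by group
    rw [e, hj]
    group
  have h2 : x ^ j * x⁻¹ ∈ K ⊓ W₁ := by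
    refine Subgroup.mem_inf.2 ⟨?_, W₁.mul_mem (W₁.zpow_mem hx j) (W₁.inv_mem hx)⟩
    rw [← h1]
    have e : k * δ * x * (k * δ)⁻¹ * x⁻¹ = (k * δ) * (x * (k * δ)⁻¹ * x⁻¹) := by group
    rw [e]
    exact K.mul_mem hkδ (hK.conj_mem _ (K.inv_mem hkδ) x)
  rw [hKW₁, Subgroup.mem_bot] at h2
  have h3 : x ^ j = x := by
    have e : x ^ j = x ^ j * x⁻¹ * x := by group
    rw [e, h2, one_mul]
  rw [h3] at h1
  have h4 : k * δ ∈ W₂ := by
    rw [← hC]
    refine Subgroup.mem_inf.2 ⟨hkδ, ?_⟩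
    rw [Subgroup.mem_centralizer_iff]
    intro y hy
    rw [Set.mem_singleton_iff] at hy
    rw [hy]
    have e : x * (k * δ) = k * δ * x * (k * δ)⁻¹ * (k * δ) := by rw [h1]
    rw [e]
    group
  have h5 := hab (k * δ) h4 w hw
  have h6 : k * w = w * k := by
    have e : k * w = k * (w * δ) * δ⁻¹ := by group
    rw [e, hδw]
    have e2 : k * (δ * w) * δ⁻¹ = (k * δ * w) * δ⁻¹ := by group
    rw [e2, h5]
    group
  rw [← h, h6]
  group

/-- A class-counting identity: if `P` is the union of the conjugacy classes of the elements of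
`W`, and no two distinct elements of `W` are conjugate, the centralizer orders over `P` sum to
`|W| |N|`. -/
theorem sum_card_centralizer_eq {N : Type*} [Group N] [Fintype N] (W P : Finset N)
    (ha : ∀ n ∈ P, ∃ d : N, ∃ w ∈ W, d * w * d⁻¹ = n)
    (hb : ∀ w ∈ W, ∀ d : N, d * w * d⁻¹ ∈ P)
    (hc : ∀ w ∈ W, ∀ w' ∈ W, ∀ k : N, k * w * k⁻¹ = w' → w = w') :
    ∑ n ∈ P, Nat.card (Subgroup.centralizer ({n} : Set N)) = W.card * Nat.card N := by
  classical
  have h1 := Finset.card_eq_sum_card_fiberwise (s := W ×ˢ (Finset.univ : Finset N)) (t := P)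
    (f := fun p : N × N => p.2 * p.1 * p.2⁻¹) (by
      intro p hp
      exact hb p.1 (Finset.mem_product.1 hp).1 p.2)
  rw [Finset.card_product, Finset.card_univ, ← Nat.card_eq_fintype_card] at h1
  rw [h1]
  refine Finset.sum_congr rfl fun n hn => ?_
  obtain ⟨d, w₀, hw₀, hd⟩ := ha n hn
  have hcent : Nat.card (Subgroup.centralizer ({n} : Set N)) =
      (Finset.univ.filter (fun c : N => n * c = c * n)).card := by
    rw [Nat.card_eq_fintype_card, Fintype.card_subtype]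
    congr 1
    ext c
    simp only [Finset.mem_filter, Finset.mem_univ, true_and, Subgroup.mem_centralizer_iff,
      Set.mem_singleton_iff, forall_eq]
  rw [hcent]
  symm
  have hfib : ∀ p : N × N, p ∈ (W ×ˢ (Finset.univ : Finset N)).filter
      (fun p : N × N => p.2 * p.1 * p.2⁻¹ = n) → p.1 = w₀ := by
    intro p hp
    obtain ⟨hp1, hp2⟩ := Finset.mem_filter.1 hp
    have hpW := (Finset.mem_product.1 hp1).1
    refine hc p.1 hpW w₀ hw₀ (d⁻¹ * p.2) ?_
    have e : d⁻¹ * p.2 * p.1 * (d⁻¹ * p.2)⁻¹ = d⁻¹ * (p.2 * p.1 * p.2⁻¹) * d := by group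
    rw [e, hp2, ← hd]
    group
  refine Finset.card_bij (fun p _ => p.2 * d⁻¹) ?_ ?_ ?_
  · intro p hp
    have hp2 := (Finset.mem_filter.1 hp).2
    have hp1 := hfib p hp
    rw [Finset.mem_filter]
    refine ⟨Finset.mem_univ _, ?_⟩
    rw [hp1] at hp2
    rw [← hd]
    have e : d * w₀ * d⁻¹ * (p.2 * d⁻¹) = d * w₀ * d⁻¹ * p.2 * d⁻¹ := by group
    have e2 : p.2 * d⁻¹ * (d * w₀ * d⁻¹) = (p.2 * w₀ * p.2⁻¹) * p.2 * d⁻¹ := by group
    rw [e, e2, hp2, ← hd]
  · intro p hp q hq hpq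
    have h2 : p.2 = q.2 := by
      have := congrArg (· * d) hpq
      simpa using this
    exact Prod.ext ((hfib p hp).trans (hfib q hq).symm) h2
  · intro c hc'
    have hc2 := (Finset.mem_filter.1 hc').2
    refine ⟨(w₀, c * d), ?_, ?_⟩
    · rw [Finset.mem_filter]
      refine ⟨Finset.mem_product.2 ⟨hw₀, Finset.mem_univ _⟩, ?_⟩
      show c * d * w₀ * (c * d)⁻¹ = n
      have e : c * d * w₀ * (c * d)⁻¹ = c * (d * w₀ * d⁻¹) * c⁻¹ := by group
      rw [e, hd, ← hc2]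
      group
    · show c * d * d⁻¹ = c
      group

/-- Under the hypotheses of the "type P" kernel configuration, for a non-identity `x` in the
complement, the irreducible characters of `K` fixed by `x` number `|C_K(x)|`. -/
theorem card_fixed_irr {L : Type*} [Group L] [Fintype L] (K W₁ W₂ : Subgroup L) [hK : K.Normal]
    [Fintype K] (hKW₁ : K ⊓ W₁ = ⊥) (x : L) (hx : x ∈ W₁)
    (hcop : (orderOf x).Coprime (Nat.card K))
    (hC : K ⊓ Subgroup.centralizer ({x} : Set L) = W₂)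
    (hab : ∀ a ∈ W₂, ∀ b ∈ W₂, a * b = b * a)
    (F : Finset (IrrCharacter K))
    (hF : ∀ θ : IrrCharacter K, θ ∈ F ↔
      (fun k : K => (θ : K → ℂ) ⟨x * k * x⁻¹, hK.conj_mem (k : L) k.2 x⟩) = (θ : K → ℂ)) :
    F.card = Nat.card W₂ := by
  classical
  have hW₂K : W₂ ≤ K := by
    rw [← hC]
    exact inf_le_left
  have hcomm : ∀ v ∈ W₂, v * x = x * v := by
    intro v hv
    rw [← hC] at hv
    exact (Subgroup.mem_centralizer_iff.1 (Subgroup.mem_inf.1 hv).2) x (Set.mem_singleton x) |>.symm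
  obtain ⟨P, hP⟩ : ∃ P : Finset K, ∀ n : K, n ∈ P ↔
      IsConj ((MulAut.conjNormal x : K ≃* K) n) n :=
    ⟨Finset.univ.filter (fun n : K => IsConj ((MulAut.conjNormal x : K ≃* K) n) n), by simp⟩
  obtain ⟨W, hW⟩ : ∃ W : Finset K, ∀ n : K, n ∈ W ↔ (n : L) ∈ W₂ :=
    ⟨Finset.univ.filter (fun n : K => (n : L) ∈ W₂), by simp⟩
  have hb1 := brauer_count (MulAut.conjNormal x : K ≃* K) F (by
    intro θ
    rw [hF θ]
    have e : (fun n : K => (θ : K → ℂ) ((MulAut.conjNormal x : K ≃* K) n)) =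
        fun k : K => (θ : K → ℂ) ⟨x * k * x⁻¹, hK.conj_mem (k : L) k.2 x⟩ := by
      funext n
      congr 1
    rw [e]) P hP
  have hconjval : ∀ n : K, (((MulAut.conjNormal x : K ≃* K) n : K) : L) = x * n * x⁻¹ := by
    intro n
    rfl
  have hb2 := sum_card_centralizer_eq W P (by
      intro n hn
      obtain ⟨c, hc⟩ := isConj_iff.1 ((hP n).1 hn)
      have hc' : (c : L) * (x * n * x⁻¹) * (c : L)⁻¹ = n := by
        have := congrArg (Subtype.val : K → L) hc
        simpa using this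
      obtain ⟨d, hd, hdW⟩ := conj_mem_cent_of_coprime K W₂ x hcop hC n.2 c.2 hc'
      refine ⟨⟨d, hd⟩⁻¹, ⟨d * n * d⁻¹, hW₂K hdW⟩, (hW _).2 hdW, ?_⟩
      apply Subtype.ext
      simp only [Subgroup.coe_mul, Subgroup.coe_inv, inv_inv]
      group) (by
      intro w hw d
      rw [hP, isConj_iff]
      have hwW := (hW w).1 hw
      refine ⟨d * ((MulAut.conjNormal x : K ≃* K) d)⁻¹, ?_⟩
      apply Subtype.ext
      simp only [Subgroup.coe_mul, Subgroup.coe_inv, hconjval]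
      have e : (d : L) * (x * d * x⁻¹)⁻¹ * (x * ((d : L) * w * (d : L)⁻¹) * x⁻¹) *
          ((d : L) * (x * d * x⁻¹)⁻¹)⁻¹ = d * (x * w) * x⁻¹ * (d : L)⁻¹ := by group
      rw [e, ← hcomm w hwW]
      group) (by
      intro w hw w' hw' k hk
      apply Subtype.ext
      refine eq_of_conj_of_cent K W₁ W₂ hKW₁ x hx hcop hC hab ((hW w).1 hw) ((hW w').1 hw') k.2 ?_
      have := congrArg (Subtype.val : K → L) hk
      simpa using this)
  have hWcard : W.card = Nat.card W₂ := by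
    rw [← Nat.card_congr (Subgroup.subgroupOfEquivOfLe hW₂K).toEquiv, Nat.card_eq_fintype_card,
      Fintype.card_subtype]
    congr 1
    ext n
    simp only [Finset.mem_filter, Finset.mem_univ, true_and, Subgroup.mem_subgroupOf]
    exact hW n
  rw [hb2, hWcard] at hb1
  exact Nat.eq_of_mul_eq_mul_right Nat.card_pos hb1

end TypePKernel

end Cfsg.Agent.Helper10
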